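import Mathlib
import Cfsg.Agent.Helper4.OrthPlane
import Cfsg.Agent.Helper4.OSiegel1

set_option autoImplicit false
open Cfsg

namespace Cfsg.Agent.Helper25.NSmT

open Matrix Cfsg.Agent.Helper4.OrthPlane Cfsg.Agent.Helper4.OSiegel

variable {ι : Type} [Fintype ι] [DecidableEq ι] {F : Type*} [Field F]
variable (Q : (ι → F) → F)

/-- In a subspace `V1` on which the polar form is nondegenerate: a vector `u` of `V1` which is not a
multiple of `w` has a partner `t` in `V1`, orthogonal to `w`, with `B(u,t) = 1`. -/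
theorem exists_partner_in (hQ : Cfsg.Geo.IsNondegenerateQuadraticForm Q) (V1 : Submodule F (ι → F))
    (hnd : ∀ u ∈ V1, (∀ w ∈ V1, Bf Q hQ u w = 0) → u = 0) (u w : ι → F) (hu : u ∈ V1) (hw : w ∈ V1)
    (hne : ∀ c : F, u ≠ c • w) :
    ∃ t ∈ V1, Bf Q hQ w t = 0 ∧ Bf Q hQ u t = 1 := by
  by_contra hcon
  have h0 : ∀ t ∈ V1, Bf Q hQ w t = 0 → Bf Q hQ u t = 0 := by
    intro t ht hwt
    by_contra hut
    apply hcon
    refine ⟨(Bf Q hQ u t)⁻¹ • t, V1.smul_mem _ ht, ?_, ?_⟩
    · rw [map_smul, hwt, smul_zero]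
    · rw [map_smul, smul_eq_mul, inv_mul_cancel₀ hut]
  by_cases hw0 : ∃ t ∈ V1, Bf Q hQ w t ≠ 0
  · obtain ⟨t₀, ht₀, hwt₀⟩ := hw0
    have key : u - (Bf Q hQ u t₀ * (Bf Q hQ w t₀)⁻¹) • w = 0 := by
      apply hnd _ (V1.sub_mem hu (V1.smul_mem _ hw))
      intro t ht
      have h1 : Bf Q hQ w (t - (Bf Q hQ w t * (Bf Q hQ w t₀)⁻¹) • t₀) = 0 := by
        rw [map_sub, map_smul, smul_eq_mul, mul_assoc, inv_mul_cancel₀ hwt₀, mul_one, sub_self]
      have h2 := h0 _ (V1.sub_mem ht (V1.smul_mem _ ht₀)) h1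
      rw [map_sub, map_smul, smul_eq_mul] at h2
      rw [map_sub, map_smul, LinearMap.sub_apply, LinearMap.smul_apply, smul_eq_mul]
      linear_combination h2
    exact hne _ (sub_eq_zero.1 key)
  · have hu0 : u = 0 := hnd u hu (fun t ht => h0 t ht (by
      by_contra h
      exact hw0 ⟨t, ht, h⟩))
    exact hne 0 (by rw [hu0, zero_smul])

/-- Transitivity step (characteristic 2): two vectors `u, v` of norm 1 in a subspace `V1` on which the
polar form is nondegenerate are exchanged by an isometry which is the identity on the orthogonal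
complement of `V1` and stabilizes `V1` (a reflection in `u + v`, or a Siegel transformation). -/
theorem exists_move (hQ : Cfsg.Geo.IsNondegenerateQuadraticForm Q) (hch : (2 : F) = 0)
    (V1 : Submodule F (ι → F))
    (hnd : ∀ u ∈ V1, (∀ w ∈ V1, Bf Q hQ u w = 0) → u = 0)
    (u v : ι → F) (hu : u ∈ V1) (hv : v ∈ V1) (hQu : Q u = 1) (hQv : Q v = 1) :
    ∃ g : GL ι F, g ∈ Cfsg.isometryGroup F Q ∧ (g : Matrix ι ι F) *ᵥ u = v ∧
      (∀ y, (∀ w ∈ V1, Bf Q hQ y w = 0) → (g : Matrix ι ι F) *ᵥ y = y) ∧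
      (∀ y ∈ V1, (g : Matrix ι ι F) *ᵥ y ∈ V1) := by
  have h2 : ∀ x : ι → F, x + x = 0 := by
    intro x
    rw [← two_smul F x, hch, zero_smul]
  have hBself : ∀ x, Bf Q hQ x x = 0 := by
    intro x
    rw [Bf_self Q hQ, hch, zero_mul]
  by_cases huv : u = v
  · subst huv
    refine ⟨1, Subgroup.one_mem _, by simp, fun y _ => by simp, fun y hy => by simpa using hy⟩
  by_cases hB : Bf Q hQ u v = 0
  · have hw : Q (u + v) = 0 := by
      rw [Q_add Q hQ, hQu, hQv, hB, add_zero, one_add_one_eq_two]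
      exact hch
    have hne : ∀ c : F, u ≠ c • (u + v) := by
      intro c hc
      have h3 : (1 - c) • u = c • v := by
        rw [sub_smul, one_smul]
        have hc' := hc
        rw [smul_add] at hc'
        exact sub_eq_of_eq_add' hc'
      have h4 := congrArg Q h3
      rw [hQ.smul, hQ.smul, hQu, hQv, mul_one, mul_one] at h4
      have h10 : (1 : F) = 0 := by linear_combination h4 + c * hch
      exact one_ne_zero h10
    obtain ⟨t, ht, hwt, hut⟩ :=
      exists_partner_in Q hQ V1 hnd u (u + v) hu (V1.add_mem hu hv) hne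
    refine ⟨eG Q hQ (u + v) t hw hwt, eG_mem Q hQ _ _ hw hwt, ?_, ?_, ?_⟩
    · show Ev Q hQ (u + v) t *ᵥ u = v
      rw [Ev_mulVec]
      have h5 : Bf Q hQ (u + v) u = 0 := by
        rw [map_add, LinearMap.add_apply, hBself, Bf_symm Q hQ v u, hB, add_zero]
      have h6 : Bf Q hQ t u = 1 := by
        rw [Bf_symm Q hQ]
        exact hut
      rw [h5, h6, mul_zero, zero_smul, zero_smul, one_smul, sub_zero, sub_zero, ← add_assoc,
        h2 u, zero_add]
    · intro y hy
      show Ev Q hQ (u + v) t *ᵥ y = y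
      rw [Ev_mulVec]
      have h7 : Bf Q hQ t y = 0 := by
        rw [Bf_symm Q hQ]
        exact hy t ht
      have h8 : Bf Q hQ (u + v) y = 0 := by
        rw [Bf_symm Q hQ]
        exact hy _ (V1.add_mem hu hv)
      rw [h7, h8, mul_zero, zero_smul, zero_smul, add_zero, sub_zero, sub_zero]
    · intro y hy
      show Ev Q hQ (u + v) t *ᵥ y ∈ V1
      rw [Ev_mulVec]
      exact V1.sub_mem (V1.sub_mem (V1.add_mem hy (V1.smul_mem _ (V1.add_mem hu hv)))
        (V1.smul_mem _ (V1.add_mem hu hv))) (V1.smul_mem _ ht)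
  · have hw : Q (u + v) = Bf Q hQ u v := by
      rw [Q_add Q hQ, hQu, hQv, one_add_one_eq_two, hch, zero_add]
    have hw0 : Q (u + v) ≠ 0 := by
      rw [hw]
      exact hB
    refine ⟨rG Q hQ (u + v) hw0, rG_mem Q hQ _ hw0, ?_, ?_, ?_⟩
    · show R Q hQ (u + v) *ᵥ u = v
      rw [R_mulVec]
      have h5 : Bf Q hQ (u + v) u = Bf Q hQ u v := by
        rw [map_add, LinearMap.add_apply, hBself, zero_add, Bf_symm Q hQ]
      rw [h5, hw, inv_mul_cancel₀ hB, one_smul, sub_add_eq_sub_sub, sub_self, zero_sub]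
      exact neg_eq_of_add_eq_zero_left (h2 v)
    · intro y hy
      show R Q hQ (u + v) *ᵥ y = y
      rw [R_mulVec]
      have h8 : Bf Q hQ (u + v) y = 0 := by
        rw [Bf_symm Q hQ]
        exact hy _ (V1.add_mem hu hv)
      rw [h8, mul_zero, zero_smul, sub_zero]
    · intro y hy
      show R Q hQ (u + v) *ᵥ y ∈ V1
      rw [R_mulVec]
      exact V1.sub_mem hy (V1.smul_mem _ (V1.add_mem hu hv))

end Cfsg.Agent.Helper25.NSmT
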