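import Mathlib
import Cfsg.Prelude.Def_RootSubgroups
import Cfsg.Agent.Helper25.RankOne

set_option autoImplicit false

namespace Cfsg.Agent.Helper25

open Cfsg

variable {G : Type*} [Group G]

/-- If `g` commutes with every element of `A` then `g` normalizes `A`. -/
theorem conjBy_eq_of_commute {A : Subgroup G} {g : G} (h : ∀ x ∈ A, g * x = x * g) : conjBy A g = A := by
  ext x
  rw [mem_conjBy]
  constructor
  · intro hx
    have h1 := h _ hx
    have h2 : x = g⁻¹ * x * g := by
      calc x = g * (g⁻¹ * x * g) * g⁻¹ := by group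
        _ = g⁻¹ * x * g * g * g⁻¹ := by rw [h1]
        _ = g⁻¹ * x * g := by group
    rw [h2]
    exact hx
  · intro hx
    have h1 := h _ hx
    have h2 : g⁻¹ * x * g = x := by
      calc g⁻¹ * x * g = g⁻¹ * (x * g) := by group
        _ = g⁻¹ * (g * x) := by rw [h1]
        _ = x := by group
    rw [h2]
    exact hx

/-- If every generator commutator is trivial, the closure is trivial. -/
theorem closure_image_eq_bot {s : Set G} (f : G → G) (h : ∀ x ∈ s, f x = 1) :
    Subgroup.closure (f '' s) = ⊥ := by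
  rw [Subgroup.closure_eq_bot_iff]
  rintro _ ⟨x, hx, rfl⟩
  exact h x hx

/-- Key lemma on sets of abstract root subgroups: let `A ∈ S` have the rank one partner `B ∈ S`, let `z`
centralize `⟨A, B⟩` and let `a` be a non-identity element of `A`. If `z * a` lies in a member `C` of `S`,
then `C = A`. -/
theorem root_key {S : Set (Subgroup G)} (hS : IsRootSubgroupSet S) {A B C : Subgroup G}
    (hA : A ∈ S) (hB : B ∈ S) (hAB : IsRankOnePair A B) (hC : C ∈ S) {z a : G}
    (hz : z ∈ Subgroup.centralizer ((A ⊔ B : Subgroup G) : Set G)) (ha : a ∈ A) (ha1 : a ≠ 1)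
    (hc : z * a ∈ C) : C = A := by
  have hzc : ∀ x ∈ A ⊔ B, x * z = z * x := fun x hx => Subgroup.mem_centralizer_iff.mp hz x hx
  have hzA : ∀ x ∈ A, x * z = z * x := fun x hx => hzc x ((le_sup_left : A ≤ A ⊔ B) hx)
  have hzB : ∀ x ∈ B, x * z = z * x := fun x hx => hzc x ((le_sup_right : B ≤ A ⊔ B) hx)
  have hAcomm : ∀ x ∈ A, ∀ y ∈ A, x * y = y * x := by
    intro x hx y hy
    have := hS.commutative A hA
    have h1 := (this.is_comm.comm ⟨x, hx⟩ ⟨y, hy⟩)
    exact congrArg Subtype.val h1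
  -- `c = z * a` commutes with `A`
  have hcA : ∀ x ∈ A, (z * a) * x = x * (z * a) := by
    intro x hx
    calc z * a * x = z * (a * x) := by group
      _ = z * (x * a) := by rw [hAcomm a ha x hx]
      _ = (z * x) * a := by group
      _ = (x * z) * a := by rw [hzA x hx]
      _ = x * (z * a) := by group
  -- `a` does not commute with all of `B`
  have haB : ¬ ∀ x ∈ B, a * x = x * a := by
    intro h
    exact ha1 (IsRankOnePair.eq_one_of_normalizes_right hAB ha (conjBy_eq_of_commute h))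
  have hc1 : z * a ≠ 1 := by
    intro h
    have hz' : z = a⁻¹ := eq_inv_of_mul_eq_one_left h
    apply haB
    intro x hx
    have h1 := hzB x hx
    rw [hz'] at h1
    calc a * x = a * (x * a⁻¹) * a := by group
      _ = a * (a⁻¹ * x) * a := by rw [h1]
      _ = x * a := by group
  -- Step 1: `C` centralizes `A`
  have hCA : ∀ y ∈ C, ∀ x ∈ A, y * x = x * y := by
    rcases hS.pair C hC A hA with h | h | h
    · intro y hy x hx
      have := Subgroup.commutator_eq_bot_iff_le_centralizer.mp h hy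
      exact (Subgroup.mem_centralizer_iff.mp this x hx).symm
    · exact absurd (IsRankOnePair.eq_one_of_normalizes_right h hc (conjBy_eq_of_commute hcA)) hc1
    · exfalso
      have h3 := h.2.2.1 (z * a) hc hc1
      rw [closure_image_eq_bot] at h3
      · exact hS.ne_bot _ h.1 h3.symm
      · intro x hx
        rw [hcA x hx]
        group
  -- Step 2: the pair `(C, B)`
  rcases hS.pair C hC B hB with h | h | h
  · exfalso
    apply haB
    intro x hx
    have h1 : (z * a) * x = x * (z * a) := by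
      have := Subgroup.commutator_eq_bot_iff_le_centralizer.mp h hc
      exact (Subgroup.mem_centralizer_iff.mp this x hx).symm
    have h2 := hzB x hx
    calc a * x = z⁻¹ * ((z * a) * x) := by group
      _ = z⁻¹ * (x * (z * a)) := by rw [h1]
      _ = z⁻¹ * (x * z) * a := by group
      _ = z⁻¹ * (z * x) * a := by rw [h2]
      _ = x * a := by group
  · obtain ⟨b', hb'B, -, hb'⟩ := h.cond_left (z * a) hc hc1
    obtain ⟨b, hbB, -, hb⟩ := hAB.cond_left a ha ha1
    have hzBn : conjBy B z⁻¹ = B := by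
      apply conjBy_eq_of_commute
      intro x hx
      have h2 := hzB x hx
      calc z⁻¹ * x = z⁻¹ * (x * z) * z⁻¹ := by group
        _ = z⁻¹ * (z * x) * z⁻¹ := by rw [h2]
        _ = x * z⁻¹ := by group
    have h1 : conjBy B (z * a)⁻¹ = conjBy B a⁻¹ := by
      rw [mul_inv_rev, ← conjBy_conjBy, hzBn]
    rw [h1, ← hb] at hb'
    -- `C = conjBy A (b' * b⁻¹)`
    have h2 : C = conjBy A (b' * b⁻¹) := by
      rw [← conjBy_conjBy, ← hb', conjBy_conjBy, mul_inv_cancel, conjBy_one]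
    by_cases hβ : b' * b⁻¹ = 1
    · rw [h2, hβ, conjBy_one]
    · exfalso
      have hβB : b' * b⁻¹ ∈ B := B.mul_mem hb'B (B.inv_mem hbB)
      obtain ⟨α, hαA, hα1, hα⟩ := hAB.cond_right (b' * b⁻¹)⁻¹ (B.inv_mem hβB)
        (fun h => hβ (inv_eq_one.mp h))
      rw [inv_inv, ← h2] at hα
      -- `α` normalizes `C = conjBy B α⁻¹`, hence normalizes `B`
      have h3 : conjBy C α = C := by
        apply conjBy_eq_of_commute
        intro y hy
        exact (hCA y hy α hαA).symm
      have h4 : conjBy B α = B := by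
        have h5 : conjBy (conjBy B α⁻¹) α = conjBy B α⁻¹ := by rw [hα]; exact h3
        rw [conjBy_conjBy, mul_inv_cancel, conjBy_one] at h5
        rw [conjBy_eq_iff]
        exact h5
      exact hα1 (IsRankOnePair.eq_one_of_normalizes_right hAB hαA h4)
  · exfalso
    obtain ⟨hES, hEcent, hE1, -⟩ := h
    have hE := hE1 (z * a) hc hc1
    -- the generators are the commutators of `a` with `B`
    have hgen : ∀ x ∈ B, (z * a) * x * (z * a)⁻¹ * x⁻¹ = a * x * a⁻¹ * x⁻¹ := by
      intro x hx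
      have hax : a * x * a⁻¹ ∈ A ⊔ B :=
        (A ⊔ B).mul_mem ((A ⊔ B).mul_mem ((le_sup_left : A ≤ A ⊔ B) ha) ((le_sup_right : B ≤ A ⊔ B) hx))
          ((A ⊔ B).inv_mem ((le_sup_left : A ≤ A ⊔ B) ha))
      have h2 := hzc _ hax
      calc (z * a) * x * (z * a)⁻¹ * x⁻¹ = z * (a * x * a⁻¹) * z⁻¹ * x⁻¹ := by group
        _ = (a * x * a⁻¹) * z * z⁻¹ * x⁻¹ := by rw [h2]
        _ = a * x * a⁻¹ * x⁻¹ := by group
    have hEle : ⁅C, B⁆ ≤ A ⊔ B := by
      rw [← hE, Subgroup.closure_le]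
      rintro _ ⟨x, hx, rfl⟩
      show (z * a) * x * (z * a)⁻¹ * x⁻¹ ∈ A ⊔ B
      rw [hgen x hx]
      have hA' := (le_sup_left : A ≤ A ⊔ B) ha
      have hB' := (le_sup_right : B ≤ A ⊔ B) hx
      exact (A ⊔ B).mul_mem ((A ⊔ B).mul_mem ((A ⊔ B).mul_mem hA' hB') ((A ⊔ B).inv_mem hA'))
        ((A ⊔ B).inv_mem hB')
    -- `a` commutes with every element of `E`
    have haE : ∀ e ∈ ⁅C, B⁆, a * e = e * a := by
      intro e he
      have h1 : e * (z * a) = (z * a) * e := hEcent e he (z * a) ((le_sup_left : C ≤ C ⊔ B) hc)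
      have h2 := hzc e (hEle he)
      calc a * e = z⁻¹ * ((z * a) * e) := by group
        _ = z⁻¹ * (e * (z * a)) := by rw [h1]
        _ = z⁻¹ * (e * z) * a := by group
        _ = z⁻¹ * (z * e) * a := by rw [h2]
        _ = e * a := by group
    have hEB : ∀ e ∈ ⁅C, B⁆, ∀ x ∈ B, e * x = x * e := fun e he x hx =>
      hEcent e he x ((le_sup_right : B ≤ C ⊔ B) hx)
    rcases hS.pair _ hES A hA with h' | h' | h'
    · -- `E` centralizes `A` and `B`
      have hEA : ∀ e ∈ ⁅C, B⁆, ∀ x ∈ A, e * x = x * e := by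
        intro e he x hx
        have := Subgroup.commutator_eq_bot_iff_le_centralizer.mp h' he
        exact (Subgroup.mem_centralizer_iff.mp this x hx).symm
      obtain ⟨b, hbB, hb1⟩ : ∃ b ∈ B, b ≠ 1 := by
        by_contra hcon
        push Not at hcon
        exact hS.ne_bot B hB ((Subgroup.eq_bot_iff_forall B).mpr hcon)
      have hζE : a * b * a⁻¹ * b⁻¹ ∈ ⁅C, B⁆ := by
        rw [← hE, ← hgen b hbB]
        exact Subgroup.subset_closure ⟨b, hbB, rfl⟩
      obtain ⟨a', ha'A, ha'1, ha'⟩ := hAB.cond_right b⁻¹ (B.inv_mem hbB) (fun h => hb1 (inv_eq_one.mp h))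
      rw [inv_inv] at ha'
      have h1 : b * a⁻¹ * b⁻¹ ∈ conjBy B a'⁻¹ := by
        rw [ha']
        exact conj_mem_conjBy (A.inv_mem ha)
      rw [mem_conjBy, inv_inv] at h1
      -- `b a⁻¹ b⁻¹ = a⁻¹ ζ`
      have h2 : b * a⁻¹ * b⁻¹ = a⁻¹ * (a * b * a⁻¹ * b⁻¹) := by group
      have h3 : a' * (b * a⁻¹ * b⁻¹) * a'⁻¹ = a⁻¹ * (a * b * a⁻¹ * b⁻¹) := by
        rw [h2]
        have h4 := hEA _ hζE a' ha'A
        have h5 := hAcomm a' ha'A a⁻¹ (A.inv_mem ha)
        calc a' * (a⁻¹ * (a * b * a⁻¹ * b⁻¹)) * a'⁻¹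
            = (a' * a⁻¹) * (a * b * a⁻¹ * b⁻¹) * a'⁻¹ := by group
          _ = (a⁻¹ * a') * (a * b * a⁻¹ * b⁻¹) * a'⁻¹ := by rw [h5]
          _ = a⁻¹ * (a' * (a * b * a⁻¹ * b⁻¹)) * a'⁻¹ := by group
          _ = a⁻¹ * ((a * b * a⁻¹ * b⁻¹) * a') * a'⁻¹ := by rw [h4]
          _ = a⁻¹ * (a * b * a⁻¹ * b⁻¹) := by group
      rw [h3] at h1
      -- `b₁ = a⁻¹ ζ ∈ B` commutes with `A`
      have h6 : ∀ x ∈ A, (a⁻¹ * (a * b * a⁻¹ * b⁻¹)) * x = x * (a⁻¹ * (a * b * a⁻¹ * b⁻¹)) := by
        intro x hx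
        have h4 := hEA _ hζE x hx
        have h5 := hAcomm x hx a⁻¹ (A.inv_mem ha)
        calc a⁻¹ * (a * b * a⁻¹ * b⁻¹) * x = a⁻¹ * ((a * b * a⁻¹ * b⁻¹) * x) := by group
          _ = a⁻¹ * (x * (a * b * a⁻¹ * b⁻¹)) := by rw [h4]
          _ = (a⁻¹ * x) * (a * b * a⁻¹ * b⁻¹) := by group
          _ = (x * a⁻¹) * (a * b * a⁻¹ * b⁻¹) := by rw [h5]
          _ = x * (a⁻¹ * (a * b * a⁻¹ * b⁻¹)) := by group
      have h7 := IsRankOnePair.eq_one_of_normalizes_left hAB h1 (conjBy_eq_of_commute h6)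
      -- hence `ζ = a`, which commutes with `B`
      have h8 : a * b * a⁻¹ * b⁻¹ = a := by
        calc a * b * a⁻¹ * b⁻¹ = a * (a⁻¹ * (a * b * a⁻¹ * b⁻¹)) := by group
          _ = a := by rw [h7, mul_one]
      apply haB
      intro x hx
      have h9 := hEB _ hζE x hx
      rw [h8] at h9
      exact h9
    · exact ha1 (IsRankOnePair.eq_one_of_normalizes_left h' ha (conjBy_eq_of_commute haE))
    · have h3 := h'.2.2.2 a ha ha1
      rw [closure_image_eq_bot] at h3
      · exact hS.ne_bot _ h'.1 h3.symm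
      · intro e he
        rw [← haE e he]
        group

/-- A member of `S` that is not isolated in the graph of rank one pairs has a rank one partner in `S`. -/
theorem exists_partner_of_not_isolated {S : Set (Subgroup G)} {A : Subgroup G}
    (hA : ¬ IsIsolatedIn (FAdj S) S A) (hAS : A ∈ S) : ∃ B ∈ S, IsRankOnePair A B := by
  unfold IsIsolatedIn at hA
  push Not at hA
  obtain ⟨B, hB⟩ := hA hAS
  by_cases h : FAdj S A B
  · exact ⟨B, h.2.1, h.2.2⟩
  · have h2 := hB h
    exact ⟨B, h2.1, RankOnePair_symm h2.2.2⟩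

end Cfsg.Agent.Helper25
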