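import Mathlib
import Cfsg.Prelude.Def_RootSubgroups
import Cfsg.Agent.Helper25.RootSets

set_option autoImplicit false

namespace Cfsg.Agent.Helper25

open Cfsg

variable {G : Type*} [Group G]

/-- In a rank one pair `(A, B)`, a conjugate of `B` by an element of `A` does not normalize `A`
elementwise: if every element of `conjBy B α` normalizes `A` (with `α ∈ A`) we get a contradiction. -/
theorem IsRankOnePair.not_conj_le_normalizer {A B : Subgroup G} (h : IsRankOnePair A B) {α : G}
    (hα : α ∈ A) (hn : ∀ y ∈ conjBy B α, conjBy A y = A) : False := by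
  obtain ⟨b, hb, hb1⟩ := IsRankOnePair.exists_ne_one_right h
  have h1 := hn (α * b * α⁻¹) (conj_mem_conjBy hb)
  have h2 : conjBy A b = A := by
    have h3 : conjBy (conjBy (conjBy A α⁻¹) b) α = A := by
      rw [conjBy_conjBy, conjBy_conjBy]
      exact h1
    rw [conjBy_of_mem (A.inv_mem hα), conjBy_eq_iff, conjBy_of_mem (A.inv_mem hα)] at h3
    exact h3
  exact hb1 (IsRankOnePair.eq_one_of_normalizes_left h hb h2)

/-- In a rank one pair, an element `z` of `⟨A, B⟩` whose commutators with the elements of `A` are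
all central in `⟨A, B⟩`-conjugation terms normalizes `A`. Precisely: if `z ∈ A ⊔ B` and every
`z * a * z⁻¹` (`a ∈ A`) normalizes `A`, then `conjBy A z = A`. -/
theorem IsRankOnePair.conjBy_eq_of_conj_normalizes {A B : Subgroup G} (h : IsRankOnePair A B) {z : G}
    (hz : z ∈ A ⊔ B) (hn : ∀ a ∈ A, conjBy A (z * a * z⁻¹) = A) : conjBy A z = A := by
  have hΩ : conjBy A z ∈ unipotentSubgroups A B :=
    unipotentSubgroups_conj_mem (unipotentSubgroups_self_mem A B) hz
  rcases IsRankOnePair.unipotent_eq_or h hΩ with h1 | ⟨α, hα, h1⟩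
  · exact h1
  · exfalso
    refine IsRankOnePair.not_conj_le_normalizer h hα ?_
    intro y hy
    rw [← h1, mem_conjBy] at hy
    have := hn _ hy
    have h2 : z * (z⁻¹ * y * z) * z⁻¹ = y := by group
    rwa [h2] at this

end Cfsg.Agent.Helper25
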