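import Mathlib
import Cfsg.Prelude.Def_RootSubgroups
import Cfsg.Agent.Helper25.RankOneGroup

set_option autoImplicit false

namespace Cfsg.Agent.Helper25

open Cfsg

variable {G : Type*} [Group G]

theorem conjBy_injective (g : G) : Function.Injective (fun A : Subgroup G => conjBy A g) := by
  intro A B h
  have h1 : conjBy (conjBy A g) g⁻¹ = conjBy (conjBy B g) g⁻¹ := congrArg (fun C => conjBy C g⁻¹) h
  rwa [conjBy_conjBy, conjBy_conjBy, inv_mul_cancel, conjBy_one, conjBy_one] at h1

theorem conjBy_sup (A B : Subgroup G) (g : G) : conjBy (A ⊔ B) g = conjBy A g ⊔ conjBy B g :=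
  Subgroup.map_sup A B _

/-- Rank one pairs are invariant under conjugation. -/
theorem IsRankOnePair.conj {A B : Subgroup G} (h : IsRankOnePair A B) (g : G) :
    IsRankOnePair (conjBy A g) (conjBy B g) := by
  have hcond : ∀ {A B : Subgroup G}, RankOneCondition A B → RankOneCondition (conjBy A g) (conjBy B g) := by
    intro A B hc a' ha' ha'1
    rw [mem_conjBy] at ha'
    have ha1 : g⁻¹ * a' * g ≠ 1 := by
      intro h1
      apply ha'1
      calc a' = g * (g⁻¹ * a' * g) * g⁻¹ := by group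
        _ = 1 := by rw [h1]; group
    obtain ⟨b, hb, hb1, hab⟩ := hc _ ha' ha1
    refine ⟨g * b * g⁻¹, conj_mem_conjBy hb, ?_, ?_⟩
    · intro h1
      apply hb1
      calc b = g⁻¹ * (g * b * g⁻¹) * g := by group
        _ = 1 := by rw [h1]; group
    · rw [conjBy_conjBy, conjBy_conjBy]
      have e1 : (g * b * g⁻¹)⁻¹ * g = g * b⁻¹ := by group
      have e2 : a'⁻¹ * g = g * (g⁻¹ * a' * g)⁻¹ := by group
      rw [e1, e2, ← conjBy_conjBy, ← conjBy_conjBy, hab]
  refine ⟨fun h1 => h.ne (conjBy_injective g h1), ?_, ?_, hcond h.cond_left, hcond h.cond_right⟩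
  · haveI := h.nilpotent_left
    exact Group.nilpotent_of_mulEquiv
      (A.equivMapOfInjective (MulAut.conj g).toMonoidHom (MulAut.conj g).injective)
  · haveI := h.nilpotent_right
    exact Group.nilpotent_of_mulEquiv
      (B.equivMapOfInjective (MulAut.conj g).toMonoidHom (MulAut.conj g).injective)

/-- The members of a rank one pair do not commute elementwise. -/
theorem IsRankOnePair.not_commute {A B : Subgroup G} (h : IsRankOnePair A B) :
    ¬ ∀ x ∈ A, ∀ y ∈ B, x * y = y * x := by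
  intro hc
  obtain ⟨a, ha, ha1⟩ := IsRankOnePair.exists_ne_one_left h
  exact ha1 (IsRankOnePair.eq_one_of_normalizes_right h ha (conjBy_eq_of_commute (hc a ha)))

/-- Two distinct unipotent subgroups of a rank one group do not commute elementwise. -/
theorem IsRankOnePair.unipotent_not_commute {C D : Subgroup G} (h : IsRankOnePair C D)
    {F₁ F₂ : Subgroup G} (h₁ : F₁ ∈ unipotentSubgroups C D) (h₂ : F₂ ∈ unipotentSubgroups C D)
    (hne : F₁ ≠ F₂) : ¬ ∀ x ∈ F₁, ∀ y ∈ F₂, x * y = y * x := by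
  intro hc
  obtain ⟨u, -, hu1, hu2⟩ := IsRankOnePair.exists_conj_to_pair h h₁ h₂ hne
  apply IsRankOnePair.not_commute h
  intro x hx y hy
  rw [← hu1, mem_conjBy] at hx
  rw [← hu2, mem_conjBy] at hy
  have := hc _ hx _ hy
  calc x * y = u * ((u⁻¹ * x * u) * (u⁻¹ * y * u)) * u⁻¹ := by group
    _ = u * ((u⁻¹ * y * u) * (u⁻¹ * x * u)) * u⁻¹ := by rw [this]
    _ = y * x := by group

theorem unipotentSubgroups_le {C D F : Subgroup G} (hF : F ∈ unipotentSubgroups C D) : F ≤ C ⊔ D := by
  obtain ⟨x, hx, rfl⟩ := hF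
  intro z hz
  rw [mem_conjBy] at hz
  have h3 := Subgroup.mul_mem _ (Subgroup.mul_mem _ hx ((le_sup_left : C ≤ C ⊔ D) hz))
    (Subgroup.inv_mem _ hx)
  have h4 : x * (x⁻¹ * z * x) * x⁻¹ = z := by group
  rwa [h4] at h3

/-- Every unipotent subgroup of a rank one group has a rank one partner among them. -/
theorem IsRankOnePair.unipotent_partner {C D : Subgroup G} (h : IsRankOnePair C D)
    {F : Subgroup G} (hF : F ∈ unipotentSubgroups C D) :
    ∃ F' ∈ unipotentSubgroups C D, IsRankOnePair F F' := by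
  obtain ⟨x, hx, rfl⟩ := hF
  exact ⟨conjBy D x,
    unipotentSubgroups_conj_mem (IsRankOnePair.right_mem_unipotentSubgroups h) hx,
    IsRankOnePair.conj h x⟩

theorem unipotentSubgroups_subset {S : Set (Subgroup G)} (hS : IsRootSubgroupSet S) {C D : Subgroup G}
    (hC : C ∈ S) {F : Subgroup G} (hF : F ∈ unipotentSubgroups C D) : F ∈ S := by
  obtain ⟨x, -, rfl⟩ := hF
  exact hS.conj_mem C hC x

/-- A member `A` of `S` with a rank one partner `B` such that `⟨A, B⟩ ≤ ⟨C, D⟩` for a rank one pair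
`(C, D)` of members of `S` is a unipotent subgroup of `⟨C, D⟩`. -/
theorem root_mem_unipotent_of_le {S : Set (Subgroup G)} (hS : IsRootSubgroupSet S)
    {A B C D : Subgroup G} (hA : A ∈ S) (hC : C ∈ S) (hAB : IsRankOnePair A B)
    (hCD : IsRankOnePair C D) (hle : A ⊔ B ≤ C ⊔ D) : A ∈ unipotentSubgroups C D := by
  by_contra hAΩ
  have hAY : A ≤ C ⊔ D := le_sup_left.trans hle
  -- `A` commutes with every unipotent subgroup of `⟨C, D⟩`
  have hcomm : ∀ F ∈ unipotentSubgroups C D, ⁅A, F⁆ = ⊥ := by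
    intro F hF
    have hFS := unipotentSubgroups_subset hS hC hF
    rcases hS.pair A hA F hFS with h | h | h
    · exact h
    · exfalso
      obtain ⟨a, ha, ha1⟩ := IsRankOnePair.exists_ne_one_left h
      obtain ⟨f, hf, -, haf⟩ := h.cond_left a ha ha1
      apply hAΩ
      have h1 : conjBy F a⁻¹ ∈ unipotentSubgroups C D :=
        unipotentSubgroups_conj_mem hF (Subgroup.inv_mem _ (hAY ha))
      have h2 : A = conjBy (conjBy F a⁻¹) f := by
        rw [← haf, conjBy_conjBy, mul_inv_cancel, conjBy_one]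
      rw [h2]
      exact unipotentSubgroups_conj_mem h1 (unipotentSubgroups_le hF hf)
    · exfalso
      obtain ⟨hES, hEcent, -, -⟩ := h
      have hFcomm : ∀ x ∈ F, ∀ y ∈ F, x * y = y * x := by
        intro x hx y hy
        have := hS.commutative F hFS
        exact congrArg Subtype.val (this.is_comm.comm ⟨x, hx⟩ ⟨y, hy⟩)
      -- every `A`-conjugate of `F` commutes with `F`, hence equals `F`
      have hnorm : ∀ a ∈ A, conjBy F a = F := by
        intro a ha
        by_contra hne
        have h1 : conjBy F a ∈ unipotentSubgroups C D := unipotentSubgroups_conj_mem hF (hAY ha)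
        apply IsRankOnePair.unipotent_not_commute hCD h1 hF hne
        intro x hx y hy
        rw [mem_conjBy] at hx
        -- `x = a f a⁻¹ = ⁅a, f⁆ * f` with `f = a⁻¹ x a`
        have hcm : a * (a⁻¹ * x * a) * a⁻¹ * (a⁻¹ * x * a)⁻¹ ∈ ⁅A, F⁆ :=
          Subgroup.commutator_mem_commutator ha hx
        have hx' : x = (a * (a⁻¹ * x * a) * a⁻¹ * (a⁻¹ * x * a)⁻¹) * (a⁻¹ * x * a) := by group
        have h2 := hEcent _ hcm y ((le_sup_right : F ≤ A ⊔ F) hy)
        have h3 := hFcomm _ hx y hy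
        rw [hx']
        calc a * (a⁻¹ * x * a) * a⁻¹ * (a⁻¹ * x * a)⁻¹ * (a⁻¹ * x * a) * y
            = a * (a⁻¹ * x * a) * a⁻¹ * (a⁻¹ * x * a)⁻¹ * ((a⁻¹ * x * a) * y) := by group
          _ = a * (a⁻¹ * x * a) * a⁻¹ * (a⁻¹ * x * a)⁻¹ * (y * (a⁻¹ * x * a)) := by rw [h3]
          _ = (a * (a⁻¹ * x * a) * a⁻¹ * (a⁻¹ * x * a)⁻¹ * y) * (a⁻¹ * x * a) := by group
          _ = (y * (a * (a⁻¹ * x * a) * a⁻¹ * (a⁻¹ * x * a)⁻¹)) * (a⁻¹ * x * a) := by rw [h2]
          _ = y * (a * (a⁻¹ * x * a) * a⁻¹ * (a⁻¹ * x * a)⁻¹ * (a⁻¹ * x * a)) := by group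
      -- hence `⁅A, F⁆ ≤ F`
      have hEF : ⁅A, F⁆ ≤ F := by
        rw [Subgroup.commutator_le]
        intro a ha f hf
        have h1 : a * f * a⁻¹ ∈ conjBy F a := conj_mem_conjBy hf
        rw [hnorm a ha] at h1
        exact F.mul_mem h1 (F.inv_mem hf)
      obtain ⟨e, he, he1⟩ : ∃ e ∈ ⁅A, F⁆, e ≠ 1 := by
        by_contra hcon
        push Not at hcon
        exact hS.ne_bot _ hES ((Subgroup.eq_bot_iff_forall _).mpr hcon)
      obtain ⟨F', hF', hFF'⟩ := IsRankOnePair.unipotent_partner hCD hF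
      have hF'S := unipotentSubgroups_subset hS hC hF'
      have h1 : (1 : G) * e ∈ ⁅A, F⁆ := by rw [one_mul]; exact he
      have hEeq := root_key hS hFS hF'S hFF' hES (Subgroup.one_mem _) (hEF he) he1 h1
      -- then `F` is central in `⟨A, F⟩`, so `⁅A, F⁆ = ⊥`
      apply hS.ne_bot _ hES
      rw [Subgroup.commutator_eq_bot_iff_le_centralizer]
      intro a ha
      rw [Subgroup.mem_centralizer_iff]
      intro f hf
      have hf' : f ∈ ⁅A, F⁆ := by rw [hEeq]; exact hf
      exact hEcent f hf' a ((le_sup_left : A ≤ A ⊔ F) ha)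
  -- so `A` centralizes `C` and `D`, hence `B`
  have hAC := Subgroup.commutator_eq_bot_iff_le_centralizer.mp (hcomm C (unipotentSubgroups_self_mem C D))
  have hAD := Subgroup.commutator_eq_bot_iff_le_centralizer.mp
    (hcomm D (IsRankOnePair.right_mem_unipotentSubgroups hCD))
  apply IsRankOnePair.not_commute hAB
  intro x hx y hy
  have hy' : y ∈ C ⊔ D := hle ((le_sup_right : B ≤ A ⊔ B) hy)
  have hcent : C ⊔ D ≤ Subgroup.centralizer ({x} : Set G) := by
    refine sup_le ?_ ?_
    · intro c hc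
      rw [Subgroup.mem_centralizer_iff]
      intro z hz
      rw [Set.mem_singleton_iff] at hz
      subst hz
      exact (Subgroup.mem_centralizer_iff.mp (hAC hx) c hc).symm
    · intro d hd
      rw [Subgroup.mem_centralizer_iff]
      intro z hz
      rw [Set.mem_singleton_iff] at hz
      subst hz
      exact (Subgroup.mem_centralizer_iff.mp (hAD hx) d hd).symm
  exact Subgroup.mem_centralizer_iff.mp (hcent hy') x (Set.mem_singleton x)

end Cfsg.Agent.Helper25
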