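import Mathlib
import Cfsg.Prelude.Def_RootSubgroups
import Cfsg.Agent.Helper25.RootSets2

set_option autoImplicit false

namespace Cfsg.Agent.Helper25

open Cfsg

variable {G : Type*} [Group G]

/-- In a rank one pair no non-identity element of `A` commutes with a non-identity element of `B`. -/
theorem IsRankOnePair.not_commute_elements {A B : Subgroup G} (h : IsRankOnePair A B) {a b : G}
    (ha : a ∈ A) (ha1 : a ≠ 1) (hb : b ∈ B) (hb1 : b ≠ 1) : a * b ≠ b * a := by
  intro hab
  obtain ⟨a', ha', -, hc⟩ := h.cond_right b⁻¹ (B.inv_mem hb) (inv_ne_one.mpr hb1)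
  rw [inv_inv] at hc
  have h1 : a ∈ conjBy A b := by
    have h2 : b * a * b⁻¹ ∈ conjBy A b := conj_mem_conjBy ha
    have h3 : b * a * b⁻¹ = a := by rw [← hab]; group
    rwa [h3] at h2
  rw [← hc] at h1
  exact ha1 (IsRankOnePair.eq_one_of_normalizes_conj h ha (A.inv_mem ha') (conjBy_of_mem h1))

theorem le_centralizer_zpowers_iff {E : Subgroup G} {g : G} :
    E ≤ Subgroup.centralizer ((Subgroup.zpowers g : Subgroup G) : Set G) ↔ ∀ e ∈ E, e * g = g * e := by
  rw [Subgroup.le_centralizer_iff, Subgroup.zpowers_le, Subgroup.mem_centralizer_iff]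
  rfl

theorem root_comm {S : Set (Subgroup G)} (hS : IsRootSubgroupSet S) {A : Subgroup G} (hA : A ∈ S) :
    ∀ x ∈ A, ∀ y ∈ A, x * y = y * x := by
  intro x hx y hy
  have := hS.commutative A hA
  exact congrArg Subtype.val (this.is_comm.comm ⟨x, hx⟩ ⟨y, hy⟩)

theorem comm_of_commutator_eq_bot {A B : Subgroup G} (h : ⁅A, B⁆ = ⊥) :
    ∀ x ∈ A, ∀ y ∈ B, x * y = y * x := by
  intro x hx y hy
  have := Subgroup.commutator_eq_bot_iff_le_centralizer.mp h hx
  exact (Subgroup.mem_centralizer_iff.mp this y hy).symm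

end Cfsg.Agent.Helper25
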