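import Mathlib
import Cfsg.Prelude.Def_FusionSystem
import Cfsg.Agent.Helper26.FusCover

set_option autoImplicit false

namespace Cfsg.Agent.Helper25

open Cfsg Cfsg.FusionSystem Cfsg.Agent.Helper26

variable {Ω : Type*} [Group Ω] {S : Subgroup Ω}

/-! ### Invariance under `Aut_F(T)` -/

/-- `α φ α⁻¹` is a map of `E`, for every `α ∈ Aut_F(T)`. -/
def ConjIn (F : FusionSystem S) {T : Subgroup Ω} (E : FusionSystem T) (P : Subgroup Ω)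
    (φ : P →* Ω) : Prop :=
  ∀ α ∈ F.autGroup T, ∃ χ ∈ E.Hom ((P.subgroupOf T).map (T.subtype.comp α.toMonoidHom)),
    ∀ (x : P) (hx : (x : Ω) ∈ T) (hφx : φ x ∈ T)
      (hαx : ((α ⟨x, hx⟩ : T) : Ω) ∈ (P.subgroupOf T).map (T.subtype.comp α.toMonoidHom)),
      χ ⟨(α ⟨x, hx⟩ : T), hαx⟩ = ((α ⟨φ x, hφx⟩ : T) : Ω)

/-- `E` is invariant under `Aut_F(T)`. -/
def AutInv (F : FusionSystem S) {T : Subgroup Ω} (E : FusionSystem T) : Prop :=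
  ∀ (P : Subgroup Ω) (φ : P →* Ω), φ ∈ E.Hom P → ConjIn F E P φ

theorem autInv_of_invariant {F : FusionSystem S} {T : Subgroup Ω} {E : FusionSystem T}
    (h : E.IsInvariantIn F) : AutInv F E := by
  intro P φ hφ α hα
  have hPT := (E.le_of_mem hφ).1
  obtain ⟨χ, hχ, hχeq⟩ := h.2.2.1 P hPT φ hφ α hα
  exact ⟨χ, hχ, fun x hx hφx hαx => hχeq x hφx hαx⟩

theorem AutInv.toInvariant {F : FusionSystem S} {T : Subgroup Ω} {E : FusionSystem T}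
    (h : AutInv F E) :
    ∀ (P : Subgroup Ω) (hPT : P ≤ T) (φ : P →* Ω), φ ∈ E.Hom P → ∀ α ∈ F.autGroup T,
      ∃ χ ∈ E.Hom ((P.subgroupOf T).map (T.subtype.comp α.toMonoidHom)),
        ∀ (x : P) (hφx : φ x ∈ T)
          (hαx : ((α ⟨x, hPT x.2⟩ : T) : Ω) ∈
            (P.subgroupOf T).map (T.subtype.comp α.toMonoidHom)),
          χ ⟨(α ⟨x, hPT x.2⟩ : T), hαx⟩ = ((α ⟨φ x, hφx⟩ : T) : Ω) := by
  intro P hPT φ hφ α hα
  obtain ⟨χ, hχ, hχeq⟩ := h P φ hφ α hα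
  exact ⟨χ, hχ, fun x hφx hαx => hχeq x (hPT x.2) hφx hαx⟩

theorem hom_transport {T : Subgroup Ω} (E : FusionSystem T) {A B : Subgroup Ω} (h : A = B)
    {χ : A →* Ω} (hχ : χ ∈ E.Hom A) :
    ∃ χ' ∈ E.Hom B, ∀ (x : Ω) (hA : x ∈ A) (hB : x ∈ B), χ' ⟨x, hB⟩ = χ ⟨x, hA⟩ := by
  subst h
  exact ⟨χ, hχ, fun _ _ _ => rfl⟩

/-! ### Maps of the form (automorphism of `T` in `F`) ∘ (map of `E`) -/

/-- `φ` is a map of `E` followed by an `F`-automorphism of `T`. -/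
def InD (F : FusionSystem S) {T : Subgroup Ω} (E : FusionSystem T) {P : Subgroup Ω}
    (φ : P →* Ω) : Prop :=
  ∃ α ∈ F.autGroup T, ∃ φ₀ ∈ E.Hom P,
    ∀ (x : P) (hx : φ₀ x ∈ T), φ x = ((α ⟨φ₀ x, hx⟩ : T) : Ω)

theorem InD.congr {F : FusionSystem S} {T : Subgroup Ω} {E : FusionSystem T} {P : Subgroup Ω}
    {φ φ' : P →* Ω} (h : InD F E φ) (e : ∀ x, φ' x = φ x) : InD F E φ' := by
  obtain ⟨α, hα, φ₀, hφ₀, h1⟩ := h
  exact ⟨α, hα, φ₀, hφ₀, fun x hx => (e x).trans (h1 x hx)⟩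

theorem inD_of_mem {F : FusionSystem S} {T : Subgroup Ω} {E : FusionSystem T} {P : Subgroup Ω}
    {φ : P →* Ω} (hφ : φ ∈ E.Hom P) : InD F E φ :=
  ⟨1, Subgroup.one_mem _, φ, hφ, fun _ _ => rfl⟩

theorem inD_of_aut {F : FusionSystem S} {T : Subgroup Ω} {E : FusionSystem T} {P : Subgroup Ω}
    (hP : P ≤ T) {α : MulAut T} (hα : α ∈ F.autGroup T) {φ : P →* Ω}
    (hφ : ∀ x : P, φ x = ((α ⟨x, hP x.2⟩ : T) : Ω)) : InD F E φ :=
  ⟨α, hα, P.subtype, fs_subtype E hP, fun x _ => hφ x⟩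

theorem InD.restrict {F : FusionSystem S} {T : Subgroup Ω} {E : FusionSystem T}
    {P R : Subgroup Ω} {φ : P →* Ω} (h : InD F E φ) (hRP : R ≤ P) :
    InD F E (φ.comp (Subgroup.inclusion hRP)) := by
  obtain ⟨α, hα, φ₀, hφ₀, h1⟩ := h
  exact ⟨α, hα, φ₀.comp (Subgroup.inclusion hRP), fs_restrict E hRP hφ₀,
    fun x hx => h1 (Subgroup.inclusion hRP x) hx⟩

theorem InD.comp {F : FusionSystem S} {T : Subgroup Ω} {E : FusionSystem T}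
    (hInv : AutInv F E) {P Q : Subgroup Ω} (hQT : Q ≤ T) {φ : P →* Ω} {ψ : Q →* Ω}
    (hφ : InD F E φ) (hψ : InD F E ψ) (h : ∀ x : P, φ x ∈ Q) {χ : P →* Ω}
    (hχ : ∀ x : P, χ x = ψ ⟨φ x, h x⟩) : InD F E χ := by
  obtain ⟨α, hα, φ₀, hφ₀, e1⟩ := hφ
  obtain ⟨β, hβ, ψ₀, hψ₀, e2⟩ := hψ
  have hψ₀T : ∀ y : Q, ψ₀ y ∈ T := (E.le_of_mem hψ₀).2
  obtain ⟨χ', hχ', hχ'eq⟩ := hInv Q ψ₀ hψ₀ α⁻¹ (Subgroup.inv_mem _ hα)
  have key : ∀ x : P, ∃ hx' : φ₀ x ∈ T, (⟨φ₀ x, hx'⟩ : T) = α⁻¹ ⟨φ x, hQT (h x)⟩ := by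
    intro x
    have hx' := (E.le_of_mem hφ₀).2 x
    refine ⟨hx', ?_⟩
    have h2 : (⟨φ x, hQT (h x)⟩ : T) = α ⟨φ₀ x, hx'⟩ := Subtype.ext (e1 x hx')
    rw [h2, MulAut.inv_apply_self]
  have h3 : ∀ x : P, ((α⁻¹ ⟨φ x, hQT (h x)⟩ : T) : Ω) = φ₀ x := by
    intro x
    obtain ⟨hx', hk⟩ := key x
    rw [← hk]
  have hmem : ∀ x : P, φ₀ x ∈ (Q.subgroupOf T).map (T.subtype.comp (α⁻¹).toMonoidHom) := by
    intro x
    exact ⟨⟨φ x, hQT (h x)⟩, Subgroup.mem_subgroupOf.2 (h x), h3 x⟩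
  refine ⟨β * α, Subgroup.mul_mem _ hβ hα, χ'.comp (φ₀.codRestrict _ hmem),
    E.comp_mem hφ₀ hχ' hmem, ?_⟩
  intro x hx
  have hmem' : ((α⁻¹ ⟨φ x, hQT (h x)⟩ : T) : Ω) ∈
      (Q.subgroupOf T).map (T.subtype.comp (α⁻¹).toMonoidHom) := by
    rw [h3 x]; exact hmem x
  have h4 := hχ'eq ⟨φ x, h x⟩ (hQT (h x)) (hψ₀T _) hmem'
  have h5' : (⟨φ₀ x, hmem x⟩ : ↥((Q.subgroupOf T).map (T.subtype.comp (α⁻¹).toMonoidHom))) =
      ⟨((α⁻¹ ⟨φ x, hQT (h x)⟩ : T) : Ω), hmem'⟩ := Subtype.ext (h3 x).symm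
  have h5 : χ' ⟨φ₀ x, hmem x⟩ = ((α⁻¹ ⟨ψ₀ ⟨φ x, h x⟩, hψ₀T _⟩ : T) : Ω) := by
    rw [h5']; exact h4
  have h7 : α ⟨(χ'.comp (φ₀.codRestrict _ hmem)) x, hx⟩ = ⟨ψ₀ ⟨φ x, h x⟩, hψ₀T _⟩ := by
    have h6 : (⟨(χ'.comp (φ₀.codRestrict _ hmem)) x, hx⟩ : T) =
        α⁻¹ ⟨ψ₀ ⟨φ x, h x⟩, hψ₀T _⟩ := Subtype.ext h5
    rw [h6, MulAut.apply_inv_self]
  rw [hχ x, e2 ⟨φ x, h x⟩ (hψ₀T _)]
  show _ = ((β (α ⟨_, hx⟩) : T) : Ω)
  rw [h7]

theorem InD.symm {F : FusionSystem S} {T : Subgroup Ω} {E : FusionSystem T}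
    (hInv : AutInv F E) {P R : Subgroup Ω} (hR : R ≤ T) {e : P ≃* R}
    (he : InD F E (R.subtype.comp e.toMonoidHom)) :
    InD F E (P.subtype.comp e.symm.toMonoidHom) := by
  obtain ⟨α, hα, φ₀, hφ₀, e1⟩ := he
  obtain ⟨e₀, he₀, he₀φ⟩ := exists_iso_of_hom E hφ₀ rfl
  have hφ₀T : ∀ x : P, φ₀ x ∈ T := (E.le_of_mem hφ₀).2
  have hR₀T : φ₀.range ≤ T := by rintro _ ⟨x, rfl⟩; exact hφ₀T x
  have key : ∀ y : R, (α⁻¹ ⟨y, hR y.2⟩ : T) = ⟨φ₀ (e.symm y), hφ₀T _⟩ := by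
    intro y
    have h1 := e1 (e.symm y) (hφ₀T _)
    have h2 : (⟨y, hR y.2⟩ : T) = α ⟨φ₀ (e.symm y), hφ₀T _⟩ := by
      apply Subtype.ext
      rw [← h1]
      show (y : Ω) = ((e (e.symm y) : R) : Ω)
      rw [MulEquiv.apply_symm_apply]
    rw [h2, MulAut.inv_apply_self]
  have h1 : InD F E (T.subtype.comp ((α⁻¹).toMonoidHom.comp (Subgroup.inclusion hR))) :=
    inD_of_aut hR (Subgroup.inv_mem _ hα) (fun x => rfl)
  have h2 : InD F E (P.subtype.comp e₀.symm.toMonoidHom) := inD_of_mem he₀.symm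
  have hmem : ∀ y : R,
      (T.subtype.comp ((α⁻¹).toMonoidHom.comp (Subgroup.inclusion hR))) y ∈ φ₀.range := by
    intro y
    exact ⟨e.symm y, (congrArg Subtype.val (key y)).symm⟩
  refine InD.comp hInv hR₀T h1 h2 hmem (fun y => ?_)
  show ((e.symm y : P) : Ω) = ((e₀.symm ⟨_, hmem y⟩ : P) : Ω)
  congr 1
  rw [MulEquiv.eq_symm_apply]
  apply Subtype.ext
  rw [he₀φ]
  exact (congrArg Subtype.val (key y)).symm

theorem inD_top {F : FusionSystem S} {T : Subgroup Ω} {E : FusionSystem T} [Finite S]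
    (hT : F.StronglyClosed T) {φ : T →* Ω} (hφ : φ ∈ F.Hom T) : InD F E φ := by
  have hTS := hT.1
  have : Finite T := finite_of_le hTS
  obtain ⟨e, he, heφ⟩ := exists_iso_of_hom_of_card F hφ (fun x => hT.2 T le_rfl φ hφ x) le_rfl
  exact inD_of_aut le_rfl ((mem_autGroup_iff F hTS e).2 he) (fun x => (heφ x).symm)

theorem inD_toFN {p : ℕ} [Fact p.Prime] [Finite S] (hS : IsPGroup p S) {F : FusionSystem S}
    {T : Subgroup Ω} {E : FusionSystem T} (hT : F.StronglyClosed T) {P' : Subgroup Ω}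
    (hPa : F.IsFullyAutomized p P') (hPr : F.IsReceptive P') {Q : Subgroup Ω} (hQT : Q ≤ T)
    (hQne : Q ≠ T) (hQ : F.IsConj Q P')
    (IH : ∀ (M : Subgroup Ω), M ≤ T → Nat.card Q < Nat.card M → ∀ ψ ∈ F.Hom M, InD F E ψ) :
    ∃ e : Q ≃* P', IsIso F e ∧ InD F E (P'.subtype.comp e.toMonoidHom) := by
  have hTS := hT.1
  have hfT : Finite T := finite_of_le hTS
  obtain ⟨ψ, hψ, e, he, hψe, -⟩ := exists_normalizer_map hS F hPa hPr hQ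
  have hle : normalizerIn T Q ≤ normalizerIn S Q := inf_le_inf_right _ hTS
  have hNT : normalizerIn T Q ≤ T := inf_le_left
  obtain ⟨g, hg, hgQ⟩ := exists_normalizerIn_not_mem (S := T) (isPGroup_of_le hS hTS) hQT hQne
  have hcard : Nat.card Q < Nat.card (normalizerIn T Q) :=
    card_lt_of_mem_not_mem (S := T) hNT (le_normalizerIn hQT) hg hgQ
  have h1 := IH _ hNT hcard _ (fs_restrict F hle hψ)
  have h2 := h1.restrict (le_normalizerIn hQT)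
  exact ⟨e, he, h2.congr (fun x => (hψe x _).symm)⟩

/-- An automorphism that extends to a strictly larger subgroup of `T` is `InD`, by induction. -/
theorem inD_of_extend [Finite S] {F : FusionSystem S} {T : Subgroup Ω} {E : FusionSystem T}
    (hTS : T ≤ S) {P' : Subgroup Ω} (hPr : F.IsReceptive P') (hPT : P' ≤ T) {γ : MulAut P'}
    (hγ : γ ∈ F.autGroup P') {u : Ω}
    (hu : u ∈ extender S P' (P'.subtype.comp γ.toMonoidHom)) (huT : u ∈ T) (huP : u ∉ P')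
    (IH : ∀ (M : Subgroup Ω), M ≤ T → Nat.card P' < Nat.card M → ∀ ψ ∈ F.Hom M, InD F E ψ) :
    InD F E (P'.subtype.comp γ.toMonoidHom) := by
  have hPS : P' ≤ S := hPT.trans hTS
  have hγ' : IsIso F γ := (mem_autGroup_iff F hPS γ).1 hγ
  obtain ⟨ψ, hψ, hψeq⟩ := receptive_ext F hPr hγ'
  have hPM : P' ≤ extender S P' (P'.subtype.comp γ.toMonoidHom) ⊓ T :=
    le_inf (le_extender F hγ') hPT
  have hcard : Nat.card P' <
      Nat.card (extender S P' (P'.subtype.comp γ.toMonoidHom) ⊓ T : Subgroup Ω) :=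
    card_lt_of_mem_not_mem (S := S) (inf_le_right.trans hTS) hPM
      (Subgroup.mem_inf.2 ⟨hu, huT⟩) huP
  have h1 := IH _ inf_le_right hcard _ (fs_restrict F inf_le_left hψ)
  have h2 := h1.restrict hPM
  exact h2.congr (fun x => (hψeq x _).symm)

/-- Frattini step: if a subgroup `K` of `Aut_E(P')`, normal in `Aut_F(P')`, contains `Aut_T(P')`,
then every `F`-automorphism of `P'` is `InD`, by induction. -/
theorem inD_aut_of_normal {p : ℕ} [Fact p.Prime] [Finite S] (hS : IsPGroup p S)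
    {F : FusionSystem S} {T : Subgroup Ω} {E : FusionSystem T} (hTS : T ≤ S)
    (hInv : AutInv F E) {P' : Subgroup Ω} (hPa : F.IsFullyAutomized p P')
    (hPr : F.IsReceptive P') (hPT : P' ≤ T) (hPne : P' ≠ T)
    (K : Subgroup (MulAut P')) (hKE : K ≤ E.autGroup P') (hKF : K ≤ F.autGroup P')
    (hKn : ∀ α ∈ F.autGroup P', ∀ κ ∈ K, α * κ * α⁻¹ ∈ K) (hTK : autInducedBy T P' ≤ K)
    (IH : ∀ (M : Subgroup Ω), M ≤ T → Nat.card P' < Nat.card M → ∀ ψ ∈ F.Hom M, InD F E ψ)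
    (γ : MulAut P') (hγ : γ ∈ F.autGroup P') : InD F E (P'.subtype.comp γ.toMonoidHom) := by
  have hfT : Finite T := finite_of_le hTS
  have hTp : IsPGroup p T := isPGroup_of_le hS hTS
  have hA : IsPGroup p ((autInducedBy T P').map (MulAut.conj γ).toMonoidHom) :=
    (isPGroup_autInducedBy hTp P').map _
  have hAK : (autInducedBy T P').map (MulAut.conj γ).toMonoidHom ≤ K := by
    rintro _ ⟨a, ha, rfl⟩
    exact hKn γ hγ a (hTK ha)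
  obtain ⟨κ, hκ, hκA⟩ := frattini_aut F hPa K _ hKF hKn hAK hA
  have hn : κ * γ ∈ F.autGroup P' := Subgroup.mul_mem _ (hKF hκ) hγ
  obtain ⟨g, hg, hgP⟩ := exists_normalizerIn_not_mem (S := T) hTp hPT hPne
  obtain ⟨hgT, hgN⟩ := Subgroup.mem_inf.1 hg
  have hgext : g ∈ extender S P' (P'.subtype.comp (κ * γ).toMonoidHom) := by
    rw [mem_extender_iff']
    have hc : conjAut P' g hgN ∈ autInducedBy T P' := conjAut_mem T P' g hgT hgN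
    have ha : κ * (γ * conjAut P' g hgN * γ⁻¹) * κ⁻¹ ∈ autInducedBy S P' :=
      hκA _ ⟨_, hc, rfl⟩
    obtain ⟨h, hh, hheq⟩ := (Helper26.mem_autInducedBy_iff S P' _).1 ha
    refine ⟨hTS hgT, hgN, h, hh, fun x y hy => ?_⟩
    have hy' : y = conjAut P' g hgN x := Subtype.ext hy
    have h1 := hheq ((κ * γ) x)
    show (((κ * γ) y : P') : Ω) = h * (((κ * γ) x : P') : Ω) * h⁻¹
    rw [← h1, hy']
    show ((κ (γ (conjAut P' g hgN x)) : P') : Ω) =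
      ((κ (γ (conjAut P' g hgN (γ⁻¹ (κ⁻¹ (κ (γ x)))))) : P') : Ω)
    rw [MulAut.inv_apply_self, MulAut.inv_apply_self]
  have hnD : InD F E (P'.subtype.comp (κ * γ).toMonoidHom) :=
    inD_of_extend hTS hPr hPT hn hgext hgT hgP IH
  have hκinv : InD F E (P'.subtype.comp (κ⁻¹).toMonoidHom) :=
    inD_of_mem ((mem_autGroup_iff E hPT _).1 (hKE (Subgroup.inv_mem _ hκ)))
  refine InD.comp hInv hPT hnD hκinv (fun x => ((κ * γ) x).2) (fun x => ?_)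
  show ((γ x : P') : Ω) = ((κ⁻¹ (κ (γ x)) : P') : Ω)
  rw [MulAut.inv_apply_self]

/-- The Frattini engine: if `E` is `Aut_F(T)`-invariant and, for every proper fully normalized
`P' ≤ T`, the `F`-automorphisms of `P'` are `InD` (given the same for all maps out of larger
subgroups of `T`), then every map of `F` between subgroups of `T` is `InD`. -/
theorem frat_engine {p : ℕ} [Fact p.Prime] [Finite S] (hS : IsPGroup p S) (F : FusionSystem S)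
    (hF : F.IsSaturated p) {T : Subgroup Ω} (E : FusionSystem T) (hT : F.StronglyClosed T)
    (hInv : AutInv F E)
    (hstep : ∀ P' : Subgroup Ω, P' ≤ T → P' ≠ T → F.IsFullyNormalized P' →
      (∀ (M : Subgroup Ω), M ≤ T → Nat.card P' < Nat.card M → ∀ ψ ∈ F.Hom M, InD F E ψ) →
      ∀ γ ∈ F.autGroup P', InD F E (P'.subtype.comp γ.toMonoidHom)) :
    ∀ (P : Subgroup Ω), P ≤ T → ∀ φ ∈ F.Hom P, InD F E φ := by
  have hTS := hT.1
  have hfT : Finite T := finite_of_le hTS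
  have htop : ∀ P : Subgroup Ω, P = T → ∀ φ ∈ F.Hom P, InD F E φ := by
    rintro P rfl φ hφ
    exact inD_top hT hφ
  have main : ∀ (n : ℕ) (P : Subgroup Ω), P ≤ T → Nat.card T ≤ Nat.card P + n →
      ∀ φ ∈ F.Hom P, InD F E φ := by
    intro n
    induction n with
    | zero =>
      intro P hPT hc φ hφ
      exact htop P (Subgroup.eq_of_le_of_card_ge hPT (by simpa using hc)) φ hφ
    | succ n ih =>
      intro P hPT hc φ hφ
      by_cases hPeq : P = T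
      · exact htop P hPeq φ hφ
      · have hPS : P ≤ S := hPT.trans hTS
        obtain ⟨P', hPP', hP'n⟩ := exists_fullyNormalized_conj F hPS
        obtain ⟨-, hPa, hPr⟩ := sat_of_fullyNormalized hS F hF hP'n
        obtain ⟨e_φ, he_φ, he_φeq⟩ := exists_iso_of_hom F hφ rfl
        have hRT : φ.range ≤ T := by
          rintro _ ⟨x, rfl⟩; exact hT.2 P hPT φ hφ x
        obtain ⟨e₁, he₁⟩ := (isConj_iff F).1 hPP'
        have hP'T : P' ≤ T := by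
          intro y hy
          have h0 := hT.2 P hPT _ he₁ (e₁.symm ⟨y, hy⟩)
          simpa using h0
        have hcR : Nat.card φ.range = Nat.card P := (Nat.card_congr e_φ.toEquiv).symm
        have hcP' : Nat.card P' = Nat.card P := (Nat.card_congr e₁.toEquiv).symm
        have hlt : Nat.card P < Nat.card T := by
          by_contra hcon
          exact hPeq (Subgroup.eq_of_le_of_card_ge hPT (not_lt.1 hcon))
        have hRne : φ.range ≠ T := by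
          intro h0
          have h1 := hcR
          rw [h0] at h1
          omega
        have hP'ne : P' ≠ T := by
          intro h0
          have h1 := hcP'
          rw [h0] at h1
          omega
        have IH : ∀ (c : ℕ), c = Nat.card P → ∀ (M : Subgroup Ω), M ≤ T → c < Nat.card M →
            ∀ ψ ∈ F.Hom M, InD F E ψ := by
          intro c hc' M hMT hcM ψ hψ
          exact ih M hMT (by omega) ψ hψ
        obtain ⟨e_P, he_P, hDP⟩ := inD_toFN hS hT hPa hPr hPT hPeq hPP' (IH _ rfl)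
        have hRP' : F.IsConj φ.range P' :=
          isConj_trans F (isConj_symm F ⟨φ, hφ, rfl⟩) hPP'
        obtain ⟨e_R, he_R, hDR⟩ := inD_toFN hS hT hPa hPr hRT hRne hRP' (IH _ hcR)
        have hγ : IsIso F ((e_P.symm.trans e_φ).trans e_R) :=
          (he_P.symm.trans he_φ).trans he_R
        have hDγ := hstep P' hP'T hP'ne hP'n (IH _ hcP') _
          ((mem_autGroup_iff F (hP'T.trans hTS) _).2 hγ)
        have hDR' := InD.symm hInv hP'T hDR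
        have h1 : InD F E (P'.subtype.comp
            (((e_P.symm.trans e_φ).trans e_R).toMonoidHom.comp e_P.toMonoidHom)) :=
          InD.comp hInv hP'T hDP hDγ (fun x => (e_P x).2) (fun x => rfl)
        refine InD.comp hInv hP'T h1 hDR'
          (fun x => (((e_P.symm.trans e_φ).trans e_R) (e_P x)).2) (fun x => ?_)
        rw [← he_φeq x]
        show ((e_φ x : φ.range) : Ω) =
          ((e_R.symm (e_R (e_φ (e_P.symm (e_P x)))) : φ.range) : Ω)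
        rw [MulEquiv.symm_apply_apply, MulEquiv.symm_apply_apply]
  intro P hPT φ hφ
  exact main (Nat.card T) P hPT (Nat.le_add_left _ _) φ hφ

/-! ### The `Aut_F(T)`-invariant core of a subsystem -/

theorem conjIn_conj (F : FusionSystem S) {T : Subgroup Ω} (E : FusionSystem T) {P : Subgroup Ω}
    {g : Ω} (_hP : P ≤ T) (hg : g ∈ T) : ConjIn F E P (conjHom P g) := by
  intro α hα
  have hPα : (P.subgroupOf T).map (T.subtype.comp α.toMonoidHom) ≤ T := by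
    rintro _ ⟨z, -, rfl⟩; exact (α z).2
  refine ⟨conjHom _ ((α ⟨g, hg⟩ : T) : Ω), E.conj_mem hPα (α ⟨g, hg⟩).2, ?_⟩
  intro x hx hφx hαx
  have e : (⟨conjHom P g x, hφx⟩ : T) = ⟨g, hg⟩ * ⟨x, hx⟩ * ⟨g, hg⟩⁻¹ := Subtype.ext rfl
  have e2 : α ⟨conjHom P g x, hφx⟩ = α ⟨g, hg⟩ * α ⟨x, hx⟩ * (α ⟨g, hg⟩)⁻¹ := by
    rw [e, map_mul, map_mul, map_inv]
  exact (congrArg Subtype.val e2).symm

theorem conjIn_comp (F : FusionSystem S) {T : Subgroup Ω} (E : FusionSystem T)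
    {P Q : Subgroup Ω} {φ : P →* Ω} {ψ : Q →* Ω} (hφ : φ ∈ E.Hom P) (hψ : ψ ∈ E.Hom Q)
    (h1 : ConjIn F E P φ) (h2 : ConjIn F E Q ψ) (h : ∀ x : P, φ x ∈ Q) :
    ConjIn F E P (ψ.comp (φ.codRestrict Q h)) := by
  intro α hα
  obtain ⟨χφ, hχφ, eφ⟩ := h1 α hα
  obtain ⟨χψ, hχψ, eψ⟩ := h2 α hα
  have hφT := (E.le_of_mem hφ).2
  have hψT := (E.le_of_mem hψ).2
  have hmap : ∀ y : ↥((P.subgroupOf T).map (T.subtype.comp α.toMonoidHom)),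
      χφ y ∈ (Q.subgroupOf T).map (T.subtype.comp α.toMonoidHom) := by
    rintro ⟨_, z, hz, rfl⟩
    have hzP : (z : Ω) ∈ P := Subgroup.mem_subgroupOf.1 hz
    have h4 : χφ ⟨(T.subtype.comp α.toMonoidHom) z, ⟨z, hz, rfl⟩⟩ =
        ((α ⟨φ ⟨z, hzP⟩, hφT _⟩ : T) : Ω) := eφ ⟨z, hzP⟩ z.2 (hφT _) ⟨z, hz, rfl⟩
    rw [h4]
    exact ⟨⟨φ ⟨z, hzP⟩, hφT _⟩, Subgroup.mem_subgroupOf.2 (h _), rfl⟩
  refine ⟨χψ.comp (χφ.codRestrict _ hmap), E.comp_mem hχφ hχψ hmap, ?_⟩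
  intro x hx hcx hαx
  have h3 := eφ x hx (hφT x) hαx
  have hm5 : ((α ⟨φ x, hφT x⟩ : T) : Ω) ∈
      (Q.subgroupOf T).map (T.subtype.comp α.toMonoidHom) := by
    rw [← h3]; exact hmap _
  have h5 := eψ ⟨φ x, h x⟩ (hφT x) (hψT _) hm5
  have h6 : (⟨χφ ⟨((α ⟨x, hx⟩ : T) : Ω), hαx⟩, hmap _⟩ :
      ↥((Q.subgroupOf T).map (T.subtype.comp α.toMonoidHom))) =
      ⟨((α ⟨φ x, hφT x⟩ : T) : Ω), hm5⟩ := Subtype.ext h3
  show χψ ⟨χφ ⟨((α ⟨x, hx⟩ : T) : Ω), hαx⟩, hmap _⟩ = _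
  rw [h6]
  exact h5

theorem conjIn_inv (F : FusionSystem S) {T : Subgroup Ω} (E : FusionSystem T) {P : Subgroup Ω}
    {φ : P →* Ω} (hφ : φ ∈ E.Hom P) (h1 : ConjIn F E P φ) (ψ : φ.range →* Ω)
    (hψx : ∀ x : P, ψ ⟨φ x, ⟨x, rfl⟩⟩ = (x : Ω)) : ConjIn F E φ.range ψ := by
  intro α hα
  obtain ⟨χφ, hχφ, eφ⟩ := h1 α hα
  have hPT := (E.le_of_mem hφ).1
  have hφT := (E.le_of_mem hφ).2
  obtain ⟨ψ', hψ', hψ'x⟩ := E.inv_mem hχφ
  have hPα : ∀ x : P, ((α ⟨x, hPT x.2⟩ : T) : Ω) ∈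
      (P.subgroupOf T).map (T.subtype.comp α.toMonoidHom) :=
    fun x => ⟨⟨x, hPT x.2⟩, Subgroup.mem_subgroupOf.2 x.2, rfl⟩
  have hχ : ∀ x : P, χφ ⟨((α ⟨x, hPT x.2⟩ : T) : Ω), hPα x⟩ = ((α ⟨φ x, hφT x⟩ : T) : Ω) :=
    fun x => eφ x (hPT x.2) (hφT x) (hPα x)
  have hrange : χφ.range = (φ.range.subgroupOf T).map (T.subtype.comp α.toMonoidHom) := by
    ext y
    constructor
    · rintro ⟨⟨_, z, hz, rfl⟩, rfl⟩
      have hzP : (z : Ω) ∈ P := Subgroup.mem_subgroupOf.1 hz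
      have h4 : χφ ⟨(T.subtype.comp α.toMonoidHom) z, ⟨z, hz, rfl⟩⟩ =
          ((α ⟨φ ⟨z, hzP⟩, hφT _⟩ : T) : Ω) := hχ ⟨z, hzP⟩
      rw [h4]
      exact ⟨⟨φ ⟨z, hzP⟩, hφT _⟩, Subgroup.mem_subgroupOf.2 ⟨⟨z, hzP⟩, rfl⟩, rfl⟩
    · rintro ⟨w, hw, rfl⟩
      obtain ⟨x, hx⟩ := Subgroup.mem_subgroupOf.1 hw
      refine ⟨⟨((α ⟨x, hPT x.2⟩ : T) : Ω), hPα x⟩, ?_⟩
      rw [hχ x]
      show ((α ⟨φ x, hφT x⟩ : T) : Ω) = ((α w : T) : Ω)
      congr 2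
      exact Subtype.ext hx
  obtain ⟨χ, hχ', hχeq⟩ := hom_transport E hrange hψ'
  refine ⟨χ, hχ', ?_⟩
  rintro ⟨_, x, rfl⟩ hy hψy hαy
  have h5 : ((α ⟨φ x, hy⟩ : T) : Ω) ∈ χφ.range := by rw [hrange]; exact hαy
  have h6 := hχeq _ h5 hαy
  have h7 : (⟨((α ⟨φ x, hy⟩ : T) : Ω), h5⟩ : χφ.range) =
      ⟨χφ ⟨((α ⟨x, hPT x.2⟩ : T) : Ω), hPα x⟩, ⟨_, rfl⟩⟩ := Subtype.ext (hχ x).symm
  have h9 : (⟨(x : Ω), hPT x.2⟩ : T) = ⟨ψ ⟨φ x, ⟨x, rfl⟩⟩, hψy⟩ := Subtype.ext (hψx x).symm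
  show χ ⟨((α ⟨φ x, hy⟩ : T) : Ω), hαy⟩ = ((α ⟨ψ ⟨φ x, ⟨x, rfl⟩⟩, hψy⟩ : T) : Ω)
  rw [h6, h7, hψ'x]
  show ((α ⟨(x : Ω), hPT x.2⟩ : T) : Ω) = _
  rw [h9]

/-- The largest `Aut_F(T)`-invariant subsystem of `E`. -/
def invCore (F : FusionSystem S) {T : Subgroup Ω} (E : FusionSystem T) : FusionSystem T :=
  subSys E (ConjIn F E) (fun hP hg => conjIn_conj F E hP hg)
    (fun hφ hψ h1 h2 h => conjIn_comp F E hφ hψ h1 h2 h)
    (fun hφ h1 ψ _ hψx => conjIn_inv F E hφ h1 ψ hψx)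

theorem mem_invCore {F : FusionSystem S} {T : Subgroup Ω} {E : FusionSystem T} {P : Subgroup Ω}
    {φ : P →* Ω} : φ ∈ (invCore F E).Hom P ↔ φ ∈ E.Hom P ∧ ConjIn F E P φ := Iff.rfl

theorem invCore_autInv (F : FusionSystem S) {T : Subgroup Ω} (E : FusionSystem T) :
    AutInv F (invCore F E) := by
  intro P φ hφ α hα
  obtain ⟨hφE, hφC⟩ := hφ
  obtain ⟨χ, hχ, eχ⟩ := hφC α hα
  have hPT := (E.le_of_mem hφE).1
  have hφT := (E.le_of_mem hφE).2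
  have hPα : ∀ x : P, ((α ⟨x, hPT x.2⟩ : T) : Ω) ∈
      (P.subgroupOf T).map (T.subtype.comp α.toMonoidHom) :=
    fun x => ⟨⟨x, hPT x.2⟩, Subgroup.mem_subgroupOf.2 x.2, rfl⟩
  have hχx : ∀ x : P, χ ⟨((α ⟨x, hPT x.2⟩ : T) : Ω), hPα x⟩ = ((α ⟨φ x, hφT x⟩ : T) : Ω) :=
    fun x => eχ x (hPT x.2) (hφT x) (hPα x)
  refine ⟨χ, ⟨hχ, ?_⟩, fun x hx hφx hαx => eχ x hx hφx hαx⟩
  intro β hβ
  obtain ⟨χ₃, hχ₃, eχ₃⟩ := hφC (β * α) (Subgroup.mul_mem _ hβ hα)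
  have hmap : (P.subgroupOf T).map (T.subtype.comp (β * α).toMonoidHom) =
      (((P.subgroupOf T).map (T.subtype.comp α.toMonoidHom)).subgroupOf T).map
        (T.subtype.comp β.toMonoidHom) := by
    ext y
    constructor
    · rintro ⟨z, hz, rfl⟩
      exact ⟨α z, Subgroup.mem_subgroupOf.2 ⟨z, hz, rfl⟩, rfl⟩
    · rintro ⟨w, hw, rfl⟩
      obtain ⟨z, hz, hzw⟩ := Subgroup.mem_subgroupOf.1 hw
      refine ⟨z, hz, ?_⟩
      show ((β (α z) : T) : Ω) = ((β w : T) : Ω)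
      congr 2
      exact Subtype.ext hzw
  obtain ⟨χ₂, hχ₂, eχ₂⟩ := hom_transport E hmap hχ₃
  refine ⟨χ₂, hχ₂, ?_⟩
  rintro ⟨_, z, hz, rfl⟩ hy hχy hβy
  have hzP : (z : Ω) ∈ P := Subgroup.mem_subgroupOf.1 hz
  have h1 : ((β (α z) : T) : Ω) ∈ (P.subgroupOf T).map (T.subtype.comp (β * α).toMonoidHom) :=
    ⟨z, hz, rfl⟩
  have h2 := eχ₂ _ h1 hβy
  have h3 := eχ₃ ⟨z, hzP⟩ z.2 (hφT _) h1
  have h4 : χ ⟨(T.subtype.comp α.toMonoidHom) z, ⟨z, hz, rfl⟩⟩ =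
      ((α ⟨φ ⟨z, hzP⟩, hφT _⟩ : T) : Ω) := hχx ⟨z, hzP⟩
  show χ₂ ⟨((β (α z) : T) : Ω), hβy⟩ =
    ((β ⟨χ ⟨(T.subtype.comp α.toMonoidHom) z, ⟨z, hz, rfl⟩⟩, hχy⟩ : T) : Ω)
  rw [h2]
  refine h3.trans ?_
  show ((β (α ⟨φ ⟨z, hzP⟩, hφT _⟩) : T) : Ω) = _
  have h5 : (⟨χ ⟨(T.subtype.comp α.toMonoidHom) z, ⟨z, hz, rfl⟩⟩, hχy⟩ : T) =
      α ⟨φ ⟨z, hzP⟩, hφT _⟩ := Subtype.ext h4
  rw [h5]

/-- The isomorphism `Q ≃* α(Q)` induced by an automorphism `α` of `T`. -/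
theorem exists_equiv_map {T Q : Subgroup Ω} (hQT : Q ≤ T) (α : MulAut T) :
    ∃ e : Q ≃* ((Q.subgroupOf T).map (T.subtype.comp α.toMonoidHom) : Subgroup Ω),
      ∀ x : Q, ((e x : ((Q.subgroupOf T).map (T.subtype.comp α.toMonoidHom) : Subgroup Ω)) : Ω) =
        ((α ⟨x, hQT x.2⟩ : T) : Ω) := by
  have hmem : ∀ x : Q, ((T.subtype.comp α.toMonoidHom).comp (Subgroup.inclusion hQT)) x ∈
      (Q.subgroupOf T).map (T.subtype.comp α.toMonoidHom) :=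
    fun x => ⟨⟨x, hQT x.2⟩, Subgroup.mem_subgroupOf.2 x.2, rfl⟩
  refine ⟨MulEquiv.ofBijective
    (((T.subtype.comp α.toMonoidHom).comp (Subgroup.inclusion hQT)).codRestrict _ hmem)
    ⟨?_, ?_⟩, fun x => rfl⟩
  · intro a b hab
    have h0 := Subtype.ext_iff.1 hab
    have h1 : ((α ⟨a, hQT a.2⟩ : T) : Ω) = ((α ⟨b, hQT b.2⟩ : T) : Ω) := h0
    have h2 : (⟨(a : Ω), hQT a.2⟩ : T) = ⟨(b : Ω), hQT b.2⟩ := α.injective (Subtype.ext h1)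
    have h3' := Subtype.ext_iff.1 h2
    have h3 : (a : Ω) = (b : Ω) := h3'
    exact Subtype.ext h3
  · rintro ⟨_, z, hz, rfl⟩
    exact ⟨⟨z, Subgroup.mem_subgroupOf.1 hz⟩, Subtype.ext rfl⟩

/-- An automorphism in `E` all of whose `Aut_F(T)`-transports lie in `E` belongs to the invariant
core. -/
theorem mem_invCore_autGroup {F : FusionSystem S} {T : Subgroup Ω} {E : FusionSystem T}
    {Q : Subgroup Ω} (hQT : Q ≤ T) {γ : MulAut Q} (hγ : γ ∈ E.autGroup Q)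
    (h : ∀ α ∈ F.autGroup T, ∀ (Q' : Subgroup Ω) (e : Q ≃* Q'),
      (∀ x : Q, ((e x : Q') : Ω) = ((α ⟨x, hQT x.2⟩ : T) : Ω)) →
        (e.symm.trans γ).trans e ∈ E.autGroup Q') :
    γ ∈ (invCore F E).autGroup Q := by
  rw [mem_autGroup_iff (invCore F E) hQT]
  refine ⟨(mem_autGroup_iff E hQT γ).1 hγ, ?_⟩
  intro α hα
  obtain ⟨e, he⟩ := exists_equiv_map hQT α
  have hQ'T : (Q.subgroupOf T).map (T.subtype.comp α.toMonoidHom) ≤ T := by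
    rintro _ ⟨z, -, rfl⟩; exact (α z).2
  have h1 := (mem_autGroup_iff E hQ'T _).1 (h α hα _ e he)
  refine ⟨_, h1, ?_⟩
  intro x hx hφx hαx
  have h2 : (⟨((α ⟨x, hx⟩ : T) : Ω), hαx⟩ :
      ((Q.subgroupOf T).map (T.subtype.comp α.toMonoidHom) : Subgroup Ω)) = e x :=
    Subtype.ext (he x).symm
  rw [h2]
  show ((e (γ (e.symm (e x))) : ((Q.subgroupOf T).map (T.subtype.comp α.toMonoidHom) :
    Subgroup Ω)) : Ω) = _
  rw [MulEquiv.symm_apply_apply, he]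
  rfl

/-- Conjugating an automorphism in the invariant system `E` by an isomorphism that is `InD`
stays in `E`. -/
theorem conj_aut_mem {F : FusionSystem S} {T : Subgroup Ω} {E : FusionSystem T}
    (hInv : AutInv F E) {P R : Subgroup Ω} (hRT : R ≤ T) (e : P ≃* R)
    (he : InD F E (R.subtype.comp e.toMonoidHom)) {δ : MulAut R} (hδ : δ ∈ E.autGroup R) :
    (e.trans δ).trans e.symm ∈ E.autGroup P := by
  obtain ⟨α, hα, φ₀, hφ₀, heq⟩ := he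
  have hPT := (E.le_of_mem hφ₀).1
  have hφ₀T := (E.le_of_mem hφ₀).2
  have hδ' : R.subtype.comp δ.toMonoidHom ∈ E.Hom R := (mem_autGroup_iff E hRT δ).1 hδ
  obtain ⟨χ, hχ, eχ⟩ := hInv R _ hδ' α⁻¹ (Subgroup.inv_mem _ hα)
  have key' : ∀ y : R, (α⁻¹ ⟨(y : Ω), hRT y.2⟩ : T) = ⟨φ₀ (e.symm y), hφ₀T _⟩ := by
    intro y
    have h1 := heq (e.symm y) (hφ₀T _)
    have h2 : (⟨(y : Ω), hRT y.2⟩ : T) = α ⟨φ₀ (e.symm y), hφ₀T _⟩ := by
      apply Subtype.ext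
      rw [← h1]
      show (y : Ω) = ((e (e.symm y) : R) : Ω)
      rw [MulEquiv.apply_symm_apply]
    rw [h2, MulAut.inv_apply_self]
  have key : ∀ x : P, ((α⁻¹ ⟨(e x : Ω), hRT (e x).2⟩ : T) : Ω) = φ₀ x := by
    intro x
    have h1 := congrArg Subtype.val (key' (e x))
    rw [MulEquiv.symm_apply_apply] at h1
    exact h1
  have hm' : ∀ x : P, ((α⁻¹ ⟨(e x : Ω), hRT (e x).2⟩ : T) : Ω) ∈
      (R.subgroupOf T).map (T.subtype.comp (α⁻¹).toMonoidHom) :=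
    fun x => ⟨⟨(e x : Ω), hRT (e x).2⟩, Subgroup.mem_subgroupOf.2 (e x).2, rfl⟩
  have hmem : ∀ x : P, φ₀ x ∈ (R.subgroupOf T).map (T.subtype.comp (α⁻¹).toMonoidHom) := by
    intro x
    rw [← key x]; exact hm' x
  have hc₁ : χ.comp (φ₀.codRestrict _ hmem) ∈ E.Hom P := E.comp_mem hφ₀ hχ hmem
  have hc₁x : ∀ x : P, (χ.comp (φ₀.codRestrict _ hmem)) x = φ₀ (e.symm (δ (e x))) := by
    intro x
    have h3 := eχ (e x) (hRT (e x).2) (hRT (δ (e x)).2) (hm' x)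
    have h4 : (⟨φ₀ x, hmem x⟩ :
        ↥((R.subgroupOf T).map (T.subtype.comp (α⁻¹).toMonoidHom))) =
        ⟨((α⁻¹ ⟨(e x : Ω), hRT (e x).2⟩ : T) : Ω), hm' x⟩ := Subtype.ext (key x).symm
    show χ ⟨φ₀ x, hmem x⟩ = _
    rw [h4, h3]
    exact congrArg Subtype.val (key' (δ (e x)))
  obtain ⟨ψ, hψ, hψx⟩ := E.inv_mem hφ₀
  have hval : ∀ x : P, (χ.comp (φ₀.codRestrict _ hmem)) x ∈ φ₀.range :=
    fun x => ⟨_, (hc₁x x).symm⟩
  have hρ : ψ.comp ((χ.comp (φ₀.codRestrict _ hmem)).codRestrict φ₀.range hval) ∈ E.Hom P :=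
    E.comp_mem hc₁ hψ hval
  rw [mem_autGroup_iff E hPT]
  refine fs_congr E hρ (fun x => ?_)
  have h6 : (⟨(χ.comp (φ₀.codRestrict _ hmem)) x, hval x⟩ : φ₀.range) =
      ⟨φ₀ (e.symm (δ (e x))), ⟨_, rfl⟩⟩ := Subtype.ext (hc₁x x)
  show ((e.symm (δ (e x)) : P) : Ω) = ψ ⟨(χ.comp (φ₀.codRestrict _ hmem)) x, hval x⟩
  rw [h6, hψx]

end Cfsg.Agent.Helper25
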