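import Mathlib
import Cfsg.Agent.Helper8.Nilp
import Cfsg.Agent.Helper1.Fitting
import Cfsg.Agent.Helper7.Bender
import Cfsg.Agent.Helper7.Components
import Cfsg.Agent.Helper12.KWGen

/-!
helper25: elementwise lemmas for Bender's theorem on primitive pairs: a `p'`-element of `M₂`
centralizing `O_p(M₂)` centralizes every `p`-subgroup `P₁ ≤ M₂` normalized by `F(M₂)`, when
`C_{M₂}(F(M₂)) ≤ F(M₂)`.
-/

set_option autoImplicit false

namespace Cfsg.Agent.Helper25.Prim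

open Cfsg

variable {G : Type*} [Group G]

theorem eq_one_of_comm_pelem {p : ℕ} {a v : G} (hav : a * v = v * a) {i j n : ℕ}
    (ha : a ^ p ^ i = 1) (hav' : (a * v) ^ p ^ j = 1) (hv : v ^ n = 1) (hn : n.Coprime p) :
    v = 1 := by
  have hc : Commute a v := hav
  have h1 : (a * v) ^ (p ^ (i + j)) = 1 := by rw [pow_add, pow_mul', hav', one_pow]
  have h2 : a ^ (p ^ (i + j)) = 1 := by rw [pow_add, pow_mul, ha, one_pow]
  rw [hc.mul_pow, h2, one_mul] at h1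
  have hd := Nat.dvd_gcd (orderOf_dvd_of_pow_eq_one hv) (orderOf_dvd_of_pow_eq_one h1)
  rw [Nat.Coprime.gcd_eq_one (Nat.Coprime.pow_right _ hn)] at hd
  exact orderOf_eq_one_iff.mp (Nat.dvd_one.mp hd)

theorem conj_pow_eq {k x c : G} (h : k * x * k⁻¹ = x * c) (hkc : k * c = c * k) :
    ∀ j : ℕ, k ^ j * x * (k ^ j)⁻¹ = x * c ^ j := by
  intro j
  induction j with
  | zero => simp
  | succ j ih =>
    have hkc' : k * c ^ j * k⁻¹ = c ^ j := by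
      have hc : Commute k (c ^ j) := (show Commute k c from hkc).pow_right j
      rw [hc.eq, mul_assoc, mul_inv_cancel, mul_one]
    calc k ^ (j + 1) * x * (k ^ (j + 1))⁻¹ = k * (k ^ j * x * (k ^ j)⁻¹) * k⁻¹ := by
          rw [pow_succ', mul_inv_rev]; simp only [mul_assoc]
      _ = k * (x * c ^ j) * k⁻¹ := by rw [ih]
      _ = (k * x * k⁻¹) * (k * c ^ j * k⁻¹) := by simp only [mul_assoc, inv_mul_cancel_left]
      _ = x * c * c ^ j := by rw [h, hkc']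
      _ = x * c ^ (j + 1) := by rw [pow_succ', mul_assoc]

theorem mem_normalizer_of_conj' {A : Subgroup G} {x : G} (h1 : ∀ a ∈ A, x * a * x⁻¹ ∈ A)
    (h2 : ∀ a ∈ A, x⁻¹ * a * x ∈ A) : x ∈ Subgroup.normalizer (A : Set G) := by
  rw [Subgroup.mem_normalizer_iff]
  intro h
  refine ⟨h1 h, fun hh => ?_⟩
  have h3 := h2 _ hh
  have e : x⁻¹ * (x * h * x⁻¹) * x = h := by group
  rwa [e] at h3

/-- A `p`-element `x` of `P₁` commutes with the `p'`-elements of the nilpotent group `F₂`, when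
`P₁` and `F₂` normalize each other. -/
theorem comm_pprime {p : ℕ} [Fact p.Prime] (F₂ P₁ : Subgroup G)
    (hF₂nil : Group.IsNilpotent F₂) (hP₁ : IsPGroup p P₁)
    (hFP : ∀ y ∈ F₂, ∀ x ∈ P₁, y * x * y⁻¹ ∈ P₁)
    (hPF : ∀ x ∈ P₁, ∀ y ∈ F₂, x * y * x⁻¹ ∈ F₂)
    {x h : G} (hx : x ∈ P₁) (hh : h ∈ F₂) {m : ℕ} (hm : m.Coprime p) (hhm : h ^ m = 1) :
    x * h = h * x := by
  obtain ⟨w, hw⟩ : ∃ w, w = x * h * x⁻¹ * h⁻¹ := ⟨_, rfl⟩
  have hwP : w ∈ P₁ := by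
    have e : w = x * (h * x⁻¹ * h⁻¹) := by rw [hw]; group
    rw [e]; exact P₁.mul_mem hx (hFP h hh _ (P₁.inv_mem hx))
  have hwF : w ∈ F₂ := by rw [hw]; exact F₂.mul_mem (hPF x hx h hh) (F₂.inv_mem hh)
  obtain ⟨i, hi⟩ := Cfsg.Agent.Helper8.pelem_of_mem hP₁ hwP
  have hcop : (orderOf w).Coprime (orderOf h) :=
    Nat.Coprime.coprime_dvd_left (orderOf_dvd_of_pow_eq_one hi)
      (Nat.Coprime.coprime_dvd_right (orderOf_dvd_of_pow_eq_one hhm)
        (Nat.Coprime.pow_left i hm.symm))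
  have hwh : w * h = h * w := Cfsg.Agent.Helper8.comm_of_coprime_sub F₂ hF₂nil hwF hh hcop
  have e1 : w * h = x * h * x⁻¹ := by rw [hw]; group
  have h1 : (w * h) ^ m = 1 := by
    rw [e1, conj_pow, hhm]; group
  rw [(show Commute w h from hwh).mul_pow, hhm, mul_one] at h1
  have hw1 : w = 1 := by
    have hd := Nat.dvd_gcd (orderOf_dvd_of_pow_eq_one h1) (orderOf_dvd_of_pow_eq_one hi)
    rw [Nat.Coprime.gcd_eq_one (Nat.Coprime.pow_right i hm)] at hd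
    exact orderOf_eq_one_iff.mp (Nat.dvd_one.mp hd)
  have e2 : x * h = w * (h * x) := by rw [hw]; group
  rw [e2, hw1, one_mul]

/-- A `p'`-element `k` of `M₂` centralizing `P₂ = O_p(M₂)` centralizes `P₁`. -/
theorem comm_of_pprime_centralizer [Finite G] {p : ℕ} [Fact p.Prime] (M₂ F₂ P₂ P₁ : Subgroup G)
    (hF₂n : ∀ m ∈ M₂, ∀ y ∈ F₂, m * y * m⁻¹ ∈ F₂)
    (hF₂nil : Group.IsNilpotent F₂)
    (hP₂n : ∀ m ∈ M₂, ∀ y ∈ P₂, m * y * m⁻¹ ∈ P₂) (hP₂ : IsPGroup p P₂)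
    (hpel : ∀ y ∈ F₂, (∃ k : ℕ, y ^ p ^ k = 1) → y ∈ P₂)
    (hcent : ∀ c ∈ M₂, (∀ y ∈ F₂, c * y = y * c) → c ∈ F₂)
    (hP₁ : IsPGroup p P₁) (hP₁M : P₁ ≤ M₂) (hFP : ∀ y ∈ F₂, ∀ x ∈ P₁, y * x * y⁻¹ ∈ P₁)
    {k : G} (hk : k ∈ M₂) (hkP : ∀ y ∈ P₂, k * y = y * k) {n : ℕ} (hn : n.Coprime p)
    (hkn : k ^ n = 1) {x : G} (hx : x ∈ P₁) : k * x = x * k := by
  have hpp : p.Prime := Fact.out
  have hxM := hP₁M hx
  have hPF : ∀ x ∈ P₁, ∀ y ∈ F₂, x * y * x⁻¹ ∈ F₂ := fun x hx y hy => hF₂n x (hP₁M hx) y hy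
  have X1 : ∀ h ∈ F₂, ∀ m : ℕ, m.Coprime p → h ^ m = 1 → x * h = h * x :=
    fun h hh m hm hhm => comm_pprime F₂ P₁ hF₂nil hP₁ hFP hPF hx hh hm hhm
  obtain ⟨c, hc⟩ : ∃ c, c = x⁻¹ * (k * x * k⁻¹) := ⟨_, rfl⟩
  have hkx : k * x * k⁻¹ = x * c := by rw [hc]; group
  have hcM : c ∈ M₂ := by
    rw [hc]
    exact M₂.mul_mem (M₂.inv_mem hxM) (M₂.mul_mem (M₂.mul_mem hk hxM) (M₂.inv_mem hk))
  have X2a : ∀ h ∈ F₂, ∀ m : ℕ, m.Coprime p → h ^ m = 1 → c * h = h * c := by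
    intro h hh m hm hhm
    have h1 : x * h = h * x := X1 h hh m hm hhm
    have h2 : x * (k⁻¹ * h * k) = (k⁻¹ * h * k) * x := by
      apply X1 _ _ m hm
      · have e : k⁻¹ * h * k = k⁻¹ * h * k⁻¹⁻¹ := by rw [inv_inv]
        rw [e, conj_pow, hhm]; group
      · have h5 := hF₂n k⁻¹ (M₂.inv_mem hk) h hh
        rwa [inv_inv] at h5
    have h3 : (k * x * k⁻¹) * h = h * (k * x * k⁻¹) := by
      have e1 : (k * x * k⁻¹) * h = k * (x * (k⁻¹ * h * k)) * k⁻¹ := by group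
      have e2 : h * (k * x * k⁻¹) = k * ((k⁻¹ * h * k) * x) * k⁻¹ := by group
      rw [e1, e2, h2]
    have h1' : x⁻¹ * h = h * x⁻¹ := ((show Commute x h from h1).inv_left).eq
    rw [hc, mul_assoc, h3, ← mul_assoc, h1', mul_assoc]
  have X2b : ∀ y ∈ P₂, c * y = y * c := by
    intro y hy
    have h1 : k * (x * y * x⁻¹) = (x * y * x⁻¹) * k := hkP _ (hP₂n x hxM y hy)
    have h2 : k * y = y * k := hkP y hy
    have h2' : k⁻¹ * y = y * k⁻¹ := ((show Commute k y from h2).inv_left).eq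
    calc c * y = x⁻¹ * (k * x * k⁻¹) * y := by rw [hc]
      _ = x⁻¹ * k * x * (k⁻¹ * y) := by group
      _ = x⁻¹ * k * x * (y * k⁻¹) := by rw [h2']
      _ = x⁻¹ * (k * (x * y * x⁻¹)) * x * k⁻¹ := by group
      _ = x⁻¹ * ((x * y * x⁻¹) * k) * x * k⁻¹ := by rw [h1]
      _ = y * (x⁻¹ * (k * x * k⁻¹)) := by group
      _ = y * c := by rw [hc]
  have X2 : ∀ y ∈ F₂, c * y = y * c := by
    intro y hy
    obtain ⟨e, m, u, v, -, hpm, hu, hv, hyvu, hue, hvm⟩ :=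
      Cfsg.Agent.Helper8.exists_decomp y (orderOf_pos y).ne' p hpp
    have huF : u ∈ F₂ := (Subgroup.zpowers_le.mpr hy) hu
    have hvF : v ∈ F₂ := (Subgroup.zpowers_le.mpr hy) hv
    have hcu : c * u = u * c := X2b u (hpel u huF ⟨e, hue⟩)
    have hcv : c * v = v * c :=
      X2a v hvF m ((Nat.Prime.coprime_iff_not_dvd hpp).mpr hpm).symm hvm
    rw [hyvu, ← mul_assoc, hcv, mul_assoc, hcu, mul_assoc]
  have hcF : c ∈ F₂ := hcent c hcM X2
  have hcP : c ∈ P₂ := by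
    obtain ⟨e, m, u, v, -, hpm, hu, hv, hcvu, hue, hvm⟩ :=
      Cfsg.Agent.Helper8.exists_decomp c (orderOf_pos c).ne' p hpp
    have huF : u ∈ F₂ := (Subgroup.zpowers_le.mpr hcF) hu
    have hvF : v ∈ F₂ := (Subgroup.zpowers_le.mpr hcF) hv
    have huP : u ∈ P₂ := hpel u huF ⟨e, hue⟩
    have hmp : m.Coprime p := ((Nat.Prime.coprime_iff_not_dvd hpp).mpr hpm).symm
    have hxv : x * v = v * x := X1 v hvF m hmp hvm
    have huv : u * v = v * u := by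
      obtain ⟨a, ha⟩ := Subgroup.mem_zpowers_iff.mp hu
      obtain ⟨b, hb⟩ := Subgroup.mem_zpowers_iff.mp hv
      rw [← ha, ← hb, ← zpow_add, ← zpow_add, add_comm]
    have hsup : IsPGroup p (P₁ ⊔ P₂ : Subgroup G) :=
      IsPGroup.to_sup_of_normal_right' hP₁ hP₂ (by
        intro z hz
        apply mem_normalizer_of_conj'
        · exact fun a ha => hP₂n z (hP₁M hz) a ha
        · intro a ha
          have h5 := hP₂n z⁻¹ (M₂.inv_mem (hP₁M hz)) a ha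
          rwa [inv_inv] at h5)
    obtain ⟨i, hi⟩ := Cfsg.Agent.Helper8.pelem_of_mem hsup
      (Subgroup.mul_mem _ ((le_sup_left : P₁ ≤ P₁ ⊔ P₂) hx) ((le_sup_right : P₂ ≤ P₁ ⊔ P₂) huP))
    obtain ⟨j, hj⟩ := Cfsg.Agent.Helper8.pelem_of_mem hP₁ hx
    have hav : (x * u) * v = v * (x * u) := by
      rw [mul_assoc, huv, ← mul_assoc, hxv, mul_assoc]
    have hprod : ((x * u) * v) ^ p ^ j = 1 := by
      have e1 : (x * u) * v = k * x * k⁻¹ := by rw [hkx, hcvu, mul_assoc, huv]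
      rw [e1, conj_pow, hj]; group
    have hv1 : v = 1 := eq_one_of_comm_pelem hav hi hprod hvm hmp
    rw [hcvu, hv1, one_mul]; exact huP
  have hkc : k * c = c * k := hkP c hcP
  have hconj := conj_pow_eq hkx hkc n
  rw [hkn] at hconj
  have hcn : c ^ n = 1 := by simpa using hconj
  obtain ⟨i, hi⟩ := Cfsg.Agent.Helper8.pelem_of_mem hP₂ hcP
  have hc1 : c = 1 := by
    have hd := Nat.dvd_gcd (orderOf_dvd_of_pow_eq_one hcn) (orderOf_dvd_of_pow_eq_one hi)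
    rw [Nat.Coprime.gcd_eq_one (Nat.Coprime.pow_right i hn)] at hd
    exact orderOf_eq_one_iff.mp (Nat.dvd_one.mp hd)
  rw [hc1, mul_one] at hkx
  calc k * x = (k * x * k⁻¹) * k := by group
    _ = x * k := by rw [hkx]

end Cfsg.Agent.Helper25.Prim
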