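import Mathlib
import Cfsg.Agent.Helper25.Prim1

/-!
helper25: Bender's theorem on primitive pairs, transfer lemmas between a subgroup `M` of `G`
(as a group) and subgroups of `G`, and the elimination of components.
-/

set_option autoImplicit false

namespace Cfsg.Agent.Helper25.Prim

open Cfsg

variable {G : Type*} [Group G]

/-- `F(M)` as a subgroup of `G`. -/
def FG (M : Subgroup G) : Subgroup G := (Cfsg.fittingSubgroup ↥M).map M.subtype

/-- `O_p(M)` as a subgroup of `G`. -/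
def PG (p : ℕ) (M : Subgroup G) : Subgroup G := (Cfsg.pCore p ↥M).map M.subtype

/-- `E(M)` as a subgroup of `G`. -/
def EG (M : Subgroup G) : Subgroup G := (Cfsg.layer ↥M).map M.subtype

/-- the `p'`-elements of `C_M(P)`. -/
def SS (p : ℕ) (M P : Subgroup G) : Set G :=
  {k | k ∈ M ∧ (∀ y ∈ P, k * y = y * k) ∧ ∃ n : ℕ, n.Coprime p ∧ k ^ n = 1}

theorem map_le (M : Subgroup G) (S : Subgroup ↥M) : S.map M.subtype ≤ M := by
  rintro _ ⟨y, _, rfl⟩; exact y.2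

theorem map_conj_mem (M : Subgroup G) {S : Subgroup ↥M} (hS : S.Normal) {m : G} (hm : m ∈ M)
    {y : G} (hy : y ∈ S.map M.subtype) : m * y * m⁻¹ ∈ S.map M.subtype := by
  obtain ⟨y', hy', rfl⟩ := hy
  exact ⟨⟨m, hm⟩ * y' * ⟨m, hm⟩⁻¹, hS.conj_mem y' hy' ⟨m, hm⟩, rfl⟩

theorem conj_closure_mem {S : Set G} {m : G} (h : ∀ s ∈ S, m * s * m⁻¹ ∈ S) :
    ∀ a ∈ Subgroup.closure S, m * a * m⁻¹ ∈ Subgroup.closure S := by
  have hle : Subgroup.closure S ≤ (Subgroup.closure S).comap (MulAut.conj m).toMonoidHom := by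
    rw [Subgroup.closure_le]
    intro s hs
    show m * s * m⁻¹ ∈ Subgroup.closure S
    exact Subgroup.subset_closure (h s hs)
  exact fun a ha => hle ha

theorem FG_nil [Finite G] (M : Subgroup G) : Group.IsNilpotent ↥(FG M) :=
  Cfsg.Agent.Helper12.KW.nilpotent_map M.subtype _ Cfsg.Agent.Helper1.fitting_isNilpotent

theorem PG_pgroup (p : ℕ) (M : Subgroup G) : IsPGroup p ↥(PG p M) :=
  (Cfsg.Agent.Helper1.pCore_isPGroup p ↥M).map M.subtype

theorem PG_le_FG [Finite G] (p : ℕ) [Fact p.Prime] (M : Subgroup G) : PG p M ≤ FG M :=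
  Subgroup.map_mono (Cfsg.Agent.Helper1.pCore_le_fitting p)

theorem pel_mem_PG [Finite G] (p : ℕ) [Fact p.Prime] (M : Subgroup G) {y : G} (hy : y ∈ FG M)
    (hyp : ∃ k : ℕ, y ^ p ^ k = 1) : y ∈ PG p M := by
  obtain ⟨y', hy', rfl⟩ := hy
  obtain ⟨k, hk⟩ := hyp
  obtain ⟨P⟩ : Nonempty (Sylow p ↥(Cfsg.fittingSubgroup ↥M)) := inferInstance
  have hnil : Group.IsNilpotent ↥(Cfsg.fittingSubgroup ↥M) :=
    Cfsg.Agent.Helper1.fitting_isNilpotent
  have hPn : (P : Subgroup ↥(Cfsg.fittingSubgroup ↥M)).Normal :=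
    Cfsg.Agent.Helper12.KW.sylow_normal_of_nilpotent hnil p P
  have hPnM : ((P : Subgroup ↥(Cfsg.fittingSubgroup ↥M)).map
      (Cfsg.fittingSubgroup ↥M).subtype).Normal :=
    Cfsg.Agent.Helper1.sylow_of_normal_nilpotent_normal (Cfsg.Agent.Helper1.fitting_normal ↥M)
      hnil p P
  have hle : (P : Subgroup ↥(Cfsg.fittingSubgroup ↥M)).map (Cfsg.fittingSubgroup ↥M).subtype ≤
      Cfsg.pCore p ↥M := Cfsg.Agent.Helper1.le_pCore hPnM (P.2.map _)
  have hk' : y' ^ p ^ k = 1 := by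
    apply Subtype.ext
    simpa using hk
  have hpg : IsPGroup p (Subgroup.zpowers (⟨y', hy'⟩ : ↥(Cfsg.fittingSubgroup ↥M))) := by
    have h1 : orderOf (⟨y', hy'⟩ : ↥(Cfsg.fittingSubgroup ↥M)) ∣ p ^ k := by
      rw [Subgroup.orderOf_mk]
      exact orderOf_dvd_of_pow_eq_one hk'
    obtain ⟨j, -, hj⟩ := (Nat.dvd_prime_pow (Fact.out : p.Prime)).mp h1
    exact IsPGroup.of_card (n := j) (by rw [Nat.card_zpowers, hj])
  obtain ⟨P', hP'⟩ := hpg.exists_le_sylow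
  have hPP : P' = P := by
    haveI := Sylow.unique_of_normal P hPn
    exact Subsingleton.elim P' P
  rw [hPP] at hP'
  have hmem : y' ∈ (P : Subgroup ↥(Cfsg.fittingSubgroup ↥M)).map
      (Cfsg.fittingSubgroup ↥M).subtype := ⟨⟨y', hy'⟩, hP' (Subgroup.mem_zpowers _), rfl⟩
  exact ⟨y', hle hmem, rfl⟩

theorem cent_FG [Finite G] (M : Subgroup G) (hlayer : Cfsg.layer ↥M = ⊥) {c : G} (hc : c ∈ M)
    (h : ∀ y ∈ FG M, c * y = y * c) : c ∈ FG M := by
  have hgf : Cfsg.generalizedFittingSubgroup ↥M = Cfsg.fittingSubgroup ↥M := by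
    unfold Cfsg.generalizedFittingSubgroup; rw [hlayer, bot_sup_eq]
  have hb := Cfsg.Agent.Helper7.bender (G := ↥M)
  rw [hgf] at hb
  have hmem : (⟨c, hc⟩ : ↥M) ∈ Subgroup.centralizer (Cfsg.fittingSubgroup ↥M : Set ↥M) := by
    rw [Subgroup.mem_centralizer_iff]
    intro y hy
    apply Subtype.ext
    exact (h (y : G) ⟨y, hy, rfl⟩).symm
  exact ⟨⟨c, hc⟩, hb hmem, rfl⟩

theorem SS_conj (p : ℕ) (M P : Subgroup G) (hPn : ∀ m ∈ M, ∀ y ∈ P, m * y * m⁻¹ ∈ P) {m k : G}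
    (hm : m ∈ M) (hk : k ∈ SS p M P) : m * k * m⁻¹ ∈ SS p M P := by
  obtain ⟨hkM, hkP, n, hn, hkn⟩ := hk
  refine ⟨M.mul_mem (M.mul_mem hm hkM) (M.inv_mem hm), fun y hy => ?_, n, hn, ?_⟩
  · have h5 := hPn m⁻¹ (M.inv_mem hm) y hy
    rw [inv_inv] at h5
    have h := hkP _ h5
    calc (m * k * m⁻¹) * y = m * (k * (m⁻¹ * y * m)) * m⁻¹ := by group
      _ = m * ((m⁻¹ * y * m) * k) * m⁻¹ := by rw [h]
      _ = y * (m * k * m⁻¹) := by group
  · rw [conj_pow, hkn]; group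

theorem cent_le_pCore [Finite G] (p : ℕ) [Fact p.Prime] (M : Subgroup G)
    (h : ∀ k ∈ SS p M (PG p M), k = 1) :
    Subgroup.centralizer (Cfsg.pCore p ↥M : Set ↥M) ≤ Cfsg.pCore p ↥M := by
  haveI := Cfsg.Agent.Helper1.pCore_normal p ↥M
  have hn : (Subgroup.centralizer (Cfsg.pCore p ↥M : Set ↥M)).Normal := inferInstance
  apply Cfsg.Agent.Helper1.le_pCore hn
  rintro ⟨c, hc⟩
  obtain ⟨e, m, u, v, -, hpm, hu, hv, hcvu, hue, hvm⟩ :=
    Cfsg.Agent.Helper8.exists_decomp c (orderOf_pos c).ne' p (Fact.out : p.Prime)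
  have hvC : v ∈ Subgroup.centralizer (Cfsg.pCore p ↥M : Set ↥M) :=
    (Subgroup.zpowers_le.mpr hc) hv
  have hvS : (v : G) ∈ SS p M (PG p M) := by
    refine ⟨v.2, ?_, m, ((Nat.Prime.coprime_iff_not_dvd (Fact.out : p.Prime)).mpr hpm).symm, ?_⟩
    · rintro _ ⟨y', hy', rfl⟩
      have h1 := Subgroup.mem_centralizer_iff.mp hvC y' hy'
      exact (congrArg Subtype.val h1).symm
    · have h2 := congrArg Subtype.val hvm
      simpa using h2
  have hv1 : v = 1 := Subtype.ext (h _ hvS)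
  refine ⟨e, ?_⟩
  apply Subtype.ext
  show c ^ p ^ e = 1
  rw [hcvu, hv1, one_mul]; exact hue

/-- Components of `M₁` lie in `E(M₂)`. -/
theorem comp_le [Finite G] (M₁ M₂ : Subgroup G)
    (h₁ : (Cfsg.generalizedFittingSubgroup ↥M₁).map M₁.subtype ≤ M₂)
    (h₂ : (Cfsg.generalizedFittingSubgroup ↥M₂).map M₂.subtype ≤ M₁)
    (K : Subgroup ↥M₁) (hK : Cfsg.IsComponent K) : K.map M₁.subtype ≤ EG M₂ := by
  classical
  have hKF : K ≤ Cfsg.generalizedFittingSubgroup ↥M₁ :=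
    (Cfsg.Agent.Helper7.le_layer hK).trans le_sup_left
  have hKM₂ : ∀ y ∈ K, (y : G) ∈ M₂ := fun y hy => h₁ ⟨y, hKF hy, rfl⟩
  obtain ⟨ι₁, hι₁v⟩ : ∃ ι₁ : ↥(M₁ ⊓ M₂) →* ↥M₁, ∀ d, ((ι₁ d : ↥M₁) : G) = (d : G) :=
    ⟨Subgroup.inclusion inf_le_left, fun d => rfl⟩
  obtain ⟨ι₂, hι₂v⟩ : ∃ ι₂ : ↥(M₁ ⊓ M₂) →* ↥M₂, ∀ d, ((ι₂ d : ↥M₂) : G) = (d : G) :=
    ⟨Subgroup.inclusion inf_le_right, fun d => rfl⟩
  have hι₁ : Function.Injective ι₁ := by
    intro a b hab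
    apply Subtype.ext
    rw [← hι₁v a, ← hι₁v b, hab]
  have hι₂ : Function.Injective ι₂ := by
    intro a b hab
    apply Subtype.ext
    rw [← hι₂v a, ← hι₂v b, hab]
  have hmemK : ∀ (y : ↥M₁) (hy : y ∈ K) (hyD : (y : G) ∈ M₁ ⊓ M₂),
      (⟨(y : G), hyD⟩ : ↥(M₁ ⊓ M₂)) ∈ K.comap ι₁ := by
    intro y hy hyD
    show ι₁ ⟨(y : G), hyD⟩ ∈ K
    have e : ι₁ ⟨(y : G), hyD⟩ = y := Subtype.ext (hι₁v _)
    rw [e]; exact hy
  have hKDsub : (K.comap ι₁).IsSubnormal := hK.1.comap ι₁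
  have hKDq : Cfsg.IsQuasisimple ↥(K.comap ι₁) := by
    have hbij : Function.Bijective (ι₁.subgroupComap K) := by
      constructor
      · intro a b hab
        apply Subtype.ext
        apply hι₁
        exact congrArg Subtype.val hab
      · rintro ⟨y, hy⟩
        refine ⟨⟨⟨(y : G), ⟨y.2, hKM₂ y hy⟩⟩, hmemK y hy _⟩, ?_⟩
        apply Subtype.ext
        apply Subtype.ext
        exact hι₁v _
    exact Cfsg.Agent.Helper7.isQuasisimple_of_mulEquiv (MulEquiv.ofBijective _ hbij).symm hK.2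
  have hKD : Cfsg.IsComponent (K.comap ι₁) := ⟨hKDsub, hKDq⟩
  haveI hlayn : (Cfsg.layer ↥M₂).Normal := Cfsg.Agent.Helper7.layer_normal
  haveI hfitn : (Cfsg.fittingSubgroup ↥M₂).Normal := Cfsg.Agent.Helper1.fitting_normal ↥M₂
  have hE₂Dn : ((Cfsg.layer ↥M₂).comap ι₂).Normal := hlayn.comap ι₂
  haveI hF₂Dn : ((Cfsg.fittingSubgroup ↥M₂).comap ι₂).Normal := hfitn.comap ι₂
  rcases Cfsg.Agent.Helper7.comp_subnormal hKD hE₂Dn.isSubnormal with hle | hcomm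
  · rintro _ ⟨y, hy, rfl⟩
    have hyD : (y : G) ∈ M₁ ⊓ M₂ := ⟨y.2, hKM₂ y hy⟩
    have h4 := hle (hmemK y hy hyD)
    exact ⟨ι₂ ⟨(y : G), hyD⟩, h4, hι₂v _⟩
  · exfalso
    have hF₂Dsol : Group.IsSolvable ↥((Cfsg.fittingSubgroup ↥M₂).comap ι₂) := by
      haveI : Group.IsSolvable ↥(Cfsg.fittingSubgroup ↥M₂) :=
        Cfsg.Agent.Helper7.fittingSubgroup_isSolvable
      exact Group.isSolvable_of_isSolvable_injective
        (f := ι₂.subgroupComap (Cfsg.fittingSubgroup ↥M₂)) (by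
          intro a b hab
          apply Subtype.ext
          apply hι₂
          exact congrArg Subtype.val hab)
    have hcomm2 := Cfsg.Agent.Helper7.comp_solvable hKD hF₂Dsol Subgroup.le_normalizer_of_normal
    have hc1 : ∀ d ∈ K.comap ι₁, ∀ e ∈ (Cfsg.layer ↥M₂).comap ι₂, d * e = e * d := by
      intro d hd e he
      have h5 := Subgroup.commutator_eq_bot_iff_le_centralizer.mp hcomm hd
      exact (Subgroup.mem_centralizer_iff.mp h5 e he).symm
    have hc2 : ∀ d ∈ K.comap ι₁, ∀ e ∈ (Cfsg.fittingSubgroup ↥M₂).comap ι₂, d * e = e * d := by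
      intro d hd e he
      have h5 := Subgroup.commutator_eq_bot_iff_le_centralizer.mp hcomm2 hd
      exact (Subgroup.mem_centralizer_iff.mp h5 e he).symm
    have hcent : ∀ d ∈ K.comap ι₁, ι₂ d ∈
        Subgroup.centralizer (Cfsg.generalizedFittingSubgroup ↥M₂ : Set ↥M₂) := by
      intro d hd
      have hle : Cfsg.generalizedFittingSubgroup ↥M₂ ≤
          Subgroup.centralizer ({ι₂ d} : Set ↥M₂) := by
        unfold Cfsg.generalizedFittingSubgroup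
        apply sup_le
        · intro z hz
          have hzD : (z : G) ∈ M₁ ⊓ M₂ :=
            ⟨h₂ ⟨z, (le_sup_left : Cfsg.layer ↥M₂ ≤ Cfsg.layer ↥M₂ ⊔ Cfsg.fittingSubgroup ↥M₂) hz,
              rfl⟩, z.2⟩
          have hze : (⟨(z : G), hzD⟩ : ↥(M₁ ⊓ M₂)) ∈ (Cfsg.layer ↥M₂).comap ι₂ := by
            show ι₂ ⟨(z : G), hzD⟩ ∈ Cfsg.layer ↥M₂
            have e : ι₂ ⟨(z : G), hzD⟩ = z := Subtype.ext (hι₂v _)
            rw [e]; exact hz
          have h5 := hc1 d hd _ hze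
          rw [Subgroup.mem_centralizer_iff]
          intro t ht
          rw [Set.mem_singleton_iff] at ht
          rw [ht]
          apply Subtype.ext
          have h6 := congrArg (fun t : ↥(M₁ ⊓ M₂) => (t : G)) h5
          rw [Subgroup.coe_mul, Subgroup.coe_mul, hι₂v]
          exact h6
        · intro z hz
          have hzD : (z : G) ∈ M₁ ⊓ M₂ :=
            ⟨h₂ ⟨z, (le_sup_right : Cfsg.fittingSubgroup ↥M₂ ≤
              Cfsg.layer ↥M₂ ⊔ Cfsg.fittingSubgroup ↥M₂) hz, rfl⟩, z.2⟩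
          have hze : (⟨(z : G), hzD⟩ : ↥(M₁ ⊓ M₂)) ∈ (Cfsg.fittingSubgroup ↥M₂).comap ι₂ := by
            show ι₂ ⟨(z : G), hzD⟩ ∈ Cfsg.fittingSubgroup ↥M₂
            have e : ι₂ ⟨(z : G), hzD⟩ = z := Subtype.ext (hι₂v _)
            rw [e]; exact hz
          have h5 := hc2 d hd _ hze
          rw [Subgroup.mem_centralizer_iff]
          intro t ht
          rw [Set.mem_singleton_iff] at ht
          rw [ht]
          apply Subtype.ext
          have h6 := congrArg (fun t : ↥(M₁ ⊓ M₂) => (t : G)) h5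
          rw [Subgroup.coe_mul, Subgroup.coe_mul, hι₂v]
          exact h6
      rw [Subgroup.mem_centralizer_iff]
      intro z hz
      have h7 := hle hz
      rw [Subgroup.mem_centralizer_iff] at h7
      exact (h7 (ι₂ d) rfl).symm
    have hKcomm : ∀ a b : ↥K, a * b = b * a := by
      intro a b
      have haD : ((a : ↥M₁) : G) ∈ M₁ ⊓ M₂ := ⟨(a : ↥M₁).2, hKM₂ a a.2⟩
      have hbD : ((b : ↥M₁) : G) ∈ M₁ ⊓ M₂ := ⟨(b : ↥M₁).2, hKM₂ b b.2⟩
      have h7 := Cfsg.Agent.Helper7.bender (G := ↥M₂) (hcent _ (hmemK a a.2 haD))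
      have h8 := hcent _ (hmemK b b.2 hbD)
      have h9 := Subgroup.mem_centralizer_iff.mp h8 _ h7
      apply Subtype.ext
      apply Subtype.ext
      have h10 := congrArg (fun t : ↥M₂ => (t : G)) h9
      simp only [Subgroup.coe_mul, hι₂v] at h10
      exact h10
    exact Cfsg.Agent.Helper7.IsComponent.not_isSolvable hK (Group.isSolvable_of_comm hKcomm)

theorem key (M₁ M₂ : Subgroup G) (hne : M₁ ≠ M₂)
    (hP : ∀ A : Subgroup G, A ≠ ⊥ → A ≤ M₁ ⊓ M₂ →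
      (M₁ ≤ Subgroup.normalizer (A : Set G) → M₂ ⊓ Subgroup.normalizer (A : Set G) = M₁ ⊓ M₂) ∧
      (M₂ ≤ Subgroup.normalizer (A : Set G) → M₁ ⊓ Subgroup.normalizer (A : Set G) = M₁ ⊓ M₂))
    (A : Subgroup G) (hA : A ≠ ⊥) (hAD : A ≤ M₁ ⊓ M₂)
    (h1 : M₁ ≤ Subgroup.normalizer (A : Set G)) (h2 : M₂ ≤ Subgroup.normalizer (A : Set G)) :
    False := by
  obtain ⟨ha, hb⟩ := hP A hA hAD
  have e1 := ha h1
  have e2 := hb h2
  rw [inf_eq_left.mpr h2] at e1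
  rw [inf_eq_left.mpr h1] at e2
  exact hne (e2.trans e1.symm)

theorem le_normalizer_map (M : Subgroup G) {S : Subgroup ↥M} (hS : S.Normal) :
    M ≤ Subgroup.normalizer ((S.map M.subtype : Subgroup G) : Set G) := by
  intro m hm
  apply mem_normalizer_of_conj'
  · exact fun a ha => map_conj_mem M hS hm ha
  · intro a ha
    have h5 := map_conj_mem M hS (M.inv_mem hm) ha
    rwa [inv_inv] at h5

theorem layer_eq_bot [Finite G] (M₁ M₂ : Subgroup G) (hne : M₁ ≠ M₂)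
    (hP : ∀ A : Subgroup G, A ≠ ⊥ → A ≤ M₁ ⊓ M₂ →
      (M₁ ≤ Subgroup.normalizer (A : Set G) → M₂ ⊓ Subgroup.normalizer (A : Set G) = M₁ ⊓ M₂) ∧
      (M₂ ≤ Subgroup.normalizer (A : Set G) → M₁ ⊓ Subgroup.normalizer (A : Set G) = M₁ ⊓ M₂))
    (h₁ : (Cfsg.generalizedFittingSubgroup ↥M₁).map M₁.subtype ≤ M₂)
    (h₂ : (Cfsg.generalizedFittingSubgroup ↥M₂).map M₂.subtype ≤ M₁) :
    Cfsg.layer ↥M₁ = ⊥ ∧ Cfsg.layer ↥M₂ = ⊥ := by
  have h12 : EG M₁ ≤ EG M₂ := by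
    unfold EG
    rw [Subgroup.map_le_iff_le_comap]
    unfold Cfsg.layer
    apply sSup_le
    intro K hK
    rw [← Subgroup.map_le_iff_le_comap]
    exact comp_le M₁ M₂ h₁ h₂ K hK
  have h21 : EG M₂ ≤ EG M₁ := by
    unfold EG
    rw [Subgroup.map_le_iff_le_comap]
    unfold Cfsg.layer
    apply sSup_le
    intro K hK
    rw [← Subgroup.map_le_iff_le_comap]
    exact comp_le M₂ M₁ h₂ h₁ K hK
  have hE : EG M₁ = EG M₂ := le_antisymm h12 h21
  have hbot : EG M₁ = ⊥ := by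
    by_contra hne'
    apply key M₁ M₂ hne hP (EG M₁) hne'
    · exact le_inf (map_le M₁ _) (hE ▸ map_le M₂ _)
    · exact le_normalizer_map M₁ Cfsg.Agent.Helper7.layer_normal
    · rw [hE]; exact le_normalizer_map M₂ Cfsg.Agent.Helper7.layer_normal
  have hbot2 : EG M₂ = ⊥ := hE ▸ hbot
  exact ⟨(Subgroup.map_eq_bot_iff_of_injective _ (Subgroup.subtype_injective _)).mp hbot,
    (Subgroup.map_eq_bot_iff_of_injective _ (Subgroup.subtype_injective _)).mp hbot2⟩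

end Cfsg.Agent.Helper25.Prim
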