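import Mathlib
import Cfsg.Agent.Helper25.Prim2
import Cfsg.Agent.Helper7.CharP
import Cfsg.Agent.Helper9.PPrimeCore
import Cfsg.Agent.Helper16.Basic

/-!
helper25: groups of local characteristic `p`: maximal `p`-local subgroups, and the dichotomy
"primitive pair of characteristic `p`, or every maximal `p`-local is strongly `p`-embedded".
-/

set_option autoImplicit false

namespace Cfsg.Agent.Helper25.Loc

open Cfsg

variable {G : Type*} [Group G]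

/-- `L` is a `p`-local subgroup of `G`. -/
def IsLoc (p : ℕ) (L : Subgroup G) : Prop :=
  ∃ T : Subgroup G, IsPGroup p T ∧ T ≠ ⊥ ∧ L = Subgroup.normalizer (T : Set G)

/-- `M` is a maximal `p`-local subgroup of `G`. -/
def IsMaxLoc (p : ℕ) (M : Subgroup G) : Prop :=
  IsLoc p M ∧ ∀ L : Subgroup G, IsLoc p L → M ≤ L → L = M

/-- every `p`-subgroup of `M` containing `T` is `T`. -/
def SP (p : ℕ) (M T : Subgroup G) : Prop :=
  ∀ P : Subgroup G, IsPGroup p P → T ≤ P → P ≤ M → P ≤ T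

/-- `G` has a primitive pair of characteristic `p`. -/
def HasPair (p : ℕ) (G : Type*) [Group G] : Prop :=
  ∃ M₁ M₂ : Subgroup G, M₁ ≠ M₂ ∧ (∀ A : Subgroup G, A ≠ ⊥ → A ≤ M₁ ⊓ M₂ → (M₁ ≤ Subgroup.normalizer (A : Set G) → M₂ ⊓ Subgroup.normalizer (A : Set G) = M₁ ⊓ M₂) ∧ (M₂ ≤ Subgroup.normalizer (A : Set G) → M₁ ⊓ Subgroup.normalizer (A : Set G) = M₁ ⊓ M₂)) ∧ Subgroup.centralizer (Cfsg.pCore p ↥M₁ : Set ↥M₁) ≤ Cfsg.pCore p ↥M₁ ∧ Subgroup.centralizer (Cfsg.pCore p ↥M₂ : Set ↥M₂) ≤ Cfsg.pCore p ↥M₂ ∧ (Cfsg.pCore p ↥M₁).map M₁.subtype ⊔ (Cfsg.pCore p ↥M₂).map M₂.subtype ≤ M₁ ⊓ M₂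

theorem exists_max_card [Finite G] (P : Subgroup G → Prop) (h : ∃ H, P H) :
    ∃ H, P H ∧ ∀ K, P K → Nat.card K ≤ Nat.card H := by
  have hne : {n | ∃ H, P H ∧ Nat.card H = n}.Nonempty := by
    obtain ⟨H, hH⟩ := h
    exact ⟨Nat.card H, H, hH, rfl⟩
  have hbdd : BddAbove {n | ∃ H, P H ∧ Nat.card H = n} := by
    refine ⟨Nat.card G, ?_⟩
    rintro n ⟨H, -, rfl⟩
    exact Subgroup.card_le_card_group H
  obtain ⟨H, hH, hc⟩ := Nat.sSup_mem hne hbdd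
  refine ⟨H, hH, fun K hK => ?_⟩
  rw [hc]
  exact le_csSup hbdd ⟨K, hK, rfl⟩

theorem mem_conj_iff (H : Subgroup G) (g x : G) :
    x ∈ H.map (MulAut.conj g).toMonoidHom ↔ g⁻¹ * x * g ∈ H :=
  Cfsg.Agent.Helper16.mem_map_conj_iff H g x

theorem isLoc_conj {p : ℕ} {L : Subgroup G} (h : IsLoc p L) (g : G) :
    IsLoc p (L.map (MulAut.conj g).toMonoidHom) := by
  obtain ⟨T, hT, hne, rfl⟩ := h
  refine ⟨T.map (MulAut.conj g).toMonoidHom, hT.map _, ?_,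
    Subgroup.map_equiv_normalizer_eq T (MulAut.conj g)⟩
  intro hbot
  exact hne ((Subgroup.map_eq_bot_iff_of_injective _ (MulAut.conj g).injective).mp hbot)

theorem conj_conj_inv (L : Subgroup G) (g : G) :
    (L.map (MulAut.conj g).toMonoidHom).map (MulAut.conj g⁻¹).toMonoidHom = L := by
  ext x
  rw [mem_conj_iff, mem_conj_iff, inv_inv]
  have e : g⁻¹ * (g * x * g⁻¹) * g = x := by group
  rw [e]

theorem conj_inv_conj (L : Subgroup G) (g : G) :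
    (L.map (MulAut.conj g⁻¹).toMonoidHom).map (MulAut.conj g).toMonoidHom = L := by
  have h := conj_conj_inv L g⁻¹
  rwa [inv_inv] at h

theorem isMaxLoc_conj {p : ℕ} {M : Subgroup G} (h : IsMaxLoc p M) (g : G) :
    IsMaxLoc p (M.map (MulAut.conj g).toMonoidHom) := by
  refine ⟨isLoc_conj h.1 g, fun L hL hML => ?_⟩
  have h1 : M ≤ L.map (MulAut.conj g⁻¹).toMonoidHom := by
    have h2 := Subgroup.map_mono (f := (MulAut.conj g⁻¹).toMonoidHom) hML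
    rwa [conj_conj_inv] at h2
  have h3 := h.2 _ (isLoc_conj hL g⁻¹) h1
  rw [← h3, conj_inv_conj]

theorem le_PG {p : ℕ} {T : Subgroup G} (hT : IsPGroup p T) :
    T ≤ Prim.PG p (Subgroup.normalizer (T : Set G)) := by
  intro t ht
  have hN : (T.subgroupOf (Subgroup.normalizer (T : Set G))).Normal :=
    Subgroup.normal_in_normalizer
  have hp : IsPGroup p (T.subgroupOf (Subgroup.normalizer (T : Set G))) := hT.comap_subtype
  have hle := Cfsg.Agent.Helper1.le_pCore hN hp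
  exact ⟨⟨t, Subgroup.le_normalizer ht⟩, hle (Subgroup.mem_subgroupOf.mpr ht), rfl⟩

theorem PG_ne_bot {p : ℕ} {M : Subgroup G} (h : IsLoc p M) : Prim.PG p M ≠ ⊥ := by
  obtain ⟨T, hT, hne, rfl⟩ := h
  intro hbot
  apply hne
  have h1 := le_PG hT
  rw [hbot] at h1
  exact le_bot_iff.mp h1

theorem le_normalizer_PG (p : ℕ) (M : Subgroup G) :
    M ≤ Subgroup.normalizer ((Prim.PG p M : Subgroup G) : Set G) :=
  Prim.le_normalizer_map M (Cfsg.Agent.Helper1.pCore_normal p ↥M)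

theorem normalizer_PG {p : ℕ} {M : Subgroup G} (h : IsMaxLoc p M) :
    Subgroup.normalizer ((Prim.PG p M : Subgroup G) : Set G) = M :=
  h.2 _ ⟨Prim.PG p M, Prim.PG_pgroup p M, PG_ne_bot h.1, rfl⟩ (le_normalizer_PG p M)

theorem normalizer_le_normalizer_PG (p : ℕ) (A : Subgroup G) :
    Subgroup.normalizer (A : Set G) ≤
      Subgroup.normalizer ((Prim.PG p A : Subgroup G) : Set G) := by
  intro g hg
  apply Prim.mem_normalizer_of_conj'
  · rintro _ ⟨d, hd, rfl⟩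
    obtain ⟨d', hd', e⟩ := Cfsg.Agent.Helper9.char_conj_mem (Cfsg.pCore p ↥A)
      (Cfsg.Agent.Helper7.pCore_characteristic p ↥A) g hg d hd
    exact ⟨d', hd', e⟩
  · rintro _ ⟨d, hd, rfl⟩
    obtain ⟨d', hd', e⟩ := Cfsg.Agent.Helper9.char_conj_mem (Cfsg.pCore p ↥A)
      (Cfsg.Agent.Helper7.pCore_characteristic p ↥A) g⁻¹ (Subgroup.inv_mem _ hg) d hd
    rw [inv_inv] at e
    exact ⟨d', hd', e⟩

theorem self_normalizing {p : ℕ} {M : Subgroup G} (h : IsMaxLoc p M) {g : G}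
    (hg : M.map (MulAut.conj g).toMonoidHom = M) : g ∈ M := by
  have h1 : g ∈ Subgroup.normalizer (M : Set G) :=
    Cfsg.Agent.Helper16.mem_normalizer_of_map_conj_eq hg
  have h2 := normalizer_le_normalizer_PG p M h1
  rwa [normalizer_PG h] at h2

theorem normalizer_eq_of_max {p : ℕ} {M A : Subgroup G} (h : IsMaxLoc p M)
    (hcent : Subgroup.centralizer (Cfsg.pCore p ↥M : Set ↥M) ≤ Cfsg.pCore p ↥M)
    (hA : A ≠ ⊥) (hAM : A ≤ M) (hMA : M ≤ Subgroup.normalizer (A : Set G)) :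
    Subgroup.normalizer (A : Set G) = M := by
  have hQn := le_normalizer_PG p M
  have hAQ : A ⊓ Prim.PG p M ≠ ⊥ := by
    intro hbot
    apply hA
    rw [eq_bot_iff]
    intro a ha
    have haM : a ∈ M := hAM ha
    have hcomm : ∀ q ∈ Prim.PG p M, a * q = q * a := by
      intro q hq
      have hqM : q ∈ M := Prim.map_le M _ hq
      have h1 : a * q * a⁻¹ * q⁻¹ ∈ A ⊓ Prim.PG p M := by
        refine Subgroup.mem_inf.mpr ⟨?_, ?_⟩
        · have h2 : q * a⁻¹ * q⁻¹ ∈ A :=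
            (Subgroup.mem_normalizer_iff.mp (hMA hqM) a⁻¹).mp (A.inv_mem ha)
          have e : a * q * a⁻¹ * q⁻¹ = a * (q * a⁻¹ * q⁻¹) := by group
          rw [e]; exact A.mul_mem ha h2
        · have h2 : a * q * a⁻¹ ∈ Prim.PG p M :=
            (Subgroup.mem_normalizer_iff.mp (hQn haM) q).mp hq
          exact (Prim.PG p M).mul_mem h2 ((Prim.PG p M).inv_mem hq)
      rw [hbot, Subgroup.mem_bot] at h1
      calc a * q = (a * q * a⁻¹ * q⁻¹) * (q * a) := by group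
        _ = q * a := by rw [h1, one_mul]
    have hmem : (⟨a, haM⟩ : ↥M) ∈ Subgroup.centralizer (Cfsg.pCore p ↥M : Set ↥M) := by
      rw [Subgroup.mem_centralizer_iff]
      intro y hy
      apply Subtype.ext
      exact (hcomm (y : G) ⟨y, hy, rfl⟩).symm
    have haQ : a ∈ Prim.PG p M := ⟨⟨a, haM⟩, hcent hmem, rfl⟩
    have h3 : a ∈ A ⊓ Prim.PG p M := Subgroup.mem_inf.mpr ⟨ha, haQ⟩
    rw [hbot] at h3
    exact h3
  have hle : A ⊓ Prim.PG p M ≤ Prim.PG p A := by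
    have hn : ((A ⊓ Prim.PG p M).subgroupOf A).Normal := by
      constructor
      intro x hx a
      rw [Subgroup.mem_subgroupOf] at hx ⊢
      have hx' := Subgroup.mem_inf.mp hx
      refine Subgroup.mem_inf.mpr ⟨(a * x * a⁻¹).2, ?_⟩
      exact (Subgroup.mem_normalizer_iff.mp (hQn (hAM a.2)) x).mp hx'.2
    have hp : IsPGroup p ((A ⊓ Prim.PG p M).subgroupOf A) :=
      ((Prim.PG_pgroup p M).to_le inf_le_right).comap_subtype
    have h1 := Cfsg.Agent.Helper1.le_pCore hn hp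
    intro x hx
    exact ⟨⟨x, (Subgroup.mem_inf.mp hx).1⟩, h1 (Subgroup.mem_subgroupOf.mpr hx), rfl⟩
  have hne : Prim.PG p A ≠ ⊥ := by
    intro hbot
    apply hAQ
    rw [eq_bot_iff, ← hbot]
    exact hle
  have h3 := h.2 _ ⟨Prim.PG p A, Prim.PG_pgroup p A, hne, rfl⟩
    (hMA.trans (normalizer_le_normalizer_PG p A))
  exact le_antisymm (h3 ▸ normalizer_le_normalizer_PG p A) hMA

theorem prim_of_max {p : ℕ} {M₁ M₂ : Subgroup G} (h1 : IsMaxLoc p M₁) (h2 : IsMaxLoc p M₂)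
    (hc1 : Subgroup.centralizer (Cfsg.pCore p ↥M₁ : Set ↥M₁) ≤ Cfsg.pCore p ↥M₁)
    (hc2 : Subgroup.centralizer (Cfsg.pCore p ↥M₂ : Set ↥M₂) ≤ Cfsg.pCore p ↥M₂) :
    ∀ A : Subgroup G, A ≠ ⊥ → A ≤ M₁ ⊓ M₂ →
      (M₁ ≤ Subgroup.normalizer (A : Set G) →
        M₂ ⊓ Subgroup.normalizer (A : Set G) = M₁ ⊓ M₂) ∧
      (M₂ ≤ Subgroup.normalizer (A : Set G) →
        M₁ ⊓ Subgroup.normalizer (A : Set G) = M₁ ⊓ M₂) := by
  intro A hA hAD
  refine ⟨fun h => ?_, fun h => ?_⟩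
  · rw [normalizer_eq_of_max h1 hc1 hA (hAD.trans inf_le_left) h, inf_comm]
  · rw [normalizer_eq_of_max h2 hc2 hA (hAD.trans inf_le_right) h]

theorem PG_le_of_SP {p : ℕ} {M T : Subgroup G} (hT : IsPGroup p T) (hTM : T ≤ M)
    (hS : SP p M T) : Prim.PG p M ≤ T := by
  have hp : IsPGroup p ↥(T ⊔ Prim.PG p M) :=
    IsPGroup.to_sup_of_normal_right' hT (Prim.PG_pgroup p M) (hTM.trans (le_normalizer_PG p M))
  exact le_sup_right.trans (hS _ hp le_sup_left (sup_le hTM (Prim.map_le M _)))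

theorem SP_conj {p : ℕ} {M T : Subgroup G} (hS : SP p M T) {r : G}
    (hr : r ∈ Subgroup.normalizer (T : Set G)) :
    SP p (M.map (MulAut.conj r).toMonoidHom) T := by
  intro P hP hTP hPM
  have h1 : P.map (MulAut.conj r⁻¹).toMonoidHom ≤ T := by
    apply hS _ (hP.map _)
    · intro t ht
      rw [mem_conj_iff, inv_inv]
      exact hTP ((Subgroup.mem_normalizer_iff.mp hr t).mp ht)
    · have h2 := Subgroup.map_mono (f := (MulAut.conj r⁻¹).toMonoidHom) hPM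
      rwa [conj_conj_inv] at h2
  intro x hx
  have e : r * (r⁻¹ * x * r) * r⁻¹ = x := by group
  have h2 : r⁻¹ * x * r ∈ T := by
    apply h1
    rw [mem_conj_iff, inv_inv, e]
    exact hx
  have h3 := (Subgroup.mem_normalizer_iff.mp hr (r⁻¹ * x * r)).mp h2
  rwa [e] at h3

theorem le_conj_of_mem_normalizer {M T : Subgroup G} (hTM : T ≤ M) {r : G}
    (hr : r ∈ Subgroup.normalizer (T : Set G)) : T ≤ M.map (MulAut.conj r).toMonoidHom := by
  intro t ht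
  rw [mem_conj_iff]
  exact hTM ((Subgroup.mem_normalizer_iff''.mp hr t).mp ht)

theorem exists_of_not_SP [Finite G] {p : ℕ} [Fact p.Prime] {M T : Subgroup G}
    (hS : ¬ SP p M T) :
    ∃ r ∈ M, r ∉ T ∧ r ∈ Subgroup.normalizer (T : Set G) ∧
      IsPGroup p ↥(T ⊔ Subgroup.zpowers r) := by
  by_contra hcon
  apply hS
  intro P hP hTP hPM
  by_contra hne
  obtain ⟨n, hnP, hnT, hnN⟩ := Cfsg.Agent.Helper16.exists_mem_normalizer_not_mem hP hTP hne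
  exact hcon ⟨n, hPM hnP, hnT, hnN, hP.to_le (sup_le hTP (Subgroup.zpowers_le.mpr hnP))⟩

theorem pair_of_SP {p : ℕ}
    (hcent : ∀ M : Subgroup G, IsLoc p M →
      Subgroup.centralizer (Cfsg.pCore p ↥M : Set ↥M) ≤ Cfsg.pCore p ↥M)
    {M₁ M₂ T : Subgroup G} (h1 : IsMaxLoc p M₁) (h2 : IsMaxLoc p M₂) (hne : M₁ ≠ M₂)
    (hT : IsPGroup p T) (hT1 : T ≤ M₁) (hT2 : T ≤ M₂) (hS1 : SP p M₁ T) (hS2 : SP p M₂ T) :
    HasPair p G := by
  refine ⟨M₁, M₂, hne, prim_of_max h1 h2 (hcent _ h1.1) (hcent _ h2.1), hcent _ h1.1,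
    hcent _ h2.1, ?_⟩
  exact sup_le ((PG_le_of_SP hT hT1 hS1).trans (le_inf hT1 hT2))
    ((PG_le_of_SP hT hT2 hS2).trans (le_inf hT1 hT2))

theorem exists_max_ge [Finite G] {p : ℕ} {L : Subgroup G} (hL : IsLoc p L) :
    ∃ M, IsMaxLoc p M ∧ L ≤ M := by
  obtain ⟨M, ⟨hM, hLM⟩, hmax⟩ :=
    exists_max_card (fun M : Subgroup G => IsLoc p M ∧ L ≤ M) ⟨L, hL, le_rfl⟩
  refine ⟨M, ⟨hM, fun L' hL' hML' => ?_⟩, hLM⟩
  exact (Subgroup.eq_of_le_of_card_ge hML' (hmax L' ⟨hL', hLM.trans hML'⟩)).symm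

theorem grow_false [Finite G] {p : ℕ} {T : Subgroup G} (hTne : T ≠ ⊥)
    (hmax : ∀ M₁' M₂' T' : Subgroup G, IsMaxLoc p M₁' → IsMaxLoc p M₂' → M₁' ≠ M₂' →
      IsPGroup p T' → T' ≠ ⊥ → T' ≤ M₁' → T' ≤ M₂' → Nat.card T' ≤ Nat.card T)
    {M₁ M₂ : Subgroup G} (h1 : IsMaxLoc p M₁) (h2 : IsMaxLoc p M₂) (hne : M₁ ≠ M₂)
    (hT1 : T ≤ M₁) (hT2 : T ≤ M₂) {r : G} (hrT : r ∉ T)
    (hrp : IsPGroup p ↥(T ⊔ Subgroup.zpowers r)) (hr1 : r ∈ M₁) (hr2 : r ∈ M₂) : False := by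
  have hne' : T ⊔ Subgroup.zpowers r ≠ ⊥ := by
    intro hbot
    apply hTne
    rw [eq_bot_iff, ← hbot]
    exact le_sup_left
  have hle := hmax M₁ M₂ (T ⊔ Subgroup.zpowers r) h1 h2 hne hrp hne'
    (sup_le hT1 (Subgroup.zpowers_le.mpr hr1)) (sup_le hT2 (Subgroup.zpowers_le.mpr hr2))
  have heq := Subgroup.eq_of_le_of_card_ge (le_sup_left : T ≤ T ⊔ Subgroup.zpowers r) hle
  apply hrT
  rw [heq]
  exact (le_sup_right : Subgroup.zpowers r ≤ T ⊔ Subgroup.zpowers r) (Subgroup.mem_zpowers r)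

theorem pair_of_SP_not_SP [Finite G] {p : ℕ} [Fact p.Prime]
    (hcent : ∀ M : Subgroup G, IsLoc p M →
      Subgroup.centralizer (Cfsg.pCore p ↥M : Set ↥M) ≤ Cfsg.pCore p ↥M)
    {M₁ M₂ T : Subgroup G} (h1 : IsMaxLoc p M₁) (h2 : IsMaxLoc p M₂) (hne : M₁ ≠ M₂)
    (hT : IsPGroup p T) (hTne : T ≠ ⊥) (hT1 : T ≤ M₁) (hT2 : T ≤ M₂)
    (hmax : ∀ M₁' M₂' T' : Subgroup G, IsMaxLoc p M₁' → IsMaxLoc p M₂' → M₁' ≠ M₂' →
      IsPGroup p T' → T' ≠ ⊥ → T' ≤ M₁' → T' ≤ M₂' → Nat.card T' ≤ Nat.card T)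
    (hS1 : SP p M₁ T) (hS2 : ¬ SP p M₂ T) : HasPair p G := by
  obtain ⟨r, hrM, hrT, hrN, hrp⟩ := exists_of_not_SP hS2
  have hr1 : r ∉ M₁ := fun hr1 => grow_false hTne hmax h1 h2 hne hT1 hT2 hrT hrp hr1 hrM
  have hne' : M₁ ≠ M₁.map (MulAut.conj r).toMonoidHom :=
    fun h => hr1 (self_normalizing h1 h.symm)
  exact pair_of_SP hcent h1 (isMaxLoc_conj h1 r) hne' hT hT1
    (le_conj_of_mem_normalizer hT1 hrN) hS1 (SP_conj hS1 hrN)

/-- If some maximal `p`-local `M` is not strongly `p`-embedded, there is a primitive pair of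
characteristic `p`. -/
theorem main [Finite G] {p : ℕ} [Fact p.Prime]
    (hcent : ∀ M : Subgroup G, IsLoc p M →
      Subgroup.centralizer (Cfsg.pCore p ↥M : Set ↥M) ≤ Cfsg.pCore p ↥M)
    {M : Subgroup G} (hM : IsMaxLoc p M) {g : G} (hg : g ∉ M)
    (hdvd : p ∣ Nat.card ↥(M ⊓ M.map (MulAut.conj g).toMonoidHom)) : HasPair p G := by
  obtain ⟨x, hx⟩ := exists_prime_orderOf_dvd_card' p hdvd
  have hxp : IsPGroup p ↥(Subgroup.zpowers (x : G)) := by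
    apply IsPGroup.of_card (n := 1)
    rw [Nat.card_zpowers, Subgroup.orderOf_coe, hx, pow_one]
  have hxne : Subgroup.zpowers (x : G) ≠ ⊥ := by
    intro hbot
    have h1 : (x : G) ∈ (⊥ : Subgroup G) := hbot ▸ Subgroup.mem_zpowers (x : G)
    rw [Subgroup.mem_bot] at h1
    have h2 : orderOf (x : G) = 1 := by rw [h1, orderOf_one]
    rw [Subgroup.orderOf_coe, hx] at h2
    exact (Fact.out : p.Prime).one_lt.ne' h2
  have hx1 : Subgroup.zpowers (x : G) ≤ M :=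
    Subgroup.zpowers_le.mpr (Subgroup.mem_inf.mp x.2).1
  have hx2 : Subgroup.zpowers (x : G) ≤ M.map (MulAut.conj g).toMonoidHom :=
    Subgroup.zpowers_le.mpr (Subgroup.mem_inf.mp x.2).2
  have hMne : M ≠ M.map (MulAut.conj g).toMonoidHom :=
    fun h => hg (self_normalizing hM h.symm)
  obtain ⟨T, ⟨M₁, M₂, h1, h2, hne, hT, hTne, hT1, hT2⟩, hmaxc⟩ :=
    exists_max_card (fun T : Subgroup G => ∃ M₁ M₂ : Subgroup G, IsMaxLoc p M₁ ∧
      IsMaxLoc p M₂ ∧ M₁ ≠ M₂ ∧ IsPGroup p T ∧ T ≠ ⊥ ∧ T ≤ M₁ ∧ T ≤ M₂)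
      ⟨Subgroup.zpowers (x : G), M, M.map (MulAut.conj g).toMonoidHom, hM, isMaxLoc_conj hM g,
        hMne, hxp, hxne, hx1, hx2⟩
  have hmax : ∀ M₁' M₂' T' : Subgroup G, IsMaxLoc p M₁' → IsMaxLoc p M₂' → M₁' ≠ M₂' →
      IsPGroup p T' → T' ≠ ⊥ → T' ≤ M₁' → T' ≤ M₂' → Nat.card T' ≤ Nat.card T :=
    fun M₁' M₂' T' a b c d e f g' => hmaxc T' ⟨M₁', M₂', a, b, c, d, e, f, g'⟩
  by_cases hS1 : SP p M₁ T
  · by_cases hS2 : SP p M₂ T
    · exact pair_of_SP hcent h1 h2 hne hT hT1 hT2 hS1 hS2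
    · exact pair_of_SP_not_SP hcent h1 h2 hne hT hTne hT1 hT2 hmax hS1 hS2
  · by_cases hS2 : SP p M₂ T
    · exact pair_of_SP_not_SP hcent h2 h1 hne.symm hT hTne hT2 hT1 hmax hS2 hS1
    · exfalso
      obtain ⟨r₁, hr₁M, hr₁T, hr₁N, hr₁p⟩ := exists_of_not_SP hS1
      obtain ⟨r₂, hr₂M, hr₂T, hr₂N, hr₂p⟩ := exists_of_not_SP hS2
      obtain ⟨M₃, h3, hle3⟩ := exists_max_ge (p := p)
        (L := Subgroup.normalizer (T : Set G)) ⟨T, hT, hTne, rfl⟩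
      have hT3 : T ≤ M₃ := Subgroup.le_normalizer.trans hle3
      have e1 : M₁ = M₃ := by
        by_contra hne13
        exact grow_false hTne hmax h1 h3 hne13 hT1 hT3 hr₁T hr₁p hr₁M (hle3 hr₁N)
      have e2 : M₂ = M₃ := by
        by_contra hne23
        exact grow_false hTne hmax h2 h3 hne23 hT2 hT3 hr₂T hr₂p hr₂M (hle3 hr₂N)
      exact hne (e1.trans e2.symm)

end Cfsg.Agent.Helper25.Loc
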