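import Mathlib
import Cfsg.Agent.Helper25.DihedralFusion
import Cfsg.Agent.Helper25.GroupFusion2

set_option autoImplicit false

namespace Cfsg.Agent.Helper25

open Cfsg Cfsg.FusionSystem Cfsg.Agent.Helper26

variable {G : Type*} [Group G]

/-- Group-theoretic data making `R` a fully normalized, radical, centric subgroup of the fusion
system of `G` on `S`: `R ⊴ S`, `C_G(R) ≤ R`, and `S ∩ nSn⁻¹ ≤ R` for some `n ∈ N_G(R)`. -/
def GoodR (S R : Subgroup G) : Prop :=
  R ≤ S ∧ S ≤ Subgroup.normalizer (R : Set G) ∧ Subgroup.centralizer (R : Set G) ≤ R ∧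
    ∃ n ∈ Subgroup.normalizer (R : Set G), ∀ s ∈ S, n * s * n⁻¹ ∈ S → n * s * n⁻¹ ∈ R

theorem goodR_fullyNormalized [Finite G] {S R : Subgroup G} (h : GoodR S R) :
    (groupFusionSystem S).IsFullyNormalized R := by
  refine ⟨h.1, fun Q' _ => ?_⟩
  have e : normalizerIn S R = S := inf_eq_left.2 h.2.1
  rw [e]
  exact Subgroup.card_le_of_le inf_le_left

theorem goodR_centric {S R : Subgroup G} (h : GoodR S R) :
    (groupFusionSystem S).IsCentric R := by
  refine ⟨h.1, fun Q' hQ' => ?_⟩
  obtain ⟨-, -, g, rfl⟩ := groupFusionSystem_isConj_iff.1 hQ'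
  intro x hx
  have h1 : x ∈ Subgroup.centralizer ((conjBy R g : Subgroup G) : Set G) := hx.2
  rw [centralizer_conjBy, mem_conjBy] at h1
  rw [mem_conjBy]
  exact h.2.2.1 h1

theorem goodR_radical [Finite G] {p : ℕ} [Fact p.Prime] (S : Sylow p G) {R : Subgroup G}
    (h : GoodR (S : Subgroup G) R) : (groupFusionSystem (S : Subgroup G)).IsRadical p R := by
  have hSp : IsPGroup p (S : Subgroup G) := S.isPGroup'
  have hsat := groupFusionSystem_isSaturated p S
  refine ⟨h.1, le_antisymm ?_ (inn_le_pCore_map hSp _ h.1)⟩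
  obtain ⟨-, ⟨-, R₀, hR₀⟩, -⟩ := sat_of_fullyNormalized hSp _ hsat (goodR_fullyNormalized h)
  rintro _ ⟨γ, hγ, rfl⟩
  obtain ⟨n, hnN, hn⟩ := h.2.2.2
  have hνA : conjAut R n hnN ∈ (groupFusionSystem (S : Subgroup G)).autGroup R := by
    rw [autGroup_groupFusionSystem h.1]
    exact conjAut_mem ⊤ R n (Subgroup.mem_top n) hnN
  have h1 : γ ∈ (R₀ : Subgroup ((groupFusionSystem (S : Subgroup G)).autGroup R)) :=
    pCore_le_sylow' R₀ hγ
  have h2 : (⟨conjAut R n hnN, hνA⟩ : (groupFusionSystem (S : Subgroup G)).autGroup R)⁻¹ * γ *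
      (⟨conjAut R n hnN, hνA⟩ : (groupFusionSystem (S : Subgroup G)).autGroup R) ∈
      (R₀ : Subgroup ((groupFusionSystem (S : Subgroup G)).autGroup R)) := by
    apply pCore_le_sylow' R₀
    have h3 := (pCore_normal' p ((groupFusionSystem (S : Subgroup G)).autGroup R)).conj_mem γ hγ
      (⟨conjAut R n hnN, hνA⟩ : (groupFusionSystem (S : Subgroup G)).autGroup R)⁻¹
    rw [inv_inv] at h3
    exact h3
  rw [hR₀, Subgroup.mem_subgroupOf] at h1 h2
  obtain ⟨s, hs, hsx⟩ := (Helper26.mem_autInducedBy_iff _ _ _).1 h1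
  obtain ⟨s₂, hs₂, hs₂x⟩ := (Helper26.mem_autInducedBy_iff _ _ _).1 h2
  have hinv : ∀ z : R, (((conjAut R n hnN)⁻¹ z : R) : G) = n⁻¹ * (z : G) * n := by
    intro z
    have h4 := conjAut_apply R n hnN ((conjAut R n hnN)⁻¹ z)
    rw [MulAut.apply_inv_self] at h4
    rw [h4]; group
  have hγx : ∀ x : R, (((γ : MulAut R) x : R) : G) = (n * s₂ * n⁻¹) * (x : G) * (n * s₂ * n⁻¹)⁻¹ := by
    intro x
    have h5 := hs₂x ((conjAut R n hnN)⁻¹ x)
    have h6 : ((((⟨conjAut R n hnN, hνA⟩ : (groupFusionSystem (S : Subgroup G)).autGroup R)⁻¹ * γ *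
        (⟨conjAut R n hnN, hνA⟩ : (groupFusionSystem (S : Subgroup G)).autGroup R) :
        (groupFusionSystem (S : Subgroup G)).autGroup R) : MulAut R) ((conjAut R n hnN)⁻¹ x) : R) =
        (conjAut R n hnN)⁻¹ ((γ : MulAut R) x) := by
      show (conjAut R n hnN)⁻¹ ((γ : MulAut R) ((conjAut R n hnN) ((conjAut R n hnN)⁻¹ x))) = _
      rw [MulAut.apply_inv_self]
    rw [h6, hinv, hinv] at h5
    calc (((γ : MulAut R) x : R) : G) = n * (n⁻¹ * (((γ : MulAut R) x : R) : G) * n) * n⁻¹ := by
          group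
      _ = n * (s₂ * (n⁻¹ * (x : G) * n) * s₂⁻¹) * n⁻¹ := by rw [h5]
      _ = (n * s₂ * n⁻¹) * (x : G) * (n * s₂ * n⁻¹)⁻¹ := by group
  have hc : s⁻¹ * (n * s₂ * n⁻¹) ∈ Subgroup.centralizer (R : Set G) := by
    rw [Subgroup.mem_centralizer_iff]
    intro x hx
    have h7 := hsx ⟨x, hx⟩
    have h8 := hγx ⟨x, hx⟩
    rw [h7] at h8
    have h9 : s * x * s⁻¹ = n * s₂ * n⁻¹ * x * (n * s₂ * n⁻¹)⁻¹ := h8
    calc x * (s⁻¹ * (n * s₂ * n⁻¹)) = s⁻¹ * (s * x * s⁻¹) * (n * s₂ * n⁻¹) := by group
      _ = s⁻¹ * (n * s₂ * n⁻¹ * x * (n * s₂ * n⁻¹)⁻¹) * (n * s₂ * n⁻¹) := by rw [h9]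
      _ = s⁻¹ * (n * s₂ * n⁻¹) * x := by group
  have hS' : n * s₂ * n⁻¹ ∈ (S : Subgroup G) := by
    have h10 := Subgroup.mul_mem _ hs (h.1 (h.2.2.1 hc))
    rw [mul_inv_cancel_left] at h10
    exact h10
  have hR' : n * s₂ * n⁻¹ ∈ R := hn s₂ hs₂ hS'
  refine ⟨⟨n * s₂ * n⁻¹, hR'⟩, ?_⟩
  apply MulEquiv.ext
  intro x
  apply Subtype.ext
  exact (hγx x).symm

/-- Simplicity of the fusion system of `G` on `S` from group-theoretic data: no proper nontrivial
subgroup of `S` closed under `G`-fusion, and `N_G(S)` generated by elements of `S` and elements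
of `O^{p'}(N_G(R))` for good subgroups `R`. -/
theorem simple_of_gen [Finite G] {p : ℕ} [Fact p.Prime] (S : Sylow p G)
    (hS1 : (S : Subgroup G) ≠ ⊥)
    (ha : ∀ T : Subgroup G, T ≤ (S : Subgroup G) → T ≠ ⊥ →
      (∀ t ∈ T, ∀ g : G, g * t * g⁻¹ ∈ (S : Subgroup G) → g * t * g⁻¹ ∈ T) → T = (S : Subgroup G))
    (X : Set G) (hX : Subgroup.normalizer ((S : Subgroup G) : Set G) ≤ Subgroup.closure X)
    (hXR : ∀ x ∈ X, x ∈ Subgroup.normalizer ((S : Subgroup G) : Set G) ∧
      (x ∈ (S : Subgroup G) ∨ ∃ R : Subgroup G, GoodR (S : Subgroup G) R ∧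
        x ∈ Subgroup.closure {g : G | g ∈ Subgroup.normalizer (R : Set G) ∧
          ∃ k : ℕ, orderOf g = p ^ k})) :
    (groupFusionSystem (S : Subgroup G)).IsSimple p := by
  have hSp : IsPGroup p (S : Subgroup G) := S.isPGroup'
  refine Cfsg.Agent.S5160.result p S hS1 ?_ ?_
  · intro T hT
    by_cases hT1 : T = ⊥
    · exact Or.inl hT1
    right
    obtain ⟨hTS, hTsc⟩ := hT
    apply ha T hTS hT1
    intro t ht g hg
    have hle : Subgroup.zpowers t ≤ T := (Subgroup.zpowers_le).2 ht
    have hφ : conjHom (Subgroup.zpowers t) g ∈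
        (groupFusionSystem (S : Subgroup G)).Hom (Subgroup.zpowers t) := by
      refine ⟨hle.trans hTS, ?_, g, fun x => rfl⟩
      rintro ⟨_, i, rfl⟩
      show g * t ^ i * g⁻¹ ∈ (S : Subgroup G)
      have h1 : g * t ^ i * g⁻¹ = (g * t * g⁻¹) ^ i := by rw [conj_zpow]
      rw [h1]; exact Subgroup.zpow_mem _ hg i
    exact hTsc _ hle _ hφ ⟨t, Subgroup.mem_zpowers t⟩
  · apply le_antisymm
    · -- every automorphism induced by `N_G(S)` lies in the join
      intro α hα
      obtain ⟨g, -, hg⟩ := (Helper26.mem_autInducedBy_iff _ _ α).1 hα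
      have hgN : g ∈ Subgroup.normalizer ((S : Subgroup G) : Set G) :=
        (mem_normalizerIn_of_aut (S := ⊤) (Subgroup.mem_top g) hg).2
      have hgX : g ∈ Subgroup.closure X := hX hgN
      -- closure induction with the normalizer hom
      have key : ∀ y ∈ Subgroup.closure X, ∀ hy : y ∈ Subgroup.normalizer ((S : Subgroup G) : Set G),
          conjAut (S : Subgroup G) y hy ∈ ⨆ (R : Subgroup G)
            (_ : (groupFusionSystem (S : Subgroup G)).IsFullyNormalized R ∧
              (groupFusionSystem (S : Subgroup G)).IsRadical p R ∧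
              (groupFusionSystem (S : Subgroup G)).IsCentric R),
            autInducedBy (Subgroup.closure {g : G | g ∈ Subgroup.normalizer (R : Set G) ∧
              ∃ k : ℕ, orderOf g = p ^ k}) (S : Subgroup G) := by
        intro y hy
        induction hy using Subgroup.closure_induction with
        | mem x hx =>
          intro hxN
          rcases (hXR x hx).2 with hxS | ⟨R, hR, hxR⟩
          · have hRS : (groupFusionSystem (S : Subgroup G)).IsFullyNormalized (S : Subgroup G) ∧
                (groupFusionSystem (S : Subgroup G)).IsRadical p (S : Subgroup G) ∧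
                (groupFusionSystem (S : Subgroup G)).IsCentric (S : Subgroup G) :=
              ⟨top_fullyNormalized _, top_radical hSp _ (groupFusionSystem_isSaturated p S),
                top_centric _⟩
            apply Subgroup.mem_iSup_of_mem (S : Subgroup G)
            apply Subgroup.mem_iSup_of_mem hRS
            obtain ⟨k, hk⟩ := hSp ⟨x, hxS⟩
            have hk' : x ^ p ^ k = 1 := by
              have := congrArg Subtype.val hk
              simpa using this
            obtain ⟨j, -, hj⟩ := (Nat.dvd_prime_pow Fact.out).1 (orderOf_dvd_of_pow_eq_one hk')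
            have hxK : x ∈ Subgroup.closure {g : G | g ∈ Subgroup.normalizer
                (((S : Subgroup G) : Subgroup G) : Set G) ∧ ∃ k : ℕ, orderOf g = p ^ k} :=
              Subgroup.subset_closure ⟨hxN, j, hj⟩
            exact conjAut_mem _ _ x hxK hxN
          · have hRS : (groupFusionSystem (S : Subgroup G)).IsFullyNormalized R ∧
                (groupFusionSystem (S : Subgroup G)).IsRadical p R ∧
                (groupFusionSystem (S : Subgroup G)).IsCentric R :=
              ⟨goodR_fullyNormalized hR, goodR_radical S hR, goodR_centric hR⟩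
            apply Subgroup.mem_iSup_of_mem R
            apply Subgroup.mem_iSup_of_mem hRS
            exact conjAut_mem _ _ x hxR hxN
        | one =>
          intro h1
          have e : conjAut (S : Subgroup G) 1 h1 = 1 := by
            apply MulEquiv.ext
            intro x
            apply Subtype.ext
            rw [conjAut_apply]
            simp
          rw [e]; exact Subgroup.one_mem _
        | mul a b ha' hb' iha ihb =>
          intro hab
          have haN : a ∈ Subgroup.normalizer ((S : Subgroup G) : Set G) :=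
            (Subgroup.closure_le _).2 (fun x hx => (hXR x hx).1) ha'
          have hbN : b ∈ Subgroup.normalizer ((S : Subgroup G) : Set G) :=
            (Subgroup.closure_le _).2 (fun x hx => (hXR x hx).1) hb'
          have e : conjAut (S : Subgroup G) (a * b) hab =
              conjAut (S : Subgroup G) a haN * conjAut (S : Subgroup G) b hbN := by
            apply MulEquiv.ext
            intro x
            apply Subtype.ext
            rw [conjAut_apply, MulAut.mul_apply, conjAut_apply, conjAut_apply]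
            group
          rw [e]; exact Subgroup.mul_mem _ (iha haN) (ihb hbN)
        | inv a ha' iha =>
          intro hai
          have haN : a ∈ Subgroup.normalizer ((S : Subgroup G) : Set G) :=
            (Subgroup.closure_le _).2 (fun x hx => (hXR x hx).1) ha'
          have e : conjAut (S : Subgroup G) a⁻¹ hai = (conjAut (S : Subgroup G) a haN)⁻¹ := by
            rw [eq_inv_iff_mul_eq_one]
            apply MulEquiv.ext
            intro x
            apply Subtype.ext
            rw [MulAut.mul_apply, conjAut_apply, conjAut_apply]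
            simp [mul_assoc]
          rw [e]; exact Subgroup.inv_mem _ (iha haN)
      have e : α = conjAut (S : Subgroup G) g hgN := by
        apply MulEquiv.ext
        intro x
        apply Subtype.ext
        exact hg x
      rw [e]
      exact key g hgX hgN
    · refine iSup₂_le fun R hR => ?_
      intro α hα
      obtain ⟨g, -, hg⟩ := (Helper26.mem_autInducedBy_iff _ _ α).1 hα
      exact (Helper26.mem_autInducedBy_iff _ _ α).2 ⟨g, Subgroup.mem_top g, hg⟩

end Cfsg.Agent.Helper25
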