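import Mathlib
import Cfsg.Agent.Helper25.RadCrit

set_option autoImplicit false

namespace Cfsg.Agent.Helper25

open Cfsg Cfsg.FusionSystem

variable {G : Type*} [Group G]

/-- Group-theoretic data implying simplicity of the fusion system of `G` on `S`. -/
def SimpleData (p : ℕ) (S : Subgroup G) : Prop :=
  S ≠ ⊥ ∧
  (∀ T : Subgroup G, T ≤ S → T ≠ ⊥ →
    (∀ t ∈ T, ∀ g : G, g * t * g⁻¹ ∈ S → g * t * g⁻¹ ∈ T) → T = S) ∧
  ∃ X : Set G, Subgroup.normalizer (S : Set G) ≤ Subgroup.closure X ∧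
    ∀ x ∈ X, x ∈ Subgroup.normalizer (S : Set G) ∧ (x ∈ S ∨ ∃ R : Subgroup G, GoodR S R ∧
      x ∈ Subgroup.closure {g : G | g ∈ Subgroup.normalizer (R : Set G) ∧
        ∃ k : ℕ, orderOf g = p ^ k})

theorem simple_of_data [Finite G] {p : ℕ} [Fact p.Prime] (S : Sylow p G)
    (h : SimpleData p (S : Subgroup G)) : (groupFusionSystem (S : Subgroup G)).IsSimple p := by
  obtain ⟨h1, h2, X, h3, h4⟩ := h
  exact simple_of_gen S h1 h2 X h3 h4

theorem goodR_map {G' : Type*} [Group G'] (φ : G ≃* G') {S R : Subgroup G} (h : GoodR S R) :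
    GoodR (S.map φ.toMonoidHom) (R.map φ.toMonoidHom) := by
  obtain ⟨h1, h2, h3, n, hn, h4⟩ := h
  refine ⟨Subgroup.map_mono h1, ?_, ?_, φ n, ?_, ?_⟩
  · rw [← Subgroup.map_equiv_normalizer_eq]; exact Subgroup.map_mono h2
  · intro x hx
    rw [Subgroup.mem_map_equiv]
    apply h3
    rw [Subgroup.mem_centralizer_iff] at hx ⊢
    intro r hr
    have h5 : φ r * x = x * φ r := hx (φ r) (Subgroup.mem_map_of_mem _ hr)
    apply φ.injective
    rw [map_mul, map_mul, MulEquiv.apply_symm_apply]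
    exact h5
  · rw [← Subgroup.map_equiv_normalizer_eq]; exact Subgroup.mem_map_of_mem _ hn
  · rintro _ ⟨s, hs, rfl⟩ hmem
    have e : φ n * φ.toMonoidHom s * (φ n)⁻¹ = φ.toMonoidHom (n * s * n⁻¹) := by
      rw [map_mul, map_mul, map_inv]; rfl
    rw [e] at hmem ⊢
    rw [Subgroup.mem_map_equiv] at hmem
    have h6 : φ.symm (φ.toMonoidHom (n * s * n⁻¹)) = n * s * n⁻¹ := φ.symm_apply_apply _
    rw [h6] at hmem
    exact Subgroup.mem_map_of_mem _ (h4 s hs hmem)

theorem SimpleData.map {G' : Type*} [Group G'] (φ : G ≃* G') {p : ℕ} {S : Subgroup G}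
    (h : SimpleData p S) : SimpleData p (S.map φ.toMonoidHom) := by
  obtain ⟨h1, h2, X, h3, h4⟩ := h
  refine ⟨?_, ?_, φ '' X, ?_, ?_⟩
  · intro h
    apply h1
    exact (Subgroup.map_eq_bot_iff_of_injective S φ.injective).1 h
  · intro T hT hT1 hcl
    have e : T.comap φ.toMonoidHom = S := by
      apply h2
      · intro x hx
        have h5 : φ.toMonoidHom x ∈ S.map φ.toMonoidHom := hT hx
        rw [Subgroup.mem_map_equiv] at h5
        have h6 : φ.symm (φ.toMonoidHom x) = x := φ.symm_apply_apply _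
        rw [h6] at h5
        exact h5
      · intro h
        apply hT1
        rw [← Subgroup.map_comap_eq_self_of_surjective (f := φ.toMonoidHom) φ.surjective T, h,
          Subgroup.map_bot]
      · intro t ht g hg
        show φ.toMonoidHom (g * t * g⁻¹) ∈ T
        have e2 : φ.toMonoidHom (g * t * g⁻¹) =
            φ.toMonoidHom g * φ.toMonoidHom t * (φ.toMonoidHom g)⁻¹ := by
          rw [map_mul, map_mul, map_inv]
        rw [e2]
        apply hcl _ ht
        rw [← e2]
        exact Subgroup.mem_map_of_mem _ hg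
    rw [← e, Subgroup.map_comap_eq_self_of_surjective (f := φ.toMonoidHom) φ.surjective]
  · rw [← Subgroup.map_equiv_normalizer_eq]
    have h5 : Subgroup.closure (φ '' X) = (Subgroup.closure X).map φ.toMonoidHom :=
      (MonoidHom.map_closure φ.toMonoidHom X).symm
    rw [h5]
    exact Subgroup.map_mono h3
  · rintro _ ⟨x, hx, rfl⟩
    obtain ⟨h5, h6⟩ := h4 x hx
    refine ⟨?_, ?_⟩
    · rw [← Subgroup.map_equiv_normalizer_eq]; exact Subgroup.mem_map_of_mem _ h5
    · rcases h6 with h6 | ⟨R, hR, hxR⟩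
      · exact Or.inl (Subgroup.mem_map_of_mem _ h6)
      · refine Or.inr ⟨R.map φ.toMonoidHom, goodR_map φ hR, ?_⟩
        have h7 : (Subgroup.closure {g : G | g ∈ Subgroup.normalizer (R : Set G) ∧
            ∃ k : ℕ, orderOf g = p ^ k}).map φ.toMonoidHom ≤
            Subgroup.closure {g : G' | g ∈ Subgroup.normalizer
              ((R.map φ.toMonoidHom : Subgroup G') : Set G') ∧ ∃ k : ℕ, orderOf g = p ^ k} := by
          rw [MonoidHom.map_closure]
          apply Subgroup.closure_mono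
          rintro _ ⟨g, ⟨hg1, k, hk⟩, rfl⟩
          refine ⟨?_, k, ?_⟩
          · rw [← Subgroup.map_equiv_normalizer_eq]; exact Subgroup.mem_map_of_mem _ hg1
          · rw [← hk]; exact MulEquiv.orderOf_eq φ g
        exact h7 (Subgroup.mem_map_of_mem _ hxR)

end Cfsg.Agent.Helper25
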