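import Mathlib
import Cfsg.Agent.Helper25.RadCrit2
import Cfsg.Agent.Helper9.StrEmb

set_option autoImplicit false

namespace Cfsg.Agent.Helper25

open Cfsg Cfsg.FusionSystem

variable {X G : Type*} [Group X] [Group G]

/-- Covering-group version of `GoodR`: the centralizer condition is taken after applying `π`. -/
def GoodRX (π : X →* G) (S R : Subgroup X) : Prop :=
  R ≤ S ∧ S ≤ Subgroup.normalizer (R : Set X) ∧
    (∀ A ∈ Subgroup.centralizer (R : Set X), π A ∈ R.map π) ∧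
    ∃ n ∈ Subgroup.normalizer (R : Set X), ∀ s ∈ S, n * s * n⁻¹ ∈ S → n * s * n⁻¹ ∈ R

/-- Covering-group version of `SimpleData`. -/
def SimpleDataX (π : X →* G) (p : ℕ) (S : Subgroup X) : Prop :=
  S ≠ ⊥ ∧
  (∀ T : Subgroup X, T ≤ S → T ≠ ⊥ →
    (∀ t ∈ T, ∀ g : X, g * t * g⁻¹ ∈ S → g * t * g⁻¹ ∈ T) → T = S) ∧
  ∃ Y : Set X, Subgroup.normalizer (S : Set X) ≤ Subgroup.closure Y ∧
    ∀ y ∈ Y, y ∈ Subgroup.normalizer (S : Set X) ∧ (y ∈ S ∨ π y = 1 ∨
      ∃ R : Subgroup X, GoodRX π S R ∧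
      y ∈ Subgroup.closure {g : X | g ∈ Subgroup.normalizer (R : Set X) ∧
        ∃ k : ℕ, orderOf g = p ^ k})

theorem conj_pElt' {p k : ℕ} {x : X} (hx : x ^ p ^ k = 1) (g : X) :
    (g * x * g⁻¹) ^ p ^ k = 1 := by
  rw [conj_pow, hx, mul_one, mul_inv_cancel]

theorem pgroup_pow_eq_one {p : ℕ} {U : Subgroup X} (hU : IsPGroup p U) {u : X} (hu : u ∈ U) :
    ∃ j : ℕ, u ^ p ^ j = 1 := by
  obtain ⟨j, hj⟩ := hU ⟨u, hu⟩
  exact ⟨j, by simpa using congrArg Subtype.val hj⟩

/-- Lifting `p`-elements through a central `p'`-quotient. -/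
theorem lift_of_central {p : ℕ} (π : X →* G) (hcen : π.ker ≤ Subgroup.center X)
    (hker : ∀ z ∈ π.ker, ∀ k : ℕ, z ^ p ^ k = 1 → z = 1) {U : Subgroup X} (hU : IsPGroup p U)
    {v : X} {k : ℕ} (hv : v ^ p ^ k = 1) (hπ : π v ∈ U.map π) : v ∈ U := by
  obtain ⟨u, hu, e⟩ := Subgroup.mem_map.1 hπ
  obtain ⟨j, hj⟩ := pgroup_pow_eq_one hU hu
  obtain ⟨ζ, hζ⟩ : ∃ ζ, ζ = u⁻¹ * v := ⟨_, rfl⟩
  have hz : ζ ∈ π.ker := by
    rw [MonoidHom.mem_ker, hζ, map_mul, map_inv, e, inv_mul_cancel]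
  have hv' : v = u * ζ := by rw [hζ]; group
  have hc : Commute u ζ := Subgroup.mem_center_iff.1 (hcen hz) u
  have h1 : ζ ^ p ^ (j + k) = 1 := by
    have h2 : v ^ p ^ (j + k) = 1 := by rw [pow_add, mul_comm, pow_mul, hv, one_pow]
    have h3 : u ^ p ^ (j + k) = 1 := by rw [pow_add, pow_mul, hj, one_pow]
    rw [hv', hc.mul_pow, h3, one_mul] at h2
    exact h2
  have h4 := hker ζ hz _ h1
  rw [hv', h4, mul_one]; exact hu

theorem inj_of_central {p : ℕ} (π : X →* G)
    (hker : ∀ z ∈ π.ker, ∀ k : ℕ, z ^ p ^ k = 1 → z = 1) {U : Subgroup X} (hU : IsPGroup p U)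
    {u u' : X} (hu : u ∈ U) (hu' : u' ∈ U) (e : π u = π u') : u = u' := by
  have hz : u⁻¹ * u' ∈ π.ker := by
    rw [MonoidHom.mem_ker, map_mul, map_inv, e, inv_mul_cancel]
  obtain ⟨j, hj⟩ := pgroup_pow_eq_one hU (mul_mem (inv_mem hu) hu')
  exact inv_mul_eq_one.1 (hker _ hz j hj)

theorem goodR_of_X [Finite X] {p : ℕ} (π : X →* G) (hsurj : Function.Surjective π)
    (hcen : π.ker ≤ Subgroup.center X)
    (hker : ∀ z ∈ π.ker, ∀ k : ℕ, z ^ p ^ k = 1 → z = 1) {U R : Subgroup X} (hU : IsPGroup p U)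
    (h : GoodRX π U R) : GoodR (U.map π) (R.map π) := by
  obtain ⟨h1, h2, h3, n, hn, h4⟩ := h
  refine ⟨Subgroup.map_mono h1, ?_, ?_, π n, ?_, ?_⟩
  · exact (Subgroup.map_mono h2).trans (Subgroup.le_normalizer_map _)
  · intro g hg
    obtain ⟨A, rfl⟩ := hsurj g
    apply h3
    rw [Subgroup.mem_centralizer_iff]
    intro r hr
    have h5 : π r * π A = π A * π r :=
      Subgroup.mem_centralizer_iff.1 hg _ (Subgroup.mem_map_of_mem _ hr)
    obtain ⟨j, hj⟩ := pgroup_pow_eq_one hU (h1 hr)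
    have e : π (A * r * A⁻¹) = π r := by
      rw [map_mul, map_mul, map_inv, ← h5, mul_inv_cancel_right]
    have h6 : A * r * A⁻¹ ∈ U := by
      apply lift_of_central π hcen hker hU (conj_pElt' hj A)
      rw [e]
      exact Subgroup.mem_map_of_mem _ (h1 hr)
    have h7 : A * r * A⁻¹ = r := inj_of_central π hker hU h6 (h1 hr) e
    calc r * A = (A * r * A⁻¹) * A := by rw [h7]
      _ = A * r := by group
  · exact Subgroup.le_normalizer_map _ (Subgroup.mem_map_of_mem _ hn)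
  · rintro _ ⟨u, hu, rfl⟩ hmem
    obtain ⟨j, hj⟩ := pgroup_pow_eq_one hU hu
    have e : π n * π u * (π n)⁻¹ = π (n * u * n⁻¹) := by
      rw [map_mul, map_mul, map_inv]
    rw [e] at hmem ⊢
    have h5 := lift_of_central π hcen hker hU (conj_pElt' hj n) hmem
    exact Subgroup.mem_map_of_mem _ (h4 u hu h5)

/-- Pushing the simplicity data through a central `p'`-quotient. -/
theorem simpleData_of_X [Finite X] {p : ℕ} [Fact p.Prime] (π : X →* G)
    (hsurj : Function.Surjective π) (hcen : π.ker ≤ Subgroup.center X)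
    (hker : ∀ z ∈ π.ker, ∀ k : ℕ, z ^ p ^ k = 1 → z = 1) {U : Subgroup X} (hU : IsPGroup p U)
    (h : SimpleDataX π p U) : SimpleData p (U.map π) := by
  obtain ⟨h1, h2, Y, h3, h4⟩ := h
  refine ⟨?_, ?_, π '' Y, ?_, ?_⟩
  · intro hbot
    apply h1
    rw [Subgroup.eq_bot_iff_forall]
    intro u hu
    have h5 : π u ∈ U.map π := Subgroup.mem_map_of_mem _ hu
    rw [hbot, Subgroup.mem_bot] at h5
    exact inj_of_central π hker hU hu (Subgroup.one_mem _) (by rw [h5, map_one])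
  · intro T hT hT1 hcl
    have e : T.comap π ⊓ U = U := by
      apply h2 _ inf_le_right
      · intro hb
        apply hT1
        rw [Subgroup.eq_bot_iff_forall]
        intro t ht
        obtain ⟨u, hu, rfl⟩ := hT ht
        have h5 : u ∈ T.comap π ⊓ U := ⟨ht, hu⟩
        rw [hb, Subgroup.mem_bot] at h5
        rw [h5, map_one]
      · intro t ht g hg
        refine ⟨?_, hg⟩
        show π (g * t * g⁻¹) ∈ T
        have e2 : π (g * t * g⁻¹) = π g * π t * (π g)⁻¹ := by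
          rw [map_mul, map_mul, map_inv]
        rw [e2]
        apply hcl _ ht.1
        rw [← e2]
        exact Subgroup.mem_map_of_mem _ hg
    apply le_antisymm hT
    rintro _ ⟨u, hu, rfl⟩
    rw [← e] at hu
    exact hu.1
  · intro g hg
    obtain ⟨A, rfl⟩ := hsurj g
    have hAN : A ∈ Subgroup.normalizer (U : Set X) := by
      apply Cfsg.Agent.Helper9.mem_normalizer_of_conj_le
      intro u hu
      obtain ⟨j, hj⟩ := pgroup_pow_eq_one hU hu
      apply lift_of_central π hcen hker hU (conj_pElt' hj A)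
      rw [map_mul, map_mul, map_inv]
      exact (Subgroup.mem_normalizer_iff.1 hg _).1 (Subgroup.mem_map_of_mem _ hu)
    have h5 := Subgroup.mem_map_of_mem π (h3 hAN)
    rw [MonoidHom.map_closure] at h5
    exact h5
  · rintro _ ⟨y, hy, rfl⟩
    obtain ⟨h5, h6⟩ := h4 y hy
    refine ⟨Subgroup.le_normalizer_map _ (Subgroup.mem_map_of_mem _ h5), ?_⟩
    rcases h6 with h6 | h6 | ⟨R, hR, hyR⟩
    · exact Or.inl (Subgroup.mem_map_of_mem _ h6)
    · left; rw [h6]; exact Subgroup.one_mem _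
    · refine Or.inr ⟨R.map π, goodR_of_X π hsurj hcen hker hU hR, ?_⟩
      have h7 : (Subgroup.closure {g : X | g ∈ Subgroup.normalizer (R : Set X) ∧
          ∃ k : ℕ, orderOf g = p ^ k}).map π ≤
          Subgroup.closure {g : G | g ∈ Subgroup.normalizer
            ((R.map π : Subgroup G) : Set G) ∧ ∃ k : ℕ, orderOf g = p ^ k} := by
        rw [MonoidHom.map_closure]
        apply Subgroup.closure_mono
        rintro _ ⟨g, ⟨hg1, k, hk⟩, rfl⟩
        refine ⟨Subgroup.le_normalizer_map _ (Subgroup.mem_map_of_mem _ hg1), ?_⟩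
        have h8 : orderOf (π g) ∣ p ^ k := by
          rw [← hk]; exact orderOf_map_dvd π g
        obtain ⟨j, -, hj⟩ := (Nat.dvd_prime_pow Fact.out).1 h8
        exact ⟨j, hj⟩
      exact h7 (Subgroup.mem_map_of_mem _ hyR)

/-- A `p`-subgroup containing every `p`-element of its normalizer is a Sylow `p`-subgroup. -/
theorem sylow_of_pElts [Finite X] {p : ℕ} [Fact p.Prime] {U : Subgroup X} (hU : IsPGroup p U)
    (h : ∀ g ∈ Subgroup.normalizer (U : Set X), (∃ k : ℕ, g ^ p ^ k = 1) → g ∈ U) :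
    ∃ P : Sylow p X, (P : Subgroup X) = U := by
  obtain ⟨P, hP⟩ := hU.exists_le_sylow
  refine ⟨P, le_antisymm ?_ hP⟩
  by_contra hne
  haveI : Group.IsNilpotent (P : Subgroup X) := P.isPGroup'.isNilpotent
  have hnc : NormalizerCondition (P : Subgroup X) := normalizerCondition_of_isNilpotent
  have hlt : U.subgroupOf (P : Subgroup X) < ⊤ := by
    rw [lt_top_iff_ne_top]
    intro htop
    apply hne
    intro x hx
    have h5 : (⟨x, hx⟩ : (P : Subgroup X)) ∈ U.subgroupOf (P : Subgroup X) := by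
      rw [htop]; exact Subgroup.mem_top _
    exact Subgroup.mem_subgroupOf.1 h5
  have h6 := hnc _ hlt
  obtain ⟨x, hxN, hxU⟩ := SetLike.exists_of_lt h6
  apply hxU
  rw [Subgroup.mem_subgroupOf]
  apply h
  · apply Cfsg.Agent.Helper9.mem_normalizer_of_conj_le
    intro u hu
    have h7 := (Subgroup.mem_normalizer_iff.1 hxN ⟨u, hP hu⟩).1
      (Subgroup.mem_subgroupOf.2 hu)
    exact Subgroup.mem_subgroupOf.1 h7
  · exact pgroup_pow_eq_one P.isPGroup' x.2

end Cfsg.Agent.Helper25
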