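import Mathlib
import Cfsg.Agent.Helper28.M12More
import Cfsg.Agent.Helper28.Prune
import Cfsg.Agent.Helper25.RadCrit3
import Cfsg.Agent.S0065

set_option autoImplicit false

namespace Cfsg.Agent.Helper25
namespace Mat

open Cfsg Cfsg.Agent.Helper28 Cfsg.Agent.Helper28.Golay
open scoped Pointwise

/-! ### Tables -/

/-- equality test of tables -/
def teq : List Nat → List Nat → Bool
  | [], [] => true
  | a :: A, b :: B => Nat.beq a b && teq A B
  | _, _ => false

theorem teq_iff (A B : List Nat) : teq A B = true ↔ A = B := by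
  induction A generalizing B with
  | nil => cases B <;> simp [teq]
  | cons a A ih =>
    cases B with
    | nil => simp [teq]
    | cons b B =>
      rw [teq, Bool.and_eq_true, ih, nbeq_iff, List.cons.injEq]

/-- membership test of tables -/
def tmem (A : List Nat) (L : List (List Nat)) : Bool := L.any (teq A)

theorem tmem_iff (A : List Nat) (L : List (List Nat)) : tmem A L = true ↔ A ∈ L := by
  rw [tmem, List.any_eq_true]
  constructor
  · rintro ⟨B, hB, h⟩
    rw [(teq_iff A B).1 h]
    exact hB
  · intro h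
    exact ⟨A, h, (teq_iff A A).2 rfl⟩

/-- equality test of lists of tables -/
def teqL : List (List Nat) → List (List Nat) → Bool
  | [], [] => true
  | a :: A, b :: B => teq a b && teqL A B
  | _, _ => false

theorem teqL_iff (A B : List (List Nat)) : teqL A B = true ↔ A = B := by
  induction A generalizing B with
  | nil => cases B <;> simp [teqL]
  | cons a A ih =>
    cases B with
    | nil => simp [teqL]
    | cons b B =>
      rw [teqL, Bool.and_eq_true, ih, teq_iff, List.cons.injEq]

/-- the permutations with tables in a list -/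
def permSet (L : List (List Nat)) : Set (Equiv.Perm GolayPt) := {σ | ∃ T ∈ L, σ = permOf T}

theorem normT_comp (A B : List Nat) : normT (comp A B) = true := by
  unfold normT
  apply decide_eq_true
  unfold comp
  rw [List.map_congr_left]
  intro i hi
  have h := tf_comp A B (List.mem_range.1 hi)
  unfold comp at h
  exact h

theorem comp_eq_of_permOf {A B C D : List Nat} (hA : isPerm A = true) (hB : isPerm B = true)
    (hC : isPerm C = true) (hD : isPerm D = true) (h : permOf A * permOf B = permOf C * permOf D) :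
    comp A B = comp C D := by
  rw [permOf_mul hA hB, permOf_mul hC hD] at h
  exact permOf_inj_norm (isPerm_comp hA hB) (isPerm_comp hC hD) (normT_comp A B) (normT_comp C D) h

theorem permOf_of_comp {A B C D : List Nat} (hA : isPerm A = true) (hB : isPerm B = true)
    (hC : isPerm C = true) (hD : isPerm D = true) (h : comp A B = comp C D) :
    permOf A * permOf B = permOf C * permOf D := by
  rw [permOf_mul hA hB, permOf_mul hC hD, h]

/-! ### Subgroups generated by tables -/

/-- evaluation of a word in the generators -/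
def evalW (gens : List (List Nat)) (w : List Nat) : List Nat :=
  w.foldr (fun i acc => comp (gens.getD i idT) acc) idT

/-- closure of the list under left multiplication by the generators -/
def closedOK (gens L : List (List Nat)) : Bool :=
  gens.all fun G => L.all fun A => tmem (comp G A) L

/-- the generators are closed under inverses -/
def invOK (gens : List (List Nat)) : Bool :=
  gens.all fun G => gens.any fun H => teq (comp G H) idT

/-- the list consists of words in the generators -/
def wordsOK (gens L : List (List Nat)) (words : List (List Nat)) : Bool :=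
  teqL L (words.map (evalW gens))

theorem getD_mem_or (gens : List (List Nat)) (i : Nat) :
    gens.getD i idT ∈ gens ∨ gens.getD i idT = idT := by
  rw [List.getD_eq_getElem?_getD]
  cases h : gens[i]? with
  | none => exact Or.inr rfl
  | some G => exact Or.inl (List.mem_of_getElem? h)

theorem isPerm_getD {gens : List (List Nat)} (hg : ∀ G ∈ gens, isPerm G = true) (i : Nat) :
    isPerm (gens.getD i idT) = true := by
  rcases getD_mem_or gens i with h | h
  · exact hg _ h
  · rw [h]; exact isPerm_idT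

theorem isPerm_evalW {gens : List (List Nat)} (hg : ∀ G ∈ gens, isPerm G = true) (w : List Nat) :
    isPerm (evalW gens w) = true := by
  induction w with
  | nil => exact isPerm_idT
  | cons i w ih => exact isPerm_comp (isPerm_getD hg i) ih

theorem permOf_evalW_mem {gens : List (List Nat)} (hg : ∀ G ∈ gens, isPerm G = true)
    (w : List Nat) : permOf (evalW gens w) ∈ Subgroup.closure (permSet gens) := by
  induction w with
  | nil =>
    show permOf idT ∈ _
    rw [permOf_idT]
    exact one_mem _
  | cons i w ih =>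
    show permOf (comp (gens.getD i idT) (evalW gens w)) ∈ _
    rw [← permOf_mul (isPerm_getD hg i) (isPerm_evalW hg w)]
    refine mul_mem ?_ ih
    rcases getD_mem_or gens i with h | h
    · exact Subgroup.subset_closure ⟨_, h, rfl⟩
    · rw [h, permOf_idT]
      exact one_mem _

theorem mem_closure_of_list {gens L words : List (List Nat)}
    (hg : ∀ G ∈ gens, isPerm G = true) (hw : wordsOK gens L words = true) :
    ∀ T ∈ L, permOf T ∈ Subgroup.closure (permSet gens) := by
  intro T hT
  rw [wordsOK, teqL_iff] at hw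
  rw [hw, List.mem_map] at hT
  obtain ⟨w, -, rfl⟩ := hT
  exact permOf_evalW_mem hg w

theorem list_of_mem_closure {gens L : List (List Nat)} (hg : ∀ G ∈ gens, isPerm G = true)
    (hL : ∀ T ∈ L, isPerm T = true) (hid : idT ∈ L) (hc : closedOK gens L = true)
    (hi : invOK gens = true) :
    ∀ σ ∈ Subgroup.closure (permSet gens), ∃ T ∈ L, σ = permOf T := by
  have hmul : ∀ G ∈ gens, ∀ A ∈ L, comp G A ∈ L := by
    intro G hG A hA
    rw [closedOK, List.all_eq_true] at hc
    have h1 := hc G hG
    rw [List.all_eq_true] at h1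
    exact (tmem_iff _ _).1 (h1 A hA)
  intro σ hσ
  induction hσ using Subgroup.closure_induction_left with
  | one => exact ⟨idT, hid, permOf_idT.symm⟩
  | mul_left x hx y hy ih =>
    obtain ⟨G, hG, rfl⟩ := hx
    obtain ⟨A, hA, rfl⟩ := ih
    exact ⟨comp G A, hmul G hG A hA, permOf_mul (hg G hG) (hL A hA)⟩
  | inv_mul_cancel x hx y hy ih =>
    obtain ⟨G, hG, rfl⟩ := hx
    obtain ⟨A, hA, rfl⟩ := ih
    rw [invOK, List.all_eq_true] at hi
    have h1 := hi G hG
    rw [List.any_eq_true] at h1
    obtain ⟨H, hH, h2⟩ := h1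
    rw [teq_iff] at h2
    have h3 : permOf G * permOf H = 1 := by
      rw [permOf_mul (hg G hG) (hg H hH), h2, permOf_idT]
    have h4 : (permOf G)⁻¹ = permOf H := inv_eq_of_mul_eq_one_right h3
    rw [h4]
    exact ⟨comp H A, hmul H hH A hA, permOf_mul (hg H hH) (hL A hA)⟩

/-! ### Exponent -/

/-- the square of a table -/
def sqT (T : List Nat) : List Nat := comp T T

/-- all tables have order dividing 8 -/
def pow8OK (L : List (List Nat)) : Bool := L.all fun T => teq (sqT (sqT (sqT T))) idT

theorem permOf_sq {T : List Nat} (h : isPerm T = true) : permOf T ^ 2 = permOf (sqT T) := by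
  rw [pow_two, permOf_mul h h]
  rfl

theorem permOf_pow8 {T : List Nat} (h : isPerm T = true)
    (h8 : teq (sqT (sqT (sqT T))) idT = true) : permOf T ^ 2 ^ 3 = 1 := by
  have e : (2 : ℕ) ^ 3 = 2 * 2 * 2 := by norm_num
  have h1 : isPerm (sqT T) = true := isPerm_comp h h
  have h2 : isPerm (sqT (sqT T)) = true := isPerm_comp h1 h1
  rw [e, pow_mul, pow_mul, permOf_sq h, permOf_sq h1, permOf_sq h2, (teq_iff _ _).1 h8, permOf_idT]

/-! ### Orbits and normalizers -/

/-- orbit mask of the index `i` under the tables of `L` -/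
def orbM : List (List Nat) → Nat → Nat
  | [], _ => 0
  | T :: L, i => 2 ^ tf T i ||| orbM L i

theorem testBit_orbM (L : List (List Nat)) (i j : Nat) :
    (orbM L i).testBit j = true ↔ ∃ T ∈ L, tf T i = j := by
  induction L with
  | nil => simp [orbM]
  | cons T L ih =>
    rw [orbM, Nat.testBit_or, Bool.or_eq_true, ih, Nat.testBit_two_pow]
    constructor
    · rintro (h | ⟨T', hT', h⟩)
      · exact ⟨T, List.mem_cons_self, of_decide_eq_true h⟩
      · exact ⟨T', List.mem_cons_of_mem _ hT', h⟩
    · rintro ⟨T', hT', h⟩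
      rcases List.mem_cons.1 hT' with rfl | hT'
      · exact Or.inl (decide_eq_true h)
      · exact Or.inr ⟨T', hT', h⟩

theorem mem_toSet_orbM {L : List (List Nat)} (hL : ∀ T ∈ L, isPerm T = true) {i : Nat}
    (hi : i < 24) (q : GolayPt) :
    q ∈ toSet (orbM L i) ↔ ∃ T ∈ L, permOf T (pt i) = q := by
  rw [mem_toSet, testBit_orbM]
  constructor
  · rintro ⟨T, hT, h⟩
    exact ⟨T, hT, by rw [permOf_pt (hL T hT) hi, h, pt_idx]⟩
  · rintro ⟨T, hT, h⟩
    exact ⟨T, hT, by rw [← h, permOf_pt (hL T hT) hi, idx_pt _ (tf_lt (hL T hT) hi)]⟩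

theorem orb_smul {L : List (List Nat)} (hL : ∀ T ∈ L, isPerm T = true)
    {g : Equiv.Perm GolayPt} (hN : ∀ σ, σ ∈ permSet L ↔ g * σ * g⁻¹ ∈ permSet L) {i : Nat}
    (hi : i < 24) : toSet (orbM L (idx (g (pt i)))) = g • toSet (orbM L i) := by
  ext q
  rw [mem_toSet_orbM hL (idx_lt _), pt_idx, Finset.mem_smul_finset]
  constructor
  · rintro ⟨T, hT, h⟩
    obtain ⟨T2, hT2, h2⟩ := (hN (g⁻¹ * permOf T * g)).2 ⟨T, hT, by group⟩
    refine ⟨permOf T2 (pt i), (mem_toSet_orbM hL hi _).2 ⟨T2, hT2, rfl⟩, ?_⟩
    rw [← h2]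
    show g ((g⁻¹ * permOf T * g) (pt i)) = q
    rw [Equiv.Perm.mul_apply, Equiv.Perm.mul_apply, perm_apply_inv]
    exact h
  · rintro ⟨p, hp, rfl⟩
    obtain ⟨T, hT, rfl⟩ := (mem_toSet_orbM hL hi p).1 hp
    obtain ⟨T2, hT2, h2⟩ := (hN (permOf T)).1 ⟨T, hT, rfl⟩
    refine ⟨T2, hT2, ?_⟩
    rw [← h2]
    show (g * permOf T * g⁻¹) (g (pt i)) = g (permOf T (pt i))
    rw [Equiv.Perm.mul_apply, Equiv.Perm.mul_apply, perm_inv_apply]

theorem orb_wt {L : List (List Nat)} (hL : ∀ T ∈ L, isPerm T = true)
    {g : Equiv.Perm GolayPt} (hN : ∀ σ, σ ∈ permSet L ↔ g * σ * g⁻¹ ∈ permSet L) {i : Nat}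
    (hi : i < 24) : wt (orbM L (idx (g (pt i)))) = wt (orbM L i) := by
  rw [← card_toSet, ← card_toSet, orb_smul hL hN hi, Finset.card_smul_finset]

/-- the table fixes the indices of `F` -/
def fixesL (F : List Nat) (T : List Nat) : Bool := F.all fun i => Nat.beq (tf T i) i

/-- the tables of `L` fixing the indices of `F` -/
def filt (L : List (List Nat)) (F : List Nat) : List (List Nat) := L.filter (fixesL F)

theorem mem_filt {L : List (List Nat)} {F : List Nat} {T : List Nat} :
    T ∈ filt L F ↔ T ∈ L ∧ ∀ i ∈ F, tf T i = i := by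
  rw [filt, List.mem_filter, fixesL, List.all_eq_true]
  constructor
  · rintro ⟨h1, h2⟩
    exact ⟨h1, fun i hi => (nbeq_iff _ _).1 (h2 i hi)⟩
  · rintro ⟨h1, h2⟩
    exact ⟨h1, fun i hi => (nbeq_iff _ _).2 (h2 i hi)⟩

theorem mem_permSet_filt {L : List (List Nat)} (hL : ∀ T ∈ L, isPerm T = true) {F : List Nat}
    (hF : ∀ i ∈ F, i < 24) (σ : Equiv.Perm GolayPt) :
    σ ∈ permSet (filt L F) ↔ σ ∈ permSet L ∧ ∀ i ∈ F, σ (pt i) = pt i := by
  constructor
  · rintro ⟨T, hT, rfl⟩
    obtain ⟨h1, h2⟩ := mem_filt.1 hT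
    exact ⟨⟨T, h1, rfl⟩, fun i hi => by rw [permOf_pt (hL T h1) (hF i hi), h2 i hi]⟩
  · rintro ⟨⟨T, hT, rfl⟩, h2⟩
    refine ⟨T, mem_filt.2 ⟨hT, fun i hi => ?_⟩, rfl⟩
    have h3 := h2 i hi
    rw [permOf_pt (hL T hT) (hF i hi)] at h3
    have h4 := congrArg idx h3
    rw [idx_pt _ (tf_lt (hL T hT) (hF i hi)), idx_pt _ (hF i hi)] at h4
    exact h4

/-- orbit sizes of an index under the stabilisers of the tails of `F` -/
def orbWts (L : List (List Nat)) (F : List Nat) (q : Nat) : List Nat :=
  F.tails.map fun F' => wt (orbM (filt L F') q)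

/-- one step of the normalizer chain -/
def stepOK (Ms : List Nat) (L : List (List Nat)) (F : List Nat) (b : Nat) : Bool :=
  decide (b < 24) &&
  (List.range 24).all fun q =>
    (F.any fun i => Nat.beq q i) || !(Ms.all fun m => m.testBit q == m.testBit b) ||
      !(teq (orbWts L F q) (orbWts L F b)) || (filt L F).any fun T => Nat.beq (tf T b) q

/-- the normalizer chain -/
def chainOK (Ms : List Nat) (L : List (List Nat)) : List Nat → List Nat → Bool
  | _, [] => true
  | F, b :: rest => stepOK Ms L F b && chainOK Ms L (b :: F) rest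

theorem chain_norm (Ms : List Nat) (L : List (List Nat)) (S0 : Subgroup (Equiv.Perm GolayPt))
    (hS0 : ∀ σ, σ ∈ S0 ↔ σ ∈ permSet L) (hL : ∀ T ∈ L, isPerm T = true)
    (hLM : ∀ T ∈ L, permOf T ∈ GS Ms []) :
    ∀ (base F : List Nat), (∀ i ∈ F, i < 24) → chainOK Ms L F base = true →
      GS Ms (base.reverse ++ F) = ⊥ → ∀ g : Equiv.Perm GolayPt, g ∈ GS Ms F →
      (∀ σ, σ ∈ S0 ↔ g * σ * g⁻¹ ∈ S0) → g ∈ S0 := by
  intro base
  induction base with
  | nil =>
    intro F _ _ htriv g hg _
    rw [List.reverse_nil, List.nil_append] at htriv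
    rw [htriv, Subgroup.mem_bot] at hg
    rw [hg]
    exact one_mem _
  | cons b rest ih =>
    intro F hF hchain htriv g hg hN
    rw [chainOK, Bool.and_eq_true] at hchain
    obtain ⟨hstep, hchain⟩ := hchain
    rw [List.reverse_cons, List.append_assoc, List.singleton_append] at htriv
    rw [stepOK, Bool.and_eq_true] at hstep
    obtain ⟨hb, hstep⟩ := hstep
    have hb : b < 24 := of_decide_eq_true hb
    have hF' : ∀ i ∈ b :: F, i < 24 := by
      intro i hi
      rcases List.mem_cons.1 hi with rfl | hi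
      · exact hb
      · exact hF i hi
    obtain ⟨q, hq⟩ : ∃ q, q = idx (g (pt b)) := ⟨_, rfl⟩
    have hq24 : q < 24 := by rw [hq]; exact idx_lt _
    have hgq : g (pt b) = pt q := by rw [hq, pt_idx]
    by_cases hqF : q ∈ F
    · have h1 : g (pt q) = pt q := hg.2.2 q hqF
      have h2 : pt b = pt q := g.injective (hgq.trans h1.symm)
      have h3 : g (pt b) = pt b := by rw [hgq, h2]
      refine ih (b :: F) hF' hchain htriv g ⟨hg.1, hg.2.1, ?_⟩ hN
      intro i hi
      rcases List.mem_cons.1 hi with rfl | hi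
      · exact h3
      · exact hg.2.2 i hi
    · have hstep' := List.all_eq_true.1 hstep q (List.mem_range.2 hq24)
      have k1 : (F.any fun i => Nat.beq q i) = false := by
        rw [Bool.eq_false_iff]
        intro h
        rw [List.any_eq_true] at h
        obtain ⟨i, hi, h⟩ := h
        rw [nbeq_iff] at h
        exact hqF (h ▸ hi)
      have k2 : (Ms.all fun m => m.testBit q == m.testBit b) = true := by
        rw [List.all_eq_true]
        intro m hm
        rw [beq_iff_eq, Bool.eq_iff_iff]
        have e1 : pt b ∈ toSet m ↔ m.testBit b = true := by rw [mem_toSet, idx_pt b hb]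
        have e2 : g (pt b) ∈ toSet m ↔ m.testBit q = true := by rw [mem_toSet, hq]
        have e3 : g (pt b) ∈ toSet m ↔ pt b ∈ toSet m := by
          have h5 := hg.2.1 m hm
          constructor
          · intro h
            rw [← h5, Finset.mem_smul_finset] at h
            obtain ⟨p, hp, hpe⟩ := h
            have : p = pt b := g.injective hpe
            rw [← this]
            exact hp
          · intro h
            rw [← h5]
            exact Finset.smul_mem_smul_finset h
        rw [← e1, ← e2, e3]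
      have k3 : teq (orbWts L F q) (orbWts L F b) = true := by
        rw [teq_iff]
        unfold orbWts
        apply List.map_congr_left
        intro F1 hF1
        have hsuf : F1 <:+ F := (List.mem_tails _ _).1 hF1
        have hF1 : ∀ i ∈ F1, i < 24 := fun i hi => hF i (hsuf.subset hi)
        have hfix : ∀ i ∈ F1, g (pt i) = pt i := fun i hi => hg.2.2 i (hsuf.subset hi)
        have hN1 : ∀ σ, σ ∈ permSet (filt L F1) ↔ g * σ * g⁻¹ ∈ permSet (filt L F1) := by
          intro σ
          rw [mem_permSet_filt hL hF1, mem_permSet_filt hL hF1, ← hS0, ← hS0, ← hN σ]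
          apply and_congr_right
          intro _
          apply forall₂_congr
          intro i hi
          have e1 : g⁻¹ (pt i) = pt i := by
            rw [Equiv.Perm.inv_eq_iff_eq]
            exact (hfix i hi).symm
          rw [Equiv.Perm.mul_apply, Equiv.Perm.mul_apply, e1]
          constructor
          · intro h
            rw [h, hfix i hi]
          · intro h
            apply g.injective
            rw [h, hfix i hi]
        have hL1 : ∀ T ∈ filt L F1, isPerm T = true := fun T hT => hL T (mem_filt.1 hT).1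
        rw [hq]
        exact orb_wt hL1 hN1 hb
      rw [k1, k2, k3] at hstep'
      simp only [Bool.not_true, Bool.or_self, Bool.false_or] at hstep'
      rw [List.any_eq_true] at hstep'
      obtain ⟨T, hT, hTq⟩ := hstep'
      rw [nbeq_iff] at hTq
      obtain ⟨hTL, hTF⟩ := mem_filt.1 hT
      have hs0 : permOf T ∈ S0 := (hS0 _).2 ⟨T, hTL, rfl⟩
      have hsb : permOf T (pt b) = pt q := by rw [permOf_pt (hL T hTL) hb, hTq]
      have hsGS : permOf T ∈ GS Ms F := by
        refine ⟨(hLM T hTL).1, (hLM T hTL).2.1, fun i hi => ?_⟩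
        rw [permOf_pt (hL T hTL) (hF i hi), hTF i hi]
      have hg' : (permOf T)⁻¹ * g ∈ GS Ms (b :: F) := by
        have h1 := (GS Ms F).mul_mem ((GS Ms F).inv_mem hsGS) hg
        refine ⟨h1.1, h1.2.1, fun i hi => ?_⟩
        rcases List.mem_cons.1 hi with rfl | hi
        · rw [Equiv.Perm.mul_apply, hgq, Equiv.Perm.inv_eq_iff_eq, hsb]
        · exact h1.2.2 i hi
      have hN' : ∀ σ, σ ∈ S0 ↔ (permOf T)⁻¹ * g * σ * ((permOf T)⁻¹ * g)⁻¹ ∈ S0 := by
        intro σ
        have e : (permOf T)⁻¹ * g * σ * ((permOf T)⁻¹ * g)⁻¹ =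
            (permOf T)⁻¹ * (g * σ * g⁻¹) * permOf T := by group
        rw [e, hN σ]
        constructor
        · intro h
          exact S0.mul_mem (S0.mul_mem (S0.inv_mem hs0) h) hs0
        · intro h
          have h2 := S0.mul_mem (S0.mul_mem hs0 h) (S0.inv_mem hs0)
          have e2 : permOf T * ((permOf T)⁻¹ * (g * σ * g⁻¹) * permOf T) * (permOf T)⁻¹ =
              g * σ * g⁻¹ := by group
          rw [e2] at h2
          exact h2
      have h5 := ih (b :: F) hF' hchain htriv _ hg' hN'
      have h6 := S0.mul_mem hs0 h5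
      rw [mul_inv_cancel_left] at h6
      exact h6

/-! ### Strongly closed subgroups -/

/-- the centre of the group of the tables is `{1, z}` -/
def centOK (gens L : List (List Nat)) (Tz : List Nat) : Bool :=
  L.all fun T => !(gens.all fun G => teq (comp T G) (comp G T)) || teq T idT || teq T Tz

/-- derivation of the members of a strongly closed subgroup -/
def derivOK (CL L : List (List Nat)) : List (List Nat) → List (List Nat) → Bool
  | _, [] => true
  | known, X :: rest =>
      tmem X L &&
      ((CL.any fun G => known.any fun A => teq (comp G A) (comp X G)) ||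
        (known.any fun A => known.any fun B => teq X (comp A B))) &&
      derivOK CL L (X :: known) rest

theorem deriv_sound {G S0 T' : Subgroup (Equiv.Perm GolayPt)} {CL L : List (List Nat)}
    (hCL : ∀ C ∈ CL, isPerm C = true ∧ permOf C ∈ G) (hL : ∀ X ∈ L, isPerm X = true)
    (hS0 : ∀ X ∈ L, permOf X ∈ S0)
    (hcl : ∀ t ∈ T', ∀ g ∈ G, g * t * g⁻¹ ∈ S0 → g * t * g⁻¹ ∈ T') :
    ∀ (rest known : List (List Nat)), (∀ A ∈ known, isPerm A = true ∧ permOf A ∈ T') →
      derivOK CL L known rest = true → ∀ X ∈ rest ++ known, isPerm X = true ∧ permOf X ∈ T' := by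
  intro rest
  induction rest with
  | nil =>
    intro known hk _ X hX
    rw [List.nil_append] at hX
    exact hk X hX
  | cons X rest ih =>
    intro known hk hd Y hY
    rw [derivOK, Bool.and_eq_true, Bool.and_eq_true] at hd
    obtain ⟨⟨h1, h2⟩, h3⟩ := hd
    have hXL : X ∈ L := (tmem_iff _ _).1 h1
    have hXp : isPerm X = true := hL X hXL
    have hXT : permOf X ∈ T' := by
      rw [Bool.or_eq_true] at h2
      rcases h2 with h2 | h2
      · rw [List.any_eq_true] at h2
        obtain ⟨C, hC, h2⟩ := h2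
        rw [List.any_eq_true] at h2
        obtain ⟨A, hA, h2⟩ := h2
        rw [teq_iff] at h2
        have e := permOf_of_comp (hCL C hC).1 (hk A hA).1 hXp (hCL C hC).1 h2
        have e2 : permOf C * permOf A * (permOf C)⁻¹ = permOf X := by
          rw [e, mul_inv_cancel_right]
        rw [← e2]
        exact hcl _ (hk A hA).2 _ (hCL C hC).2 (by rw [e2]; exact hS0 X hXL)
      · rw [List.any_eq_true] at h2
        obtain ⟨A, hA, h2⟩ := h2
        rw [List.any_eq_true] at h2
        obtain ⟨B, hB, h2⟩ := h2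
        rw [teq_iff] at h2
        rw [h2, ← permOf_mul (hk A hA).1 (hk B hB).1]
        exact T'.mul_mem (hk A hA).2 (hk B hB).2
    have hk' : ∀ A ∈ X :: known, isPerm A = true ∧ permOf A ∈ T' := by
      intro A hA
      rcases List.mem_cons.1 hA with rfl | hA
      · exact ⟨hXp, hXT⟩
      · exact hk A hA
    apply ih (X :: known) hk' h3 Y
    rw [List.cons_append, List.mem_cons, List.mem_append] at hY
    rw [List.mem_append, List.mem_cons]
    tauto

/-- the table moves some index -/
def movesOK (T : List Nat) : Bool := (List.range 24).any fun i => !(Nat.beq (tf T i) i)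

theorem permOf_ne_one {T : List Nat} (h : isPerm T = true) (hm : movesOK T = true) :
    permOf T ≠ 1 := by
  rw [movesOK, List.any_eq_true] at hm
  obtain ⟨i, hi, h1⟩ := hm
  rw [List.mem_range] at hi
  intro e
  have h2 : idx (permOf T (pt i)) = idx ((1 : Equiv.Perm GolayPt) (pt i)) := by rw [e]
  rw [idx_permOf h, idx_pt i hi, Equiv.Perm.one_apply, idx_pt i hi] at h2
  rw [h2, Nat.beq_refl] at h1
  exact absurd h1 (by simp)

/-- The main criterion: certificates for a `2`-subgroup given by tables. -/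
theorem mathieu_simpleData (Ms l : List Nat) (hl : ∀ i ∈ l, i < 24)
    (gens L words CL D : List (List Nat)) (Tz : List Nat) (base : List Nat)
    (h1 : L.all (inGS Ms l) = true)
    (h2 : gens.all (fun G => tmem G L) = true)
    (h3 : tmem idT L = true)
    (h4 : closedOK gens L = true) (h5 : invOK gens = true) (h6 : wordsOK gens L words = true)
    (h7 : pow8OK L = true)
    (h8 : centOK gens L Tz = true) (h9 : CL.all (inGS Ms l) = true)
    (h10 : derivOK CL L [Tz] D = true) (h11 : gens.all (fun G => tmem G (D ++ [Tz])) = true)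
    (h12 : tmem Tz L = true) (h13 : movesOK Tz = true)
    (h14 : chainOK Ms L l base = true)
    (h15 : GS Ms (base.reverse ++ l) = ⊥) :
    ∃ P : Sylow 2 ↥(GS Ms l), SimpleData 2 (P : Subgroup ↥(GS Ms l)) := by
  have hLG : ∀ T ∈ L, inM24 T = true ∧ permOf T ∈ GS Ms l := fun T hT =>
    permOf_mem_GS hl (List.all_eq_true.1 h1 T hT)
  have hL : ∀ T ∈ L, isPerm T = true := fun T hT => isPerm_of_inM24 (hLG T hT).1
  have hgL : ∀ G ∈ gens, G ∈ L := fun G hG => (tmem_iff _ _).1 (List.all_eq_true.1 h2 G hG)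
  have hg : ∀ G ∈ gens, isPerm G = true := fun G hG => hL G (hgL G hG)
  have hid : idT ∈ L := (tmem_iff _ _).1 h3
  have hTz : Tz ∈ L := (tmem_iff _ _).1 h12
  obtain ⟨S0, hS0def⟩ : ∃ S0 : Subgroup (Equiv.Perm GolayPt),
      S0 = Subgroup.closure (permSet gens) := ⟨_, rfl⟩
  have hS0 : ∀ σ, σ ∈ S0 ↔ σ ∈ permSet L := by
    intro σ
    rw [hS0def]
    constructor
    · exact list_of_mem_closure hg hL hid h4 h5 σ
    · rintro ⟨T, hT, rfl⟩
      exact mem_closure_of_list hg h6 T hT
  have hS0G : S0 ≤ GS Ms l := by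
    intro σ hσ
    obtain ⟨T, hT, rfl⟩ := (hS0 σ).1 hσ
    exact (hLG T hT).2
  obtain ⟨SM, hSMdef⟩ : ∃ SM : Subgroup ↥(GS Ms l), SM = S0.subgroupOf (GS Ms l) := ⟨_, rfl⟩
  have hSM : ∀ x : ↥(GS Ms l), x ∈ SM ↔ x.1 ∈ S0 := by
    intro x
    rw [hSMdef]
    exact Subgroup.mem_subgroupOf
  have hp : IsPGroup 2 SM := by
    intro x
    obtain ⟨T, hT, hx⟩ := (hS0 _).1 ((hSM x.1).1 x.2)
    refine ⟨3, ?_⟩
    have h : x.1.1 ^ 2 ^ 3 = 1 := by
      rw [hx]
      exact permOf_pow8 (hL T hT) (List.all_eq_true.1 h7 T hT)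
    apply Subtype.ext
    apply Subtype.ext
    exact h
  have hLM : ∀ T ∈ L, permOf T ∈ GS Ms [] := fun T hT =>
    ⟨(hLG T hT).2.1, (hLG T hT).2.2.1, fun _ hi => absurd hi List.not_mem_nil⟩
  have hnorm : ∀ g : ↥(GS Ms l), g ∈ Subgroup.normalizer (SM : Set ↥(GS Ms l)) → g ∈ SM := by
    intro g hgN
    rw [hSM]
    apply chain_norm Ms L S0 hS0 hL hLM base l hl h14 h15 g.1 g.2
    intro σ
    rw [Subgroup.mem_normalizer_iff] at hgN
    constructor
    · intro hσ
      have h := (hgN ⟨σ, hS0G hσ⟩).1 ((hSM _).2 hσ)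
      exact (hSM _).1 h
    · intro hσ
      have hσG : σ ∈ GS Ms l := by
        have h := (GS Ms l).mul_mem ((GS Ms l).mul_mem ((GS Ms l).inv_mem g.2) (hS0G hσ)) g.2
        have e : g.1⁻¹ * (g.1 * σ * g.1⁻¹) * g.1 = σ := by group
        rw [e] at h
        exact h
      have h := (hgN ⟨σ, hσG⟩).2 ((hSM _).2 hσ)
      exact (hSM _).1 h
  obtain ⟨P, hP⟩ := sylow_of_pElts hp (fun g hg _ => hnorm g hg)
  refine ⟨P, ?_⟩
  rw [hP]
  refine ⟨?_, ?_, (SM : Set ↥(GS Ms l)), ?_, ?_⟩
  · intro hbot
    have hz : (⟨permOf Tz, (hLG Tz hTz).2⟩ : ↥(GS Ms l)) ∈ SM :=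
      (hSM _).2 ((hS0 _).2 ⟨Tz, hTz, rfl⟩)
    rw [hbot, Subgroup.mem_bot] at hz
    exact permOf_ne_one (hL Tz hTz) h13 (congrArg Subtype.val hz)
  · intro T hT hT1 hcl
    haveI hnil : Group.IsNilpotent SM := hp.isNilpotent
    haveI hnormal : (T.subgroupOf SM).Normal := by
      constructor
      intro t ht g
      rw [Subgroup.mem_subgroupOf] at ht ⊢
      exact hcl _ ht g (SM.mul_mem (SM.mul_mem g.2 t.2) (SM.inv_mem g.2))
    have hne : T.subgroupOf SM ≠ ⊥ := by
      intro h
      apply hT1
      rw [Subgroup.subgroupOf_eq_bot] at h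
      exact (disjoint_self).1 (h.mono_right hT)
    have hc := Cfsg.Agent.S0065.result (T.subgroupOf SM) hne
    obtain ⟨⟨c, hc1⟩, hc2⟩ := (Subgroup.ne_bot_iff_exists_ne_one).1 hc
    obtain ⟨hcT, hcC⟩ := hc1
    have hcT : c ∈ T.subgroupOf SM := hcT
    have hcC : c ∈ Subgroup.center SM := hcC
    rw [Subgroup.mem_subgroupOf] at hcT
    obtain ⟨Tc, hTc, hce⟩ := (hS0 _).1 ((hSM c.1).1 c.2)
    have hcent : (gens.all fun G => teq (comp Tc G) (comp G Tc)) = true := by
      rw [List.all_eq_true]
      intro G hG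
      rw [teq_iff]
      have hGS : (⟨permOf G, (hLG G (hgL G hG)).2⟩ : ↥(GS Ms l)) ∈ SM :=
        (hSM _).2 ((hS0 _).2 ⟨G, hgL G hG, rfl⟩)
      have h := Subgroup.mem_center_iff.1 hcC ⟨_, hGS⟩
      have h' : permOf G * c.1.1 = c.1.1 * permOf G := congrArg (fun x : ↥SM => x.1.1) h
      rw [hce] at h'
      exact comp_eq_of_permOf (hL Tc hTc) (hg G hG) (hg G hG) (hL Tc hTc) h'.symm
    have hTcz : Tc = Tz := by
      have h := List.all_eq_true.1 h8 Tc hTc
      rw [hcent] at h
      simp only [Bool.not_true, Bool.false_or, Bool.or_eq_true, teq_iff] at h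
      rcases h with h | h
      · exfalso
        apply hc2
        apply Subtype.ext
        apply Subtype.ext
        apply Subtype.ext
        show c.1.1 = 1
        rw [hce, h, permOf_idT]
      · exact h
    obtain ⟨T', hT'⟩ : ∃ T' : Subgroup (Equiv.Perm GolayPt), T' = T.map (GS Ms l).subtype :=
      ⟨_, rfl⟩
    have hT'mem : ∀ x : ↥(GS Ms l), x.1 ∈ T' ↔ x ∈ T := by
      intro x
      rw [hT']
      constructor
      · rintro ⟨y, hy, hxy⟩
        have e : y = x := Subtype.ext hxy
        rw [← e]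
        exact hy
      · intro hx
        exact ⟨x, hx, rfl⟩
    have hzT' : permOf Tz ∈ T' := by
      have h := (hT'mem c.1).2 hcT
      rw [hce, hTcz] at h
      exact h
    have hcl' : ∀ t ∈ T', ∀ g ∈ GS Ms l, g * t * g⁻¹ ∈ S0 → g * t * g⁻¹ ∈ T' := by
      intro t ht g hg hS
      rw [hT'] at ht
      obtain ⟨y, hy, rfl⟩ := ht
      have h := hcl y hy ⟨g, hg⟩ ((hSM _).2 hS)
      exact (hT'mem _).2 h
    have hCL : ∀ C ∈ CL, isPerm C = true ∧ permOf C ∈ GS Ms l := fun C hC =>
      ⟨isPerm_of_inM24 (permOf_mem_GS hl (List.all_eq_true.1 h9 C hC)).1,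
        (permOf_mem_GS hl (List.all_eq_true.1 h9 C hC)).2⟩
    have hder := deriv_sound hCL hL (fun X hX => (hS0 _).2 ⟨X, hX, rfl⟩) hcl' D [Tz]
      (by
        intro A hA
        rw [List.mem_singleton] at hA
        subst hA
        exact ⟨hL _ hTz, hzT'⟩) h10
    have hS0T : S0 ≤ T' := by
      rw [hS0def, Subgroup.closure_le]
      rintro σ ⟨G, hG, rfl⟩
      exact (hder G ((tmem_iff _ _).1 (List.all_eq_true.1 h11 G hG))).2
    apply le_antisymm hT
    intro x hx
    exact (hT'mem x).1 (hS0T ((hSM x).1 hx))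
  · intro g hg
    exact Subgroup.subset_closure (hnorm g hg)
  · intro y hy
    exact ⟨Subgroup.le_normalizer hy, Or.inl hy⟩

theorem simple_of_exists {G : Type*} [Group G] [Finite G] {p : ℕ} [Fact p.Prime]
    (h : ∃ P : Sylow p G, SimpleData p (P : Subgroup G)) (S : Sylow p G) :
    (groupFusionSystem (S : Subgroup G)).IsSimple p := by
  obtain ⟨P, hP⟩ := h
  obtain ⟨g, hg⟩ := MulAction.exists_smul_eq G P S
  have h1 := hP.map (MulAut.conj g)
  have h2 : (S : Subgroup G) = (P : Subgroup G).map (MulAut.conj g).toMonoidHom := by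
    rw [← hg, Sylow.coe_subgroup_smul]
    rfl
  rw [← h2] at h1
  exact simple_of_data S h1

end Mat
end Cfsg.Agent.Helper25
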