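import Mathlib
import Cfsg.Agent.Helper25.Mat1

set_option autoImplicit false

namespace Cfsg.Agent.Helper25
namespace Mat

open Cfsg Cfsg.Agent.Helper28 Cfsg.Agent.Helper28.Golay

/-- one generator row of `closedOK` -/
def rowOK (G : List Nat) (L : List (List Nat)) : Bool := L.all fun A => tmem (comp G A) L

theorem closedOK_of_rows (gens L : List (List Nat)) (h : ∀ G ∈ gens, rowOK G L = true) :
    closedOK gens L = true := by
  rw [closedOK, List.all_eq_true]
  exact h

theorem all_append_true {α : Type} {f : α → Bool} {A B : List α} (hA : A.all f = true)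
    (hB : B.all f = true) : (A ++ B).all f = true := by
  rw [List.all_append, hA, hB]
  rfl

theorem pow8OK_append {A B : List (List Nat)} (hA : pow8OK A = true) (hB : pow8OK B = true) :
    pow8OK (A ++ B) = true :=
  all_append_true hA hB

theorem centOK_append {gens A B : List (List Nat)} {Tz : List Nat}
    (hA : centOK gens A Tz = true) (hB : centOK gens B Tz = true) :
    centOK gens (A ++ B) Tz = true :=
  all_append_true hA hB

theorem chainOK_cons {Ms : List Nat} {L : List (List Nat)} {F : List Nat} {b : Nat}
    {rest : List Nat} (h1 : stepOK Ms L F b = true) (h2 : chainOK Ms L (b :: F) rest = true) :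
    chainOK Ms L F (b :: rest) = true := by
  rw [chainOK, h1, h2]
  rfl

theorem chainOK_nil (Ms : List Nat) (L : List (List Nat)) (F : List Nat) :
    chainOK Ms L F [] = true := by
  rw [chainOK]

/-! ### Bucketed membership -/

/-- bucket lookup -/
def bget (B : List (List (List (List Nat)))) (a b : Nat) : List (List Nat) :=
  (B.getD a []).getD b []

theorem getD_nil_mem {α : Type} (l : List (List α)) (i : Nat) :
    l.getD i [] = [] ∨ l.getD i [] ∈ l := by
  rw [List.getD_eq_getElem?_getD]
  rcases h : l[i]? with _ | x
  · left
    rfl
  · right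
    exact List.mem_of_getElem? h

theorem mem_flat_of_mem_bget {B : List (List (List (List Nat)))} {a b : Nat} {X : List Nat}
    (h : X ∈ bget B a b) : X ∈ B.flatten.flatten := by
  unfold bget at h
  rcases getD_nil_mem B a with h1 | h1
  · rw [h1] at h
    exact absurd h (by simp)
  · rcases getD_nil_mem (B.getD a []) b with h2 | h2
    · rw [h2] at h
      exact absurd h List.not_mem_nil
    · exact List.mem_flatten.2 ⟨_, List.mem_flatten.2 ⟨_, h1, h2⟩, h⟩

/-- bucketed membership test -/
def bmem (B : List (List (List (List Nat)))) (p q : Nat) (X : List Nat) : Bool :=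
  tmem X (bget B (tf X p) (tf X q))

/-- one generator row of `closedOK`, with bucketed membership -/
def rowOKB (G : List Nat) (B : List (List (List (List Nat)))) (p q : Nat)
    (L : List (List Nat)) : Bool :=
  L.all fun A => bmem B p q (comp G A)

theorem closedOK_of_rowsB (gens L : List (List Nat)) (B : List (List (List (List Nat))))
    (p q : Nat) (hL : L = B.flatten.flatten) (h : ∀ G ∈ gens, rowOKB G B p q L = true) :
    closedOK gens L = true := by
  rw [closedOK, List.all_eq_true]
  intro G hG
  have h1 := h G hG
  rw [rowOKB, List.all_eq_true] at h1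
  rw [List.all_eq_true]
  intro A hA
  have h2 := h1 A hA
  rw [bmem, tmem_iff] at h2
  rw [tmem_iff]
  have h3 := mem_flat_of_mem_bget h2
  rw [← hL] at h3
  exact h3

end Mat
end Cfsg.Agent.Helper25
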