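import Mathlib
import Cfsg.Agent.Helper25.Mat24a

set_option autoImplicit false
set_option maxRecDepth 1000000
set_option Elab.async false

namespace Cfsg.Agent.Helper25
namespace Mat

open Cfsg Cfsg.Agent.Helper28 Cfsg.Agent.Helper28.Golay
open scoped Pointwise

theorem m24_h1_0 : m24_L0.all (inGS [] []) = true := by decide +kernel

theorem m24_h1_1 : m24_L1.all (inGS [] []) = true := by decide +kernel

theorem m24_h1_2 : m24_L2.all (inGS [] []) = true := by decide +kernel

theorem m24_h1_3 : m24_L3.all (inGS [] []) = true := by decide +kernel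

theorem m24_h1_4 : m24_L4.all (inGS [] []) = true := by decide +kernel

theorem m24_h1_5 : m24_L5.all (inGS [] []) = true := by decide +kernel

theorem m24_h1_6 : m24_L6.all (inGS [] []) = true := by decide +kernel

theorem m24_h1_7 : m24_L7.all (inGS [] []) = true := by decide +kernel

theorem m24_h1 : m24_L.all (inGS [] []) = true := by
  rw [m24_L_eq]
  exact (all_append_true (all_append_true (all_append_true (all_append_true (all_append_true (all_append_true (all_append_true m24_h1_0 m24_h1_1) m24_h1_2) m24_h1_3) m24_h1_4) m24_h1_5) m24_h1_6) m24_h1_7)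

theorem m24_h7_0 : pow8OK m24_L0 = true := by decide +kernel

theorem m24_h7_1 : pow8OK m24_L1 = true := by decide +kernel

theorem m24_h7_2 : pow8OK m24_L2 = true := by decide +kernel

theorem m24_h7_3 : pow8OK m24_L3 = true := by decide +kernel

theorem m24_h7_4 : pow8OK m24_L4 = true := by decide +kernel

theorem m24_h7_5 : pow8OK m24_L5 = true := by decide +kernel

theorem m24_h7_6 : pow8OK m24_L6 = true := by decide +kernel

theorem m24_h7_7 : pow8OK m24_L7 = true := by decide +kernel

theorem m24_h7 : pow8OK m24_L = true := by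
  rw [m24_L_eq]
  exact (pow8OK_append (pow8OK_append (pow8OK_append (pow8OK_append (pow8OK_append (pow8OK_append (pow8OK_append m24_h7_0 m24_h7_1) m24_h7_2) m24_h7_3) m24_h7_4) m24_h7_5) m24_h7_6) m24_h7_7)

theorem m24_h8_0 : centOK m24_gens m24_L0 m24_Tz = true := by decide +kernel

theorem m24_h8_1 : centOK m24_gens m24_L1 m24_Tz = true := by decide +kernel

theorem m24_h8_2 : centOK m24_gens m24_L2 m24_Tz = true := by decide +kernel

theorem m24_h8_3 : centOK m24_gens m24_L3 m24_Tz = true := by decide +kernel

theorem m24_h8_4 : centOK m24_gens m24_L4 m24_Tz = true := by decide +kernel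

theorem m24_h8_5 : centOK m24_gens m24_L5 m24_Tz = true := by decide +kernel

theorem m24_h8_6 : centOK m24_gens m24_L6 m24_Tz = true := by decide +kernel

theorem m24_h8_7 : centOK m24_gens m24_L7 m24_Tz = true := by decide +kernel

theorem m24_h8 : centOK m24_gens m24_L m24_Tz = true := by
  rw [m24_L_eq]
  exact (centOK_append (centOK_append (centOK_append (centOK_append (centOK_append (centOK_append (centOK_append m24_h8_0 m24_h8_1) m24_h8_2) m24_h8_3) m24_h8_4) m24_h8_5) m24_h8_6) m24_h8_7)

end Mat
end Cfsg.Agent.Helper25
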