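import Mathlib
import Cfsg.Agent.Helper25.Mat24a

set_option autoImplicit false
set_option maxRecDepth 1000000
set_option Elab.async false

namespace Cfsg.Agent.Helper25
namespace Mat

open Cfsg Cfsg.Agent.Helper28 Cfsg.Agent.Helper28.Golay
open scoped Pointwise

theorem m24_h4_0 : rowOKB m24_g0 m24_B 0 1 m24_L = true := by decide +kernel

theorem m24_h4_1 : rowOKB m24_g1 m24_B 0 1 m24_L = true := by decide +kernel

theorem m24_h4_2 : rowOKB m24_g2 m24_B 0 1 m24_L = true := by decide +kernel

theorem m24_h4_3 : rowOKB m24_g3 m24_B 0 1 m24_L = true := by decide +kernel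

theorem m24_h4_4 : rowOKB m24_g4 m24_B 0 1 m24_L = true := by decide +kernel

theorem m24_h4_5 : rowOKB m24_g5 m24_B 0 1 m24_L = true := by decide +kernel

theorem m24_h4_6 : rowOKB m24_g6 m24_B 0 1 m24_L = true := by decide +kernel

theorem m24_h4 : closedOK m24_gens m24_L = true := by
  apply closedOK_of_rowsB _ _ m24_B 0 1 m24_L_eqB
  intro G hG
  simp only [m24_gens, List.mem_cons, List.not_mem_nil, or_false] at hG
  rcases hG with rfl | rfl | rfl | rfl | rfl | rfl | rfl
  exacts [m24_h4_0, m24_h4_1, m24_h4_2, m24_h4_3, m24_h4_4, m24_h4_5, m24_h4_6]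

theorem m24_h14_0 : stepOK [] m24_L [] 1 = true := by decide +kernel

theorem m24_h14_1 : stepOK [] m24_L [1] 0 = true := by decide +kernel

theorem m24_h14_2 : stepOK [] m24_L [0, 1] 2 = true := by decide +kernel

theorem m24_h14_3 : stepOK [] m24_L [2, 0, 1] 5 = true := by decide +kernel

theorem m24_h14_4 : stepOK [] m24_L [5, 2, 0, 1] 9 = true := by decide +kernel

theorem m24_h14_5 : stepOK [] m24_L [9, 5, 2, 0, 1] 20 = true := by decide +kernel

theorem m24_h14_6 : stepOK [] m24_L [20, 9, 5, 2, 0, 1] 22 = true := by decide +kernel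

theorem m24_h14 : chainOK [] m24_L [] [1, 0, 2, 5, 9, 20, 22] = true :=
  (chainOK_cons m24_h14_0 (chainOK_cons m24_h14_1 (chainOK_cons m24_h14_2 (chainOK_cons m24_h14_3 (chainOK_cons m24_h14_4 (chainOK_cons m24_h14_5 (chainOK_cons m24_h14_6 (chainOK_nil _ _ _))))))))

theorem m24_h2 : (m24_gens.all (fun G => tmem G m24_L)) = true := by decide +kernel

theorem m24_h3 : tmem idT m24_L = true := by decide +kernel

theorem m24_h5 : invOK m24_gens = true := by decide +kernel

theorem m24_h6 : wordsOK m24_gens m24_L m24_words = true := by decide +kernel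

theorem m24_h9 : (m24_CL.all (inGS [] [])) = true := by decide +kernel

theorem m24_h10 : derivOK m24_CL m24_L [m24_Tz] m24_D = true := by decide +kernel

theorem m24_h11 : (m24_gens.all (fun G => tmem G (m24_D ++ [m24_Tz]))) = true := by decide +kernel

theorem m24_h12 : tmem m24_Tz m24_L = true := by decide +kernel

theorem m24_h13 : movesOK m24_Tz = true := by decide +kernel

end Mat
end Cfsg.Agent.Helper25
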