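import Mathlib
import Cfsg.Agent.Helper25.Mat24b
import Cfsg.Agent.Helper25.Mat24c

set_option autoImplicit false
set_option maxRecDepth 1000000
set_option Elab.async false

namespace Cfsg.Agent.Helper25
namespace Mat

open Cfsg Cfsg.Agent.Helper28 Cfsg.Agent.Helper28.Golay
open scoped Pointwise

noncomputable def m24_prog : List Step :=
  [Step.pushAll, Step.pushF, Step.bxor 0 1, Step.oct 5275709, Step.band 0 1, Step.oct 4196943, Step.band 0 1, Step.fix 0, Step.pushAll, Step.pushF, Step.bxor 0 1, Step.oct 5275709, Step.band 0 1, Step.oct 6062602, Step.pushAll, Step.bxor 0 1, Step.band 0 3, Step.fix 0, Step.pushAll, Step.pushF, Step.bxor 0 1, Step.oct 4196943, Step.band 0 1, Step.oct 13893731, Step.band 0 1, Step.fix 0, Step.pushAll, Step.pushF, Step.bxor 0 1, Step.oct 4325622, Step.band 0 1, Step.oct 8536111, Step.pushAll, Step.bxor 0 1, Step.band 0 3, Step.fix 0, Step.pushAll, Step.pushF, Step.bxor 0 1, Step.oct 1065303, Step.band 0 1, Step.oct 6832158,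 Step.pushAll, Step.bxor 0 1, Step.band 0 3, Step.fix 0, Step.pushAll, Step.pushF, Step.bxor 0 1, Step.oct 1050548, Step.band 0 1, Step.fix 0, Step.pushAll, Step.pushF, Step.bxor 0 1, Step.oct 4196943, Step.band 0 1, Step.fix 0, Step.pushAll, Step.pushF, Step.bxor 0 1, Step.oct 1053483, Step.band 0 1, Step.fix 0, Step.pushAll, Step.pushF, Step.bxor 0 1, Step.oct 4203377, Step.band 0 1, Step.fix 0, Step.pushAll, Step.pushF, Step.bxor 0 1, Step.oct 1065303, Step.band 0 1, Step.fix 0, Step.pushAll, Step.pushF, Step.bxor 0 1, Step.oct 5275709, Step.band 0 1, Step.fix 0, Step.pushAll, Step.pushF, Step.bxor 0 1, Step.oct 90318, Step.band 0 1, Step.fix 0, Step.pushAll, Step.pushF, Step.bxor 0 1, Step.oct 1302533, Step.band 0 1, Step.fix 0, Step.pushAll, Step.pushF, Step.bxor 0 1, Step.oct 11100169, Step.pushAll, Step.bxor 0 1, Step.band 0 3, Step.fix 0, Step.pushAll, Step.pushF, Step.bxor 0 1, Step.oct 6053905, Step.band 0 1, Step.fix 0, Step.pushAll, Step.pushF,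 Step.bxor 0 1, Step.oct 9347075, Step.pushAll, Step.bxor 0 1, Step.band 0 3, Step.fix 0, Step.pushAll, Step.pushF, Step.bxor 0 1, Step.fix 0]

theorem m24_triv : trivCheck [22, 20, 9, 5, 2, 0, 1] m24_prog = true := by decide +kernel

theorem m24_h15 : GS [] ([1, 0, 2, 5, 9, 20, 22].reverse ++ []) = ⊥ := by
  show GS [] [22, 20, 9, 5, 2, 0, 1] = ⊥
  rw [GS_nil_eq_Gfix]
  exact triv_sound m24_triv

theorem m24_data : ∃ P : Sylow 2 ↥(GS [] []), SimpleData 2 (P : Subgroup ↥(GS [] [])) :=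
  mathieu_simpleData [] [] (by decide) m24_gens m24_L m24_words m24_CL m24_D m24_Tz [1, 0, 2, 5, 9, 20, 22]
    m24_h1 m24_h2 m24_h3 m24_h4 m24_h5 m24_h6 m24_h7 m24_h8 m24_h9 m24_h10 m24_h11 m24_h12 m24_h13 m24_h14 m24_h15
end Mat
end Cfsg.Agent.Helper25
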