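import Mathlib
import Cfsg.Prelude.Def_RootSubgroups
import Cfsg.Agent.Helper25.RootSets3
import Cfsg.Agent.S5028

set_option autoImplicit false

namespace Cfsg.Agent.Helper25.S5029d

open Cfsg Cfsg.Agent.Helper25

variable {G : Type*} [Group G]

/-- `A` normalizes `⁅A, B⁆` (elementwise form). -/
theorem conj_mem_comm (A B : Subgroup G) (a' : G) (ha' : a' ∈ A) (y : G) (hy : y ∈ ⁅A, B⁆) :
    a' * y * a'⁻¹ ∈ ⁅A, B⁆ := by
  have hle : ⁅A, B⁆ ≤ conjBy ⁅A, B⁆ a'⁻¹ := by
    rw [Subgroup.commutator_le]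
    intro a ha b hb
    rw [mem_conjBy, inv_inv, commutatorElement_def]
    have h1 : a' * (a * b * a⁻¹ * b⁻¹) * a'⁻¹
        = ((a' * a) * b * (a' * a)⁻¹ * b⁻¹) * (a' * b * a'⁻¹ * b⁻¹)⁻¹ := by group
    rw [h1]
    have h2 := Subgroup.commutator_mem_commutator (A.mul_mem ha' ha) hb
    have h3 := Subgroup.commutator_mem_commutator ha' hb
    rw [commutatorElement_def] at h2 h3
    exact Subgroup.mul_mem _ h2 (Subgroup.inv_mem _ h3)
  have h4 := hle hy
  rwa [mem_conjBy, inv_inv] at h4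

theorem conjBy_comm (A B : Subgroup G) (a' : G) (ha' : a' ∈ A) : conjBy ⁅A, B⁆ a' = ⁅A, B⁆ := by
  ext x
  rw [mem_conjBy]
  constructor
  · intro hx
    have h1 := conj_mem_comm A B a' ha' _ hx
    have h2 : a' * (a'⁻¹ * x * a') * a'⁻¹ = x := by group
    rwa [h2] at h1
  · intro hx
    have h1 := conj_mem_comm A B a'⁻¹ (A.inv_mem ha') _ hx
    rwa [inv_inv] at h1

theorem not_rank_one_aux {S : Set (Subgroup G)} (hS : IsRootSubgroupSet S) {A B : Subgroup G}
    (hAS : A ∈ S) (hB : B ∈ S) (hC : ⁅A, B⁆ ∈ S) (h : IsRankOnePair A B)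
    (hAC : ¬ ⁅A, ⁅A, B⁆⁆ = ⊥) : False := by
  obtain ⟨a, ha, ha1⟩ := IsRankOnePair.exists_ne_one_left h
  rcases hS.pair A hAS ⁅A, B⁆ hC with h0 | h0 | h0
  · exact hAC h0
  · exact ha1 (IsRankOnePair.eq_one_of_normalizes_right h0 ha (conjBy_comm A B a ha))
  · obtain ⟨hC1S, hcen1, hgen1C, -⟩ := h0
    have hBle : B ≤ A ⊔ ⁅A, B⁆ := by
      obtain ⟨b₀, hb₀, -, hcond⟩ := h.cond_left a ha ha1
      intro b' hb'
      have h1 : a⁻¹ * b' * a ∈ conjBy B a⁻¹ := by
        have h2 := conj_mem_conjBy (g := a⁻¹) hb'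
        rwa [inv_inv] at h2
      rw [← hcond, mem_conjBy, inv_inv] at h1
      obtain ⟨a', ha'def⟩ : ∃ a', a' = b₀ * (a⁻¹ * b' * a) * b₀⁻¹ := ⟨_, rfl⟩
      rw [← ha'def] at h1
      have hcomm : a' * b₀⁻¹ * a'⁻¹ * b₀⁻¹⁻¹ ∈ ⁅A, B⁆ := by
        have h2 := Subgroup.commutator_mem_commutator h1 (B.inv_mem hb₀)
        rwa [commutatorElement_def] at h2
      have h3 : b' = a * ((a' * b₀⁻¹ * a'⁻¹ * b₀⁻¹⁻¹)⁻¹ * a') * a⁻¹ := by
        rw [ha'def]
        group
      rw [h3]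
      exact Subgroup.mul_mem _ (Subgroup.mul_mem _ (Subgroup.mem_sup_left ha)
        (Subgroup.mul_mem _ (Subgroup.mem_sup_right (Subgroup.inv_mem _ hcomm))
          (Subgroup.mem_sup_left h1))) (Subgroup.mem_sup_left (A.inv_mem ha))
    have hC1ne := hS.ne_bot _ hC1S
    obtain ⟨c, hc, hc1⟩ : ∃ c ∈ ⁅A, B⁆, a * c * a⁻¹ * c⁻¹ ≠ 1 := by
      by_contra hcon
      apply hC1ne
      rw [← hgen1C a ha ha1]
      apply closure_image_eq_bot
      intro c hc
      by_contra h5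
      exact hcon ⟨c, hc, h5⟩
    have hzC1 : c * a * c⁻¹ * a⁻¹ ∈ ⁅A, ⁅A, B⁆⁆ := by
      have h5 := Subgroup.inv_mem _ (Subgroup.commutator_mem_commutator ha hc)
      rw [commutatorElement_def] at h5
      have h6 : (a * c * a⁻¹ * c⁻¹)⁻¹ = c * a * c⁻¹ * a⁻¹ := by group
      rwa [h6] at h5
    have hz1 : c * a * c⁻¹ * a⁻¹ ≠ 1 := by
      intro h0
      apply hc1
      have h6 : a * c * a⁻¹ * c⁻¹ = (c * a * c⁻¹ * a⁻¹)⁻¹ := by group
      rw [h6, h0, inv_one]
    have hz : c * a * c⁻¹ * a⁻¹ ∈ Subgroup.centralizer ((A ⊔ B : Subgroup G) : Set G) := by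
      rw [Subgroup.mem_centralizer_iff]
      intro x hx
      have hx' : x ∈ A ⊔ ⁅A, B⁆ := (sup_le le_sup_left hBle) hx
      exact (hcen1 _ hzC1 x hx').symm
    have hza : c * a * c⁻¹ * a⁻¹ * a ∈ conjBy A c := by
      have h6 : c * a * c⁻¹ * a⁻¹ * a = c * a * c⁻¹ := by group
      rw [h6]
      exact conj_mem_conjBy ha
    have h7 := root_key hS hAS hB h (hS.conj_mem A hAS c) hz ha ha1 hza
    rw [h7] at hza
    have hzA : c * a * c⁻¹ * a⁻¹ ∈ A := by
      have h8 := A.mul_mem hza (A.inv_mem ha)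
      rwa [mul_inv_cancel_right] at h8
    obtain ⟨b, hb, hb1⟩ := IsRankOnePair.exists_ne_one_right h
    exact IsRankOnePair.not_commute_elements h hzA hz1 hb hb1
      ((Subgroup.mem_centralizer_iff.1 hz b (Subgroup.mem_sup_right hb)).symm)

/-- (piece [d]) two members of a set of abstract root subgroups whose commutator subgroup is again a
member do not form a rank one pair -/
theorem not_rank_one {S : Set (Subgroup G)} (hS : IsRootSubgroupSet S) {A B : Subgroup G}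
    (hAS : A ∈ S) (hB : B ∈ S) (hC : ⁅A, B⁆ ∈ S) : ¬ IsRankOnePair A B := by
  intro h
  by_cases h1 : ⁅A, ⁅A, B⁆⁆ = ⊥
  · by_cases h2 : ⁅B, ⁅A, B⁆⁆ = ⊥
    · obtain ⟨a, ha, ha1⟩ := IsRankOnePair.exists_ne_one_left h
      obtain ⟨b, hb, hb1⟩ := IsRankOnePair.exists_ne_one_right h
      have hzC : b * a * b⁻¹ * a⁻¹ ∈ ⁅A, B⁆ := by
        have h5 := Subgroup.inv_mem _ (Subgroup.commutator_mem_commutator ha hb)
        rw [commutatorElement_def] at h5
        have h6 : (a * b * a⁻¹ * b⁻¹)⁻¹ = b * a * b⁻¹ * a⁻¹ := by group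
        rwa [h6] at h5
      have hle : A ⊔ B ≤ Subgroup.centralizer ({b * a * b⁻¹ * a⁻¹} : Set G) := by
        apply sup_le
        · intro x hx
          rw [Subgroup.mem_centralizer_iff]
          intro y hy
          rw [Set.mem_singleton_iff] at hy
          rw [hy]
          exact (comm_of_commutator_eq_bot h1 x hx _ hzC).symm
        · intro x hx
          rw [Subgroup.mem_centralizer_iff]
          intro y hy
          rw [Set.mem_singleton_iff] at hy
          rw [hy]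
          exact (comm_of_commutator_eq_bot h2 x hx _ hzC).symm
      have hz : b * a * b⁻¹ * a⁻¹ ∈ Subgroup.centralizer ((A ⊔ B : Subgroup G) : Set G) := by
        rw [Subgroup.mem_centralizer_iff]
        intro x hx
        exact (Subgroup.mem_centralizer_iff.1 (hle hx) _ rfl).symm
      have hza : b * a * b⁻¹ * a⁻¹ * a ∈ conjBy A b := by
        have h6 : b * a * b⁻¹ * a⁻¹ * a = b * a * b⁻¹ := by group
        rw [h6]
        exact conj_mem_conjBy ha
      have h7 := root_key hS hAS hB h (hS.conj_mem A hAS b) hz ha ha1 hza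
      exact hb1 (IsRankOnePair.eq_one_of_normalizes_left h hb h7)
    · have hC' : ⁅B, A⁆ ∈ S := by
        rw [Subgroup.commutator_comm]
        exact hC
      have h2' : ¬ ⁅B, ⁅B, A⁆⁆ = ⊥ := by
        rw [Subgroup.commutator_comm B A]
        exact h2
      exact not_rank_one_aux hS hB hAS hC' (RankOnePair_symm h) h2'
  · exact not_rank_one_aux hS hAS hB hC h h1

end Cfsg.Agent.Helper25.S5029d
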