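import Mathlib
import Cfsg.Prelude.Def_RootSubgroups
import Cfsg.Agent.Helper25.RootSets3
import Cfsg.Agent.S5028

set_option autoImplicit false

namespace Cfsg.Agent.Helper25.S5029x

open Cfsg Cfsg.Agent.Helper25

variable {G : Type*} [Group G]

/-- the commutators with a fixed second argument form a subgroup when they are central -/
theorem comm_image_right (A B C : Subgroup G) (hmem : ∀ a ∈ A, ∀ b ∈ B, a * b * a⁻¹ * b⁻¹ ∈ C)
    (hcen : ∀ c ∈ C, ∀ x ∈ A ⊔ B, c * x = x * c) (b : G) (hb : b ∈ B)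
    (hgen : Subgroup.closure ((fun a : G => a * b * a⁻¹ * b⁻¹) '' (A : Set G)) = C) :
    ∀ c ∈ C, ∃ a ∈ A, a * b * a⁻¹ * b⁻¹ = c := by
  intro c hc
  rw [← hgen] at hc
  induction hc using Subgroup.closure_induction with
  | mem x hx =>
    obtain ⟨a, ha, rfl⟩ := hx
    exact ⟨a, ha, rfl⟩
  | one => exact ⟨1, A.one_mem, by group⟩
  | mul x y _ _ ihx ihy =>
    obtain ⟨a₁, ha₁, rfl⟩ := ihx
    obtain ⟨a₂, ha₂, rfl⟩ := ihy
    refine ⟨a₁ * a₂, A.mul_mem ha₁ ha₂, ?_⟩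
    have h1 := hcen _ (hmem a₂ ha₂ b hb) a₁ (Subgroup.mem_sup_left ha₁)
    have h2 : a₁ * a₂ * b * (a₁ * a₂)⁻¹ * b⁻¹
        = a₁ * (a₂ * b * a₂⁻¹ * b⁻¹) * (b * a₁⁻¹ * b⁻¹) := by group
    rw [h2, ← h1]
    have h3 := hcen _ (hmem a₂ ha₂ b hb) (a₁ * b * a₁⁻¹ * b⁻¹)
      (Subgroup.mul_mem _ (Subgroup.mul_mem _ (Subgroup.mul_mem _ (Subgroup.mem_sup_left ha₁)
        (Subgroup.mem_sup_right hb)) (Subgroup.mem_sup_left (A.inv_mem ha₁)))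
        (Subgroup.mem_sup_right (B.inv_mem hb)))
    rw [← h3]
    group
  | inv x _ ih =>
    obtain ⟨a₁, ha₁, rfl⟩ := ih
    refine ⟨a₁⁻¹, A.inv_mem ha₁, ?_⟩
    have h1 := hcen _ (C.inv_mem (hmem a₁ ha₁ b hb)) a₁ (Subgroup.mem_sup_left ha₁)
    have h2 : a₁⁻¹ * b * a₁⁻¹⁻¹ * b⁻¹ = a₁⁻¹ * ((a₁ * b * a₁⁻¹ * b⁻¹)⁻¹ * a₁) := by group
    rw [h2, h1]
    group

/-- a non-identity element of `B` commuting with a non-identity element of the non-isolated `A`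
centralizes `A` -/
theorem comm_inj {S : Set (Subgroup G)} (hS : IsRootSubgroupSet S) {A B C : Subgroup G}
    (hA : ¬ IsIsolatedIn (FAdj S) S A) (hAS : A ∈ S) (hC : C ∈ S) (hAC : A ≠ C)
    (hmem : ∀ a ∈ A, ∀ b ∈ B, a * b * a⁻¹ * b⁻¹ ∈ C)
    (hne : ∀ b ∈ B, b ≠ 1 → ∃ a ∈ A, a * b ≠ b * a) :
    ∀ a ∈ A, a ≠ 1 → ∀ b ∈ B, a * b = b * a → b = 1 := by
  intro a ha ha1 b hb hab
  by_contra hb1
  obtain ⟨a', ha', hne'⟩ := hne b hb hb1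
  have hAiC : A ⊓ C = ⊥ := (Cfsg.Agent.S5028.result hS hA hAS C hC).resolve_right hAC
  have hconj : A = conjBy A b := by
    rcases Cfsg.Agent.S5028.result hS hA hAS (conjBy A b) (hS.conj_mem A hAS b) with h | h
    · exfalso
      have h1 : a ∈ A ⊓ conjBy A b := by
        rw [Subgroup.mem_inf]
        refine ⟨ha, mem_conjBy.2 ?_⟩
        have h2 : b⁻¹ * a * b = a := by
          rw [mul_assoc, hab, ← mul_assoc, inv_mul_cancel, one_mul]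
        rw [h2]
        exact ha
      rw [h, Subgroup.mem_bot] at h1
      exact ha1 h1
    · exact h
  have h3 : b * a'⁻¹ * b⁻¹ ∈ A := by
    have h4 : b * a'⁻¹ * b⁻¹ ∈ conjBy A b := conj_mem_conjBy (A.inv_mem ha')
    rwa [← hconj] at h4
  have h5 : a' * b * a'⁻¹ * b⁻¹ ∈ A ⊓ C := by
    rw [Subgroup.mem_inf]
    refine ⟨?_, hmem a' ha' b hb⟩
    have h6 : a' * b * a'⁻¹ * b⁻¹ = a' * (b * a'⁻¹ * b⁻¹) := by group
    rw [h6]
    exact A.mul_mem ha' h3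
  rw [hAiC, Subgroup.mem_bot] at h5
  apply hne'
  have h7 : a' * b = (a' * b * a'⁻¹ * b⁻¹) * (b * a') := by group
  rw [h7, h5, one_mul]

/-- the join of two elementwise commuting subgroups is their product -/
theorem mem_sup_comm (A C : Subgroup G) (h : ∀ a ∈ A, ∀ c ∈ C, a * c = c * a) (x : G)
    (hx : x ∈ A ⊔ C) : ∃ a ∈ A, ∃ c ∈ C, x = a * c := by
  rw [Subgroup.sup_eq_closure] at hx
  induction hx using Subgroup.closure_induction with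
  | mem x hx =>
    rcases hx with hx | hx
    · exact ⟨x, hx, 1, C.one_mem, (mul_one x).symm⟩
    · exact ⟨1, A.one_mem, x, hx, (one_mul x).symm⟩
  | one => exact ⟨1, A.one_mem, 1, C.one_mem, (mul_one 1).symm⟩
  | mul x y _ _ ihx ihy =>
    obtain ⟨a₁, ha₁, c₁, hc₁, rfl⟩ := ihx
    obtain ⟨a₂, ha₂, c₂, hc₂, rfl⟩ := ihy
    refine ⟨a₁ * a₂, A.mul_mem ha₁ ha₂, c₁ * c₂, C.mul_mem hc₁ hc₂, ?_⟩
    have h1 := h a₂ ha₂ c₁ hc₁
    calc a₁ * c₁ * (a₂ * c₂) = a₁ * (c₁ * a₂) * c₂ := by group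
      _ = a₁ * (a₂ * c₁) * c₂ := by rw [h1]
      _ = a₁ * a₂ * (c₁ * c₂) := by group
  | inv x _ ih =>
    obtain ⟨a₁, ha₁, c₁, hc₁, rfl⟩ := ih
    refine ⟨a₁⁻¹, A.inv_mem ha₁, c₁⁻¹, C.inv_mem hc₁, ?_⟩
    have h1 := h a₁ ha₁ c₁ hc₁
    rw [h1]
    group

end Cfsg.Agent.Helper25.S5029x
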