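import Mathlib
import Cfsg.Prelude.Def_RootSubgroups
import Cfsg.Agent.Helper25.RootSets3
import Cfsg.Agent.S5028
import Cfsg.Agent.Helper6.S5029a
import Cfsg.Agent.Helper25.S5029x

set_option autoImplicit false

namespace Cfsg.Agent.Helper25.S5029e

open Cfsg Cfsg.Agent.Helper25 Cfsg.Agent.Helper25.S5029x Cfsg.Agent.Helper6.S5029a

variable {G : Type*} [Group G]

theorem sub_eq {S : Set (Subgroup G)} (hS : IsRootSubgroupSet S) {A B : Subgroup G}
    (hA : ¬ IsIsolatedIn (FAdj S) S A) (hAS : A ∈ S) (hB : B ∈ S)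
    (hcc : RootCommutatorCase S A B) (M : Subgroup G) (hM : M ∈ S) (hMC : M ≤ ⁅A, B⁆) :
    M = ⁅A, B⁆ := by
  have hmem0 : ∀ a ∈ A, ∀ b ∈ B, a * b * a⁻¹ * b⁻¹ ∈ ⁅A, B⁆ := by
    intro a ha b hb
    have := Subgroup.commutator_mem_commutator ha hb
    rwa [commutatorElement_def] at this
  obtain ⟨hCS, hcen, hgenB, hgenA⟩ := hcc
  generalize hCdef : ⁅A, B⁆ = C at *
  obtain ⟨F, hFS, hAF⟩ := exists_partner_of_not_isolated hA hAS
  have hCne := hS.ne_bot C hCS
  have hMne := hS.ne_bot M hM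
  obtain ⟨a, ha, ha1⟩ := IsRankOnePair.exists_ne_one_left hAF
  obtain ⟨f, hf, hf1⟩ := IsRankOnePair.exists_ne_one_right hAF
  have hAC : A ≠ C := by
    intro hEq
    apply hCne
    rw [← hgenB a ha ha1]
    apply closure_image_eq_bot
    intro b hb
    have h1 := hcen a (hEq ▸ ha) b (Subgroup.mem_sup_right hb)
    rw [h1]
    group
  have hAiC : A ⊓ C = ⊥ := (Cfsg.Agent.S5028.result hS hA hAS C hCS).resolve_right hAC
  have hsurj := comm_image A B C hmem0 hcen a ha (hgenB a ha ha1)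
  -- a non-identity element of `C` does not commute with `F`
  have hkey : ∀ m ∈ C, m ≠ 1 → ¬ (∀ y ∈ F, m * y = y * m) := by
    intro m hm hm1 hcom
    obtain ⟨b, hb, hbm⟩ := hsurj m⁻¹ (C.inv_mem hm)
    have hle : A ⊔ F ≤ Subgroup.centralizer ({m} : Set G) := by
      apply sup_le
      · intro x hx
        rw [Subgroup.mem_centralizer_iff]
        intro h hh
        rw [Set.mem_singleton_iff] at hh
        rw [hh]
        exact hcen m hm x (Subgroup.mem_sup_left hx)
      · intro x hx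
        rw [Subgroup.mem_centralizer_iff]
        intro h hh
        rw [Set.mem_singleton_iff] at hh
        rw [hh]
        exact hcom x hx
    have hz : m ∈ Subgroup.centralizer ((A ⊔ F : Subgroup G) : Set G) := by
      rw [Subgroup.mem_centralizer_iff]
      intro x hx
      exact (Subgroup.mem_centralizer_iff.1 (hle hx) m rfl).symm
    have hma : m * a = b * a * b⁻¹ := by
      have h1 : m = (a * b * a⁻¹ * b⁻¹)⁻¹ := by rw [hbm, inv_inv]
      rw [h1]
      group
    have hc : m * a ∈ conjBy A b := by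
      rw [hma]
      exact conj_mem_conjBy ha
    have h2 := root_key hS hAS hFS hAF (hS.conj_mem A hAS b) hz ha ha1 hc
    rw [h2] at hc
    have h3 : m ∈ A := by
      have := A.mul_mem hc (A.inv_mem ha)
      rwa [mul_inv_cancel_right] at this
    have h4 : m ∈ A ⊓ C := ⟨h3, hm⟩
    rw [hAiC, Subgroup.mem_bot] at h4
    exact hm1 h4
  obtain ⟨m, hmM, hm1⟩ : ∃ m ∈ M, m ≠ 1 := by
    by_contra hcon
    apply hMne
    rw [Subgroup.eq_bot_iff_forall]
    intro x hx
    by_contra hx1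
    exact hcon ⟨x, hx, hx1⟩
  have hmC : m ∈ C := hMC hmM
  have hMF : ¬ ⁅M, F⁆ = ⊥ := fun h0 =>
    hkey m hmC hm1 (fun y hy => comm_of_commutator_eq_bot h0 m hmM y hy)
  have hCF : ¬ ⁅C, F⁆ = ⊥ := fun h0 =>
    hkey m hmC hm1 (fun y hy => comm_of_commutator_eq_bot h0 m hmC y hy)
  have hFni : ¬ IsIsolatedIn (FAdj S) S F := fun hiso =>
    (hiso.2 A).1 ⟨hFS, hAS, RankOnePair_symm hAF⟩
  rcases hS.pair M hM F hFS with h | h | h
  · exact absurd h hMF
  · have hMni : ¬ IsIsolatedIn (FAdj S) S M := fun hiso => (hiso.2 F).1 ⟨hM, hFS, h⟩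
    rcases Cfsg.Agent.S5028.result hS hMni hM C hCS with h0 | h0
    · exfalso
      have h4 : m ∈ M ⊓ C := ⟨hmM, hmC⟩
      rw [h0, Subgroup.mem_bot] at h4
      exact hm1 h4
    · exact h0
  · rcases hS.pair C hCS F hFS with h' | h' | h'
    · exact absurd h' hCF
    · have hCni : ¬ IsIsolatedIn (FAdj S) S C := fun hiso => (hiso.2 F).1 ⟨hCS, hFS, h'⟩
      rcases Cfsg.Agent.S5028.result hS hCni hCS M hM with h0 | h0
      · exfalso
        have h4 : m ∈ C ⊓ M := ⟨hmC, hmM⟩
        rw [h0, Subgroup.mem_bot] at h4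
        exact hm1 h4
      · exact h0.symm
    · obtain ⟨hN2S, hcen2, hgen2F, hgen2M⟩ := h
      obtain ⟨hN1S, hcen1, hgen1F, hgen1C⟩ := h'
      have hN : ⁅M, F⁆ = ⁅C, F⁆ := by rw [← hgen2F m hmM hm1, ← hgen1F m hmC hm1]
      have hmemMF : ∀ x ∈ M, ∀ y ∈ F, x * y * x⁻¹ * y⁻¹ ∈ ⁅M, F⁆ := by
        intro x hx y hy
        have := Subgroup.commutator_mem_commutator hx hy
        rwa [commutatorElement_def] at this
      have hmemCF : ∀ x ∈ C, ∀ y ∈ F, x * y * x⁻¹ * y⁻¹ ∈ ⁅C, F⁆ := by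
        intro x hx y hy
        have := Subgroup.commutator_mem_commutator hx hy
        rwa [commutatorElement_def] at this
      have hsurjM := comm_image_right M F ⁅M, F⁆ hmemMF hcen2 f hf (hgen2M f hf hf1)
      have hFN : F ≠ ⁅C, F⁆ := by
        intro hEq
        apply hCF
        rw [Subgroup.commutator_eq_bot_iff_le_centralizer]
        intro x hx
        rw [Subgroup.mem_centralizer_iff]
        intro y hy
        have hy' : y ∈ ⁅C, F⁆ := hEq ▸ hy
        exact hcen1 y hy' x (Subgroup.mem_sup_left hx)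
      have hmemFC : ∀ y ∈ F, ∀ x ∈ C, y * x * y⁻¹ * x⁻¹ ∈ ⁅C, F⁆ := by
        intro y hy x hx
        have h5 := Subgroup.inv_mem _ (hmemCF x hx y hy)
        have h6 : (x * y * x⁻¹ * y⁻¹)⁻¹ = y * x * y⁻¹ * x⁻¹ := by group
        rwa [h6] at h5
      have hneC : ∀ x ∈ C, x ≠ 1 → ∃ y ∈ F, y * x ≠ x * y := by
        intro x hx hx1
        by_contra hcon
        apply hkey x hx hx1
        intro y hy
        by_contra h5
        exact hcon ⟨y, hy, fun e => h5 e.symm⟩
      have hinjC := comm_inj hS hFni hFS hN1S hFN hmemFC hneC f hf hf1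
      apply le_antisymm hMC
      intro c hc
      obtain ⟨x, hxM, hx⟩ := hsurjM (c * f * c⁻¹ * f⁻¹) (by rw [hN]; exact hmemCF c hc f hf)
      have h2 : x * f * x⁻¹ = c * f * c⁻¹ := by
        have h5 := congrArg (· * f) hx
        simpa [mul_assoc] using h5
      have h1 : f * (c⁻¹ * x) = (c⁻¹ * x) * f := by
        calc f * (c⁻¹ * x) = c⁻¹ * (c * f * c⁻¹) * x := by group
          _ = c⁻¹ * (x * f * x⁻¹) * x := by rw [h2]
          _ = (c⁻¹ * x) * f := by group
      have h3 := hinjC (c⁻¹ * x) (C.mul_mem (C.inv_mem hc) (hMC hxM)) h1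
      rw [inv_mul_eq_one] at h3
      rw [h3]
      exact hxM

end Cfsg.Agent.Helper25.S5029e
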