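import Mathlib

set_option autoImplicit false

namespace Cfsg.Agent.Helper25

open Matrix

section UniTri

variable {n : ℕ} {K : Type*} [Field K]

/-- Upper unitriangular matrices. -/
def UT (A : Matrix (Fin n) (Fin n) K) : Prop := (∀ i j, j < i → A i j = 0) ∧ ∀ i, A i i = 1

theorem ut_one : UT (1 : Matrix (Fin n) (Fin n) K) := by
  refine ⟨fun i j h => ?_, fun i => Matrix.one_apply_eq i⟩
  exact Matrix.one_apply_ne (ne_of_gt h)

theorem ut_mul {A B : Matrix (Fin n) (Fin n) K} (hA : UT A) (hB : UT B) : UT (A * B) := by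
  refine ⟨fun i j h => ?_, fun i => ?_⟩
  · rw [Matrix.mul_apply]
    apply Finset.sum_eq_zero
    intro k _
    by_cases hk : k < i
    · rw [hA.1 i k hk, zero_mul]
    · rw [hB.1 k j (lt_of_lt_of_le h (not_lt.1 hk)), mul_zero]
  · rw [Matrix.mul_apply, Finset.sum_eq_single i]
    · rw [hA.2, hB.2, one_mul]
    · intro k _ hk
      rcases lt_or_gt_of_ne hk with h | h
      · rw [hA.1 i k h, zero_mul]
      · rw [hB.1 k i h, mul_zero]
    · intro h; exact absurd (Finset.mem_univ i) h

/-- The `(a, a+1)` entry is additive on unitriangular matrices. -/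
theorem ut_mul_adj {A B : Matrix (Fin n) (Fin n) K} (hA : UT A) (hB : UT B) {a b : Fin n}
    (hab : (b : ℕ) = a + 1) : (A * B) a b = A a b + B a b := by
  have hne : a ≠ b := by
    intro h; rw [h] at hab; omega
  rw [Matrix.mul_apply, Finset.sum_eq_add a b hne]
  · rw [hA.2, hB.2, one_mul, mul_one, add_comm]
  · intro k _ hk
    by_cases h1 : k < a
    · rw [hA.1 a k h1, zero_mul]
    · have h2 : b < k := by
        rw [Fin.lt_def] at h1 ⊢
        have h3 : (k : ℕ) ≠ a := fun h => hk.1 (Fin.ext h)
        have h4 : (k : ℕ) ≠ b := fun h => hk.2 (Fin.ext h)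
        omega
      rw [hB.1 k b h2, mul_zero]
  · intro h; exact absurd (Finset.mem_univ a) h
  · intro h; exact absurd (Finset.mem_univ b) h

theorem ut_transvection {a b : Fin n} (hab : a < b) (c : K) : UT (transvection a b c) := by
  refine ⟨fun i j h => ?_, fun i => ?_⟩
  · unfold transvection
    rw [Matrix.add_apply, Matrix.one_apply_ne (ne_of_gt h), zero_add]
    apply Matrix.single_apply_of_ne
    rintro ⟨rfl, rfl⟩
    exact absurd hab (not_lt.2 h.le)
  · unfold transvection
    rw [Matrix.add_apply, Matrix.one_apply_eq, Matrix.single_apply_of_ne, add_zero]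
    rintro ⟨rfl, h2⟩
    exact (ne_of_lt hab) h2.symm

/-- Elementary matrices as elements of `SL`. -/
def tv (a b : Fin n) (hab : a ≠ b) (c : K) : SpecialLinearGroup (Fin n) K :=
  ⟨transvection a b c, det_transvection_of_ne a b hab c⟩

theorem tv_val (a b : Fin n) (hab : a ≠ b) (c : K) : (tv a b hab c).1 = transvection a b c := rfl

theorem tv_mul (a b : Fin n) (hab : a ≠ b) (c d : K) :
    tv a b hab c * tv a b hab d = tv a b hab (c + d) := by
  apply Subtype.ext
  show transvection a b c * transvection a b d = transvection a b (c + d)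
  exact transvection_mul_transvection_same a b hab c d

theorem tv_zero (a b : Fin n) (hab : a ≠ b) : tv a b hab (0 : K) = 1 := by
  apply Subtype.ext
  show transvection a b (0 : K) = 1
  exact transvection_zero a b

theorem tv_inv (a b : Fin n) (hab : a ≠ b) (c : K) : (tv a b hab c)⁻¹ = tv a b hab (-c) := by
  rw [inv_eq_iff_mul_eq_one, tv_mul, add_neg_cancel, tv_zero]

theorem tv_pow (a b : Fin n) (hab : a ≠ b) (c : K) (k : ℕ) :
    (tv a b hab c) ^ k = tv a b hab (k • c) := by
  induction k with
  | zero => rw [pow_zero, zero_smul, tv_zero]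
  | succ k ih => rw [pow_succ, ih, tv_mul, succ_nsmul]

theorem tv_pow_char (p : ℕ) [CharP K p] (a b : Fin n) (hab : a ≠ b) (c : K) :
    (tv a b hab c) ^ p = 1 := by
  rw [tv_pow, nsmul_eq_mul, CharP.cast_eq_zero, zero_mul, tv_zero]

theorem tv_comm₁ {i j k : Fin n} (hij : i ≠ j) (hjk : j ≠ k) (hik : i ≠ k) (s t : K) :
    tv i j hij s * tv j k hjk t = tv j k hjk t * tv i k hik (s * t) * tv i j hij s := by
  apply Subtype.ext
  show transvection i j s * transvection j k t =
    transvection j k t * transvection i k (s * t) * transvection i j s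
  unfold transvection
  simp only [Matrix.mul_add, Matrix.add_mul, Matrix.mul_one, Matrix.one_mul,
    single_mul_single_same, single_mul_single_of_ne _ _ _ _ hij.symm,
    single_mul_single_of_ne _ _ _ _ hik.symm, single_mul_single_of_ne _ _ _ _ hjk.symm,
    Matrix.zero_mul, Matrix.mul_zero, add_zero]
  abel

theorem tv_comm₂ {i j k : Fin n} (hij : i ≠ j) (hjk : j ≠ k) (hik : i ≠ k) (s t : K) :
    tv i j hij t * tv j k hjk s = tv j k hjk s * tv i j hij t * tv i k hik (t * s) := by
  apply Subtype.ext
  show transvection i j t * transvection j k s =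
    transvection j k s * transvection i j t * transvection i k (t * s)
  unfold transvection
  simp only [Matrix.mul_add, Matrix.add_mul, Matrix.mul_one, Matrix.one_mul,
    single_mul_single_same, single_mul_single_of_ne _ _ _ _ hij.symm,
    single_mul_single_of_ne _ _ _ _ hik.symm, single_mul_single_of_ne _ _ _ _ hjk.symm,
    single_mul_single_of_ne _ _ _ _ hik, single_mul_single_of_ne _ _ _ _ hij,
    Matrix.zero_mul, Matrix.mul_zero, add_zero]
  abel

/-- Conjugation formula for elementary matrices (first form). -/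
theorem tv_conj₁ {i j k : Fin n} (hij : i ≠ j) (hjk : j ≠ k) (hik : i ≠ k) (s t : K) :
    tv i j hij s * tv j k hjk t * (tv i j hij s)⁻¹ = tv j k hjk t * tv i k hik (s * t) := by
  rw [mul_inv_eq_iff_eq_mul, tv_comm₁ hij hjk hik]

/-- Conjugation formula for elementary matrices (second form). -/
theorem tv_conj₂ {i j k : Fin n} (hij : i ≠ j) (hjk : j ≠ k) (hik : i ≠ k) (s t : K) :
    tv j k hjk s * tv i j hij t * (tv j k hjk s)⁻¹ = tv i j hij t * tv i k hik (-(s * t)) := by
  have h := tv_comm₂ hij hjk hik (-s) t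
  have h2 : tv j k hjk (-s) = (tv j k hjk s)⁻¹ := (tv_inv j k hjk s).symm
  rw [h2] at h
  have h3 : t * -s = -(s * t) := by ring
  rw [h3] at h
  rw [mul_assoc, h]
  group

end UniTri

end Cfsg.Agent.Helper25
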