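import Mathlib
import Cfsg.Agent.Helper25.UniTri

set_option autoImplicit false

namespace Cfsg.Agent.Helper25

open Matrix

section UniTri2

variable {n : ℕ} {K : Type*} [Field K]

theorem sl_finite [Finite K] : Finite (SpecialLinearGroup (Fin n) K) := Subtype.finite

theorem ut_pow {x : SpecialLinearGroup (Fin n) K} (hx : UT x.1) (k : ℕ) : UT (x ^ k).1 := by
  induction k with
  | zero => rw [pow_zero]; exact ut_one
  | succ k ih => rw [pow_succ]; exact ut_mul ih hx

theorem ut_inv [Finite K] {x : SpecialLinearGroup (Fin n) K} (hx : UT x.1) : UT (x⁻¹).1 := by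
  haveI : Finite (SpecialLinearGroup (Fin n) K) := sl_finite
  have h1 : x⁻¹ = x ^ (orderOf x - 1) := by
    rw [inv_eq_iff_mul_eq_one, ← pow_succ', Nat.sub_add_cancel (orderOf_pos x), pow_orderOf_eq_one]
  rw [h1]
  exact ut_pow hx _

/-- The upper unitriangular subgroup of `SL_n(K)`. -/
def uniSub (n : ℕ) (K : Type*) [Field K] [Finite K] : Subgroup (SpecialLinearGroup (Fin n) K) where
  carrier := {u | UT u.1}
  mul_mem' := fun {a b} ha hb => ut_mul ha hb
  one_mem' := ut_one
  inv_mem' := fun {x} hx => ut_inv hx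

theorem mem_uniSub [Finite K] {u : SpecialLinearGroup (Fin n) K} : u ∈ uniSub n K ↔ UT u.1 :=
  Iff.rfl

theorem adj_ne {a b : Fin n} (hab : (b : ℕ) = a + 1) : a ≠ b := by
  intro h; rw [h] at hab; omega

theorem adj_lt {a b : Fin n} (hab : (b : ℕ) = a + 1) : a < b := by
  rw [Fin.lt_def]; omega

/-- The unipotent radical of the minimal parabolic for the simple root `(a, a+1)`. -/
def radSub (K : Type*) [Field K] [Finite K] {n : ℕ} (a b : Fin n) (hab : (b : ℕ) = a + 1) :
    Subgroup (SpecialLinearGroup (Fin n) K) where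
  carrier := {u | UT u.1 ∧ u.1 a b = 0}
  mul_mem' := by
    rintro x y ⟨hx, hx0⟩ ⟨hy, hy0⟩
    refine ⟨ut_mul hx hy, ?_⟩
    show (x.1 * y.1) a b = 0
    rw [ut_mul_adj hx hy hab, hx0, hy0, add_zero]
  one_mem' := ⟨ut_one, Matrix.one_apply_ne (adj_ne hab)⟩
  inv_mem' := by
    rintro x ⟨hx, hx0⟩
    have hi := ut_inv hx
    refine ⟨hi, ?_⟩
    have h1 := ut_mul_adj hx hi hab
    have h2 : x.1 * (x⁻¹).1 = 1 := congrArg Subtype.val (mul_inv_cancel x)
    rw [h2, Matrix.one_apply_ne (adj_ne hab), hx0, zero_add] at h1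
    exact h1.symm

theorem mem_radSub [Finite K] {a b : Fin n} {hab : (b : ℕ) = a + 1}
    {u : SpecialLinearGroup (Fin n) K} : u ∈ radSub K a b hab ↔ UT u.1 ∧ u.1 a b = 0 :=
  Iff.rfl

theorem radSub_le [Finite K] (a b : Fin n) (hab : (b : ℕ) = a + 1) :
    radSub K a b hab ≤ uniSub n K := fun _ h => h.1

theorem tv_mem_uniSub [Finite K] {i j : Fin n} (hij : i < j) (t : K) :
    tv i j (ne_of_lt hij) t ∈ uniSub n K := ut_transvection hij t

/-- Unitriangular matrices are generated by the upper elementary matrices. -/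
theorem ut_mem_of_tv (H : Subgroup (SpecialLinearGroup (Fin n) K))
    (hH : ∀ (i j : Fin n) (hij : i < j) (t : K), tv i j (ne_of_lt hij) t ∈ H)
    (u : SpecialLinearGroup (Fin n) K) (hu : UT u.1) : u ∈ H := by
  classical
  obtain ⟨N, hN⟩ : ∃ N, (Finset.univ.filter
      (fun q : Fin n × Fin n => q.1 < q.2 ∧ u.1 q.1 q.2 ≠ 0)).card = N := ⟨_, rfl⟩
  induction N using Nat.strong_induction_on generalizing u with
  | _ N ih =>
    by_cases hemp : (Finset.univ.filter
        (fun q : Fin n × Fin n => q.1 < q.2 ∧ u.1 q.1 q.2 ≠ 0)) = ∅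
    · have h1 : u = 1 := by
        apply Subtype.ext
        ext i j
        show u.1 i j = (1 : Matrix (Fin n) (Fin n) K) i j
        rcases lt_trichotomy i j with h | h | h
        · have h2 : (i, j) ∉ (Finset.univ.filter
              (fun q : Fin n × Fin n => q.1 < q.2 ∧ u.1 q.1 q.2 ≠ 0)) := by
            rw [hemp]; exact Finset.notMem_empty _
          rw [Finset.mem_filter] at h2
          have h3 : u.1 i j = 0 := by
            by_contra h4
            exact h2 ⟨Finset.mem_univ _, h, h4⟩
          rw [h3, Matrix.one_apply_ne (ne_of_lt h)]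
        · subst h; rw [hu.2, Matrix.one_apply_eq]
        · rw [hu.1 i j h, Matrix.one_apply_ne (ne_of_gt h)]
      rw [h1]; exact H.one_mem
    · obtain ⟨⟨i, j⟩, hq, hmax⟩ := Finset.exists_max_image _ (fun q : Fin n × Fin n => q.1)
        (Finset.nonempty_iff_ne_empty.2 hemp)
      rw [Finset.mem_filter] at hq
      obtain ⟨-, hij, hc⟩ := hq
      have hij' : i < j := hij
      have hrow : ∀ b, b ≠ j → u.1 j b = 0 := by
        intro b hb
        rcases lt_or_gt_of_ne hb with h | h
        · exact hu.1 j b h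
        · by_contra h4
          have h5 := hmax (j, b) (Finset.mem_filter.2 ⟨Finset.mem_univ _, h, h4⟩)
          exact absurd hij' (not_lt.2 h5)
      obtain ⟨u', hu'⟩ : ∃ u', u' = tv i j (ne_of_lt hij') (-(u.1 i j)) * u := ⟨_, rfl⟩
      have hval : u'.1 = transvection i j (-(u.1 i j)) * u.1 := by rw [hu']; rfl
      have hUT' : UT u'.1 := by
        rw [hval]; exact ut_mul (ut_transvection hij' _) hu
      have hsub : (Finset.univ.filter
          (fun q : Fin n × Fin n => q.1 < q.2 ∧ u'.1 q.1 q.2 ≠ 0)) ⊆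
          (Finset.univ.filter
          (fun q : Fin n × Fin n => q.1 < q.2 ∧ u.1 q.1 q.2 ≠ 0)).erase (i, j) := by
        rintro ⟨a, b⟩ hq'
        rw [Finset.mem_filter] at hq'
        obtain ⟨-, hab, hne⟩ := hq'
        rw [Finset.mem_erase, Finset.mem_filter]
        by_cases ha : a = i
        · subst ha
          have h6 : u'.1 a b = u.1 a b + -(u.1 a j) * u.1 j b := by
            rw [hval, transvection_mul_apply_same]
          by_cases hb : b = j
          · subst hb
            exfalso
            apply hne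
            show u'.1 a b = 0
            rw [h6, hu.2]; ring
          · have h7 : u'.1 a b = u.1 a b := by
              rw [h6, hrow b hb]; ring
            refine ⟨fun h => hb (Prod.mk.inj h).2, Finset.mem_univ _, hab, ?_⟩
            show u.1 a b ≠ 0
            rw [← h7]; exact hne
        · have h6 : u'.1 a b = u.1 a b := by
            rw [hval, transvection_mul_apply_of_ne _ _ _ _ ha]
          refine ⟨fun h => ha (Prod.mk.inj h).1, Finset.mem_univ _, hab, ?_⟩
          show u.1 a b ≠ 0
          rw [← h6]; exact hne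
      have hlt : (Finset.univ.filter
          (fun q : Fin n × Fin n => q.1 < q.2 ∧ u'.1 q.1 q.2 ≠ 0)).card < N := by
        have h8 := Finset.card_le_card hsub
        have h9 : (i, j) ∈ (Finset.univ.filter
            (fun q : Fin n × Fin n => q.1 < q.2 ∧ u.1 q.1 q.2 ≠ 0)) :=
          Finset.mem_filter.2 ⟨Finset.mem_univ _, hij, hc⟩
        rw [Finset.card_erase_of_mem h9, hN] at h8
        have h10 : 0 < N := by
          rw [← hN]; exact Finset.card_pos.2 ⟨_, h9⟩
        omega
      have hmem : u' ∈ H := ih _ hlt u' hUT' rfl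
      have e : u = tv i j (ne_of_lt hij') (u.1 i j) * u' := by
        rw [hu', ← mul_assoc, tv_mul, add_neg_cancel, tv_zero, one_mul]
      rw [e]
      exact H.mul_mem (hH i j hij' _) hmem

/-- Unitriangular matrices correspond to arbitrary functions on the strictly upper positions. -/
def utEquiv (n : ℕ) (K : Type*) [Field K] :
    {A : Matrix (Fin n) (Fin n) K // UT A} ≃ ({q : Fin n × Fin n // q.1 < q.2} → K) where
  toFun A := fun q => A.1 q.1.1 q.1.2
  invFun f := ⟨fun i j => if h : i < j then f ⟨(i, j), h⟩ else if i = j then 1 else 0, by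
    refine ⟨fun i j h => ?_, fun i => ?_⟩
    · simp [not_lt.2 h.le, ne_of_gt h]
    · simp⟩
  left_inv := by
    rintro ⟨A, hA⟩
    apply Subtype.ext
    ext i j
    show (if h : i < j then A i j else if i = j then 1 else 0) = A i j
    by_cases h : i < j
    · simp [h]
    · by_cases h2 : i = j
      · subst h2; simp [hA.2]
      · have h3 : j < i := lt_of_le_of_ne (not_lt.1 h) (Ne.symm h2)
        simp [h, h2, hA.1 i j h3]
  right_inv := by
    intro f
    funext ⟨⟨i, j⟩, h⟩
    have h' : i < j := h
    show (if h'' : i < j then f ⟨(i, j), h''⟩ else if i = j then 1 else 0) = _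
    simp [h']

/-- The unitriangular subgroup as a subtype of matrices. -/
def uniEquiv (n : ℕ) (K : Type*) [Field K] [Finite K] :
    uniSub n K ≃ {A : Matrix (Fin n) (Fin n) K // UT A} where
  toFun u := ⟨u.1.1, u.2⟩
  invFun A := ⟨⟨A.1, by
    rw [Matrix.det_of_upperTriangular (fun i j h => A.2.1 i j h)]
    exact Finset.prod_eq_one (fun i _ => A.2.2 i)⟩, A.2⟩
  left_inv := fun _ => rfl
  right_inv := fun _ => rfl

theorem card_pairs (n : ℕ) : Nat.card {q : Fin n × Fin n // q.1 < q.2} = n * (n - 1) / 2 := by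
  rw [Nat.card_eq_fintype_card, Fintype.card_subtype, Finset.card_filter,
    Fintype.sum_prod_type_right]
  have h1 : ∀ j : Fin n, (∑ i : Fin n, if i < j then 1 else 0) = (j : ℕ) := by
    intro j
    rw [← Finset.card_filter]
    have h2 : (Finset.univ.filter (fun i : Fin n => i < j)) = Finset.Iio j := by
      ext i; simp
    rw [h2, Fin.card_Iio]
  simp_rw [h1]
  rw [Fin.sum_univ_eq_sum_range (fun i => i) n, Finset.sum_range_id]

theorem card_uniSub [Finite K] :
    Nat.card (uniSub n K) = Nat.card K ^ (n * (n - 1) / 2) := by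
  rw [Nat.card_congr ((uniEquiv n K).trans (utEquiv n K)), Nat.card_fun, card_pairs]

theorem uni_isPGroup [Finite K] (p : ℕ) [Fact p.Prime] [CharP K p] :
    IsPGroup p (uniSub n K) := by
  haveI := Fintype.ofFinite K
  obtain ⟨f, hp, hq⟩ := FiniteField.card K p
  apply IsPGroup.of_card (n := f * (n * (n - 1) / 2))
  rw [card_uniSub, Nat.card_eq_fintype_card, hq, pow_mul]

end UniTri2

end Cfsg.Agent.Helper25
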