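import Mathlib
import Cfsg.Agent.Helper25.UniTri2
import Cfsg.Agent.S0065

set_option autoImplicit false

namespace Cfsg.Agent.Helper25

open Matrix

section UniTri3

variable {n : ℕ} {K : Type*} [Field K]

/-- In characteristic `p`, `x ^ p ^ m = 1` forces `x = 1`. -/
theorem eq_one_of_pow_char (p : ℕ) [Fact p.Prime] [CharP K p] {x : K} {m : ℕ}
    (h : x ^ p ^ m = 1) : x = 1 := by
  have h1 : (x - 1) ^ p ^ m = 0 := by
    rw [sub_pow_char_pow, h, one_pow, sub_self]
  exact sub_eq_zero.1 ((pow_eq_zero_iff (pow_ne_zero _ (Fact.out : p.Prime).ne_zero)).1 h1)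

/-- The projection `SL_n(K) → PSL_n(K)`. -/
def prj (n : ℕ) (K : Type*) [Field K] :
    SpecialLinearGroup (Fin n) K →* Matrix.ProjectiveSpecialLinearGroup (Fin n) K :=
  QuotientGroup.mk' _

theorem prj_surj : Function.Surjective (prj n K) := QuotientGroup.mk'_surjective _

theorem prj_eq_iff {x y : SpecialLinearGroup (Fin n) K} :
    prj n K x = prj n K y ↔ x⁻¹ * y ∈ Subgroup.center (SpecialLinearGroup (Fin n) K) :=
  QuotientGroup.eq

theorem prj_eq_one_iff {x : SpecialLinearGroup (Fin n) K} :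
    prj n K x = 1 ↔ x ∈ Subgroup.center (SpecialLinearGroup (Fin n) K) :=
  QuotientGroup.eq_one_iff x

theorem center_pElt (p : ℕ) [Fact p.Prime] [CharP K p] (hn : 0 < n)
    {ζ : SpecialLinearGroup (Fin n) K}
    (hζ : ζ ∈ Subgroup.center (SpecialLinearGroup (Fin n) K))
    {m : ℕ} (h : ζ ^ p ^ m = 1) : ζ = 1 := by
  obtain ⟨r, -, hr⟩ := Matrix.SpecialLinearGroup.mem_center_iff.1 hζ
  have h1 : (ζ ^ p ^ m).1 = 1 := by rw [h]; rfl
  have h2 : (ζ ^ p ^ m).1 = ζ.1 ^ p ^ m := Matrix.SpecialLinearGroup.coe_pow _ _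
  rw [h2, ← hr, ← map_pow] at h1
  have h3 : r ^ p ^ m = 1 := by
    have h4 := congrFun (congrFun h1 ⟨0, hn⟩) ⟨0, hn⟩
    simpa using h4
  have h4 := eq_one_of_pow_char p h3
  apply Subtype.ext
  rw [← hr, h4, map_one]; rfl

theorem uni_pow_eq_one [Finite K] (p : ℕ) [Fact p.Prime] [CharP K p]
    {u : SpecialLinearGroup (Fin n) K} (hu : u ∈ uniSub n K) : ∃ j : ℕ, u ^ p ^ j = 1 := by
  obtain ⟨j, hj⟩ := (uni_isPGroup (n := n) (K := K) p) ⟨u, hu⟩
  exact ⟨j, by simpa using congrArg Subtype.val hj⟩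

/-- A `p`-element of `SL_n` whose image in `PSL_n` lies in the image of the unitriangular group
is itself unitriangular. -/
theorem uni_lift [Finite K] (p : ℕ) [Fact p.Prime] [CharP K p] (hn : 0 < n)
    {v : SpecialLinearGroup (Fin n) K} {k : ℕ} (hv : v ^ p ^ k = 1)
    (hπ : prj n K v ∈ (uniSub n K).map (prj n K)) : v ∈ uniSub n K := by
  obtain ⟨u, hu, e⟩ := Subgroup.mem_map.1 hπ
  have hz : u⁻¹ * v ∈ Subgroup.center (SpecialLinearGroup (Fin n) K) := prj_eq_iff.1 e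
  obtain ⟨j, hj⟩ := uni_pow_eq_one p hu
  obtain ⟨ζ, hζ⟩ : ∃ ζ, ζ = u⁻¹ * v := ⟨_, rfl⟩
  rw [← hζ] at hz
  have hv' : v = u * ζ := by rw [hζ]; group
  have hc : Commute u ζ := Subgroup.mem_center_iff.1 hz u
  have h1 : ζ ^ p ^ (j + k) = 1 := by
    have h2 : v ^ p ^ (j + k) = 1 := by rw [pow_add, mul_comm, pow_mul, hv, one_pow]
    have h3 : u ^ p ^ (j + k) = 1 := by rw [pow_add, pow_mul, hj, one_pow]
    rw [hv', hc.mul_pow, h3, one_mul] at h2
    exact h2
  have h4 := center_pElt p hn hz h1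
  rw [hv', h4, mul_one]; exact hu

theorem uni_inj [Finite K] (p : ℕ) [Fact p.Prime] [CharP K p] (hn : 0 < n)
    {u u' : SpecialLinearGroup (Fin n) K} (hu : u ∈ uniSub n K) (hu' : u' ∈ uniSub n K)
    (e : prj n K u = prj n K u') : u = u' := by
  have hz : u⁻¹ * u' ∈ Subgroup.center (SpecialLinearGroup (Fin n) K) := prj_eq_iff.1 e
  have hz2 : u⁻¹ * u' ∈ uniSub n K := mul_mem (inv_mem hu) hu'
  obtain ⟨j, hj⟩ := uni_pow_eq_one p hz2
  have h1 := center_pElt p hn hz hj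
  exact inv_mul_eq_one.1 h1

theorem commute_single_of_tv {A : SpecialLinearGroup (Fin n) K} {j k : Fin n} (hjk : j ≠ k)
    (h : tv j k hjk 1 * A = A * tv j k hjk 1) : Commute (single j k (1 : K)) A.1 := by
  have h1 : transvection j k 1 * A.1 = A.1 * transvection j k 1 := congrArg Subtype.val h
  unfold transvection at h1
  rw [add_mul, mul_add, one_mul, mul_one] at h1
  exact add_left_cancel h1

theorem uni_center (hn : 2 ≤ n) {z : SpecialLinearGroup (Fin n) K}
    (hc : ∀ (j k : Fin n) (hjk : j < k),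
      tv j k (ne_of_lt hjk) 1 * z = z * tv j k (ne_of_lt hjk) 1) :
    ∀ i j : Fin n, i ≠ j → ¬ ((i : ℕ) = 0 ∧ (j : ℕ) = n - 1) → z.1 i j = 0 := by
  intro i j hij hnot
  by_cases hi : (i : ℕ) = 0
  · have hj : (j : ℕ) < n - 1 := by
      have := j.2
      omega
    obtain ⟨l, hl⟩ : ∃ l : Fin n, (l : ℕ) = n - 1 := ⟨⟨n - 1, by omega⟩, rfl⟩
    have hjl : j < l := by rw [Fin.lt_def]; omega
    exact col_eq_zero_of_commute_single (commute_single_of_tv _ (hc j l hjl)) hij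
  · obtain ⟨o, ho⟩ : ∃ o : Fin n, (o : ℕ) = 0 := ⟨⟨0, by omega⟩, rfl⟩
    have hoi : o < i := by rw [Fin.lt_def]; omega
    exact row_eq_zero_of_commute_single (commute_single_of_tv _ (hc o i hoi)) hij.symm

theorem uni_center_eq (hn : 2 ≤ n) {z : SpecialLinearGroup (Fin n) K} (hz : UT z.1)
    (hc : ∀ (j k : Fin n) (hjk : j < k),
      tv j k (ne_of_lt hjk) 1 * z = z * tv j k (ne_of_lt hjk) 1)
    (o l : Fin n) (ho : (o : ℕ) = 0) (hl : (l : ℕ) = n - 1) (hol : o ≠ l) :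
    z = tv o l hol (z.1 o l) := by
  apply Subtype.ext
  ext i j
  show z.1 i j = transvection o l (z.1 o l) i j
  unfold transvection
  rw [Matrix.add_apply]
  by_cases hij : i = j
  · subst hij
    rw [hz.2, Matrix.one_apply_eq, Matrix.single_apply_of_ne, add_zero]
    rintro ⟨rfl, h2⟩
    exact hol h2.symm
  · rw [Matrix.one_apply_ne hij, zero_add]
    by_cases h : o = i ∧ l = j
    · obtain ⟨rfl, rfl⟩ := h
      rw [Matrix.single_apply_same]
    · rw [Matrix.single_apply_of_ne _ _ _ _ _ h]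
      apply uni_center hn hc i j hij
      rintro ⟨h1, h2⟩
      exact h ⟨Fin.ext (by omega), Fin.ext (by omega)⟩

/-- A nontrivial subgroup of the unitriangular group closed under `SL_n`-fusion is everything
(`n ≥ 3`). -/
theorem uni_closed [Finite K] (p : ℕ) [Fact p.Prime] [CharP K p] (hn : 3 ≤ n)
    (T : Subgroup (SpecialLinearGroup (Fin n) K)) (hT : T ≤ uniSub n K) (hT1 : T ≠ ⊥)
    (hcl : ∀ t ∈ T, ∀ g : SpecialLinearGroup (Fin n) K, g * t * g⁻¹ ∈ uniSub n K →
      g * t * g⁻¹ ∈ T) : T = uniSub n K := by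
  haveI : Finite (SpecialLinearGroup (Fin n) K) := sl_finite
  haveI hnil : Group.IsNilpotent (uniSub n K) := (uni_isPGroup p).isNilpotent
  haveI hnorm : (T.subgroupOf (uniSub n K)).Normal := by
    constructor
    intro t ht g
    rw [Subgroup.mem_subgroupOf] at ht ⊢
    exact hcl _ ht g (mul_mem (mul_mem g.2 t.2) (inv_mem g.2))
  have hne : T.subgroupOf (uniSub n K) ≠ ⊥ := by
    intro h
    apply hT1
    rw [Subgroup.subgroupOf_eq_bot] at h
    exact (disjoint_self).1 (h.mono_right hT)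
  have h1 := Cfsg.Agent.S0065.result (T.subgroupOf (uniSub n K)) hne
  obtain ⟨⟨z, hz⟩, hz1⟩ := (Subgroup.ne_bot_iff_exists_ne_one).1 h1
  obtain ⟨hzT, hzC⟩ := hz
  have hzT : z ∈ T.subgroupOf (uniSub n K) := hzT
  have hzC : z ∈ Subgroup.center (uniSub n K) := hzC
  rw [Subgroup.mem_subgroupOf] at hzT
  have hzU : UT (z : SpecialLinearGroup (Fin n) K).1 := z.2
  have hzne : (z : SpecialLinearGroup (Fin n) K) ≠ 1 := by
    intro h
    apply hz1
    apply Subtype.ext
    apply Subtype.ext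
    exact h
  have hcomm : ∀ (j k : Fin n) (hjk : j < k),
      tv j k (ne_of_lt hjk) 1 * (z : SpecialLinearGroup (Fin n) K) =
        (z : SpecialLinearGroup (Fin n) K) * tv j k (ne_of_lt hjk) 1 := by
    intro j k hjk
    have h2 := Subgroup.mem_center_iff.1 hzC ⟨tv j k (ne_of_lt hjk) 1, tv_mem_uniSub hjk 1⟩
    exact congrArg Subtype.val h2
  obtain ⟨o, ho⟩ : ∃ o : Fin n, (o : ℕ) = 0 := ⟨⟨0, by omega⟩, rfl⟩
  obtain ⟨m, hm⟩ : ∃ m : Fin n, (m : ℕ) = 1 := ⟨⟨1, by omega⟩, rfl⟩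
  obtain ⟨l, hl⟩ : ∃ l : Fin n, (l : ℕ) = n - 1 := ⟨⟨n - 1, by omega⟩, rfl⟩
  have hol : o < l := by rw [Fin.lt_def]; omega
  have hom : o < m := by rw [Fin.lt_def]; omega
  have hml : m < l := by rw [Fin.lt_def]; omega
  have hzeq := uni_center_eq (by omega) hzU hcomm o l ho hl (ne_of_lt hol)
  obtain ⟨c, hc⟩ : ∃ c, c = (z : SpecialLinearGroup (Fin n) K).1 o l := ⟨_, rfl⟩
  rw [← hc] at hzeq
  have hc0 : c ≠ 0 := by
    intro h
    apply hzne
    rw [hzeq, h, tv_zero]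
  rw [hzeq] at hzT
  -- the basic closure step
  have key : ∀ (g t x y : SpecialLinearGroup (Fin n) K), t ∈ T → g * t * g⁻¹ = x * y → x ∈ T →
      y ∈ uniSub n K → y ∈ T := by
    intro g t x y ht e hx hy
    have h3 := hcl t ht g (by rw [e]; exact mul_mem (hT hx) hy)
    rw [e] at h3
    exact (Subgroup.mul_mem_cancel_left T hx).1 h3
  -- Step 1
  have s1 : tv m l (ne_of_lt hml) c ∈ T := by
    have h4 := tv_conj₁ (ne_of_gt hom) (ne_of_lt hol) (ne_of_lt hml) (1 : K) c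
    rw [one_mul] at h4
    exact key _ _ _ _ hzT h4 hzT (tv_mem_uniSub hml c)
  -- Step 2
  have s2 : ∀ t : K, tv o l (ne_of_lt hol) t ∈ T := by
    intro t
    have h4 := tv_conj₁ (ne_of_lt hom) (ne_of_lt hml) (ne_of_lt hol) (t / c) c
    rw [div_mul_cancel₀ t hc0] at h4
    exact key _ _ _ _ s1 h4 s1 (tv_mem_uniSub hol t)
  -- Step 3
  have s3 : ∀ (i : Fin n) (hil : i < l) (t : K), tv i l (ne_of_lt hil) t ∈ T := by
    intro i hil t
    by_cases hio : i = o
    · subst hio; exact s2 t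
    · have h4 := tv_conj₁ hio (ne_of_lt hol) (ne_of_lt hil) (1 : K) t
      rw [one_mul] at h4
      exact key _ _ _ _ (s2 t) h4 (s2 t) (tv_mem_uniSub hil t)
  -- Step 4
  have s4 : ∀ (i j : Fin n) (hij : i < j) (t : K), tv i j (ne_of_lt hij) t ∈ T := by
    intro i j hij t
    by_cases hjl : j = l
    · subst hjl; exact s3 i hij t
    · have hjl' : j < l := by
        rw [Fin.lt_def]
        have h5 : (j : ℕ) ≠ l := fun h => hjl (Fin.ext h)
        have := j.2
        omega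
      have hil : i < l := lt_trans hij hjl'
      have h4 := tv_conj₂ (ne_of_lt hil) (ne_of_gt hjl') (ne_of_lt hij) (-1 : K) t
      have h5 : -(-1 * t) = t := by ring
      rw [h5] at h4
      exact key _ _ _ _ (s3 i hil t) h4 (s3 i hil t) (tv_mem_uniSub hij t)
  apply le_antisymm hT
  intro u hu
  exact ut_mem_of_tv T s4 u hu

end UniTri3

end Cfsg.Agent.Helper25
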