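import Mathlib
import Cfsg.Agent.Helper25.UniTri3
import Cfsg.Agent.Helper2.SLCard

set_option autoImplicit false

namespace Cfsg.Agent.Helper25

open Matrix

section UniTri4

variable {n : ℕ} {K : Type*} [Field K]

theorem psl_finite [Finite K] : Finite (Matrix.ProjectiveSpecialLinearGroup (Fin n) K) := by
  haveI : Finite (SpecialLinearGroup (Fin n) K) := sl_finite
  exact Finite.of_surjective (prj n K) prj_surj

/-- The `p`-part of `|PSL_n(q)|`. -/
theorem psl_ppart [Fintype K] (p : ℕ) [Fact p.Prime] [CharP K p] (hn : 1 ≤ n) :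
    p ^ (Nat.card (Matrix.ProjectiveSpecialLinearGroup (Fin n) K)).factorization p =
      Fintype.card K ^ (n * (n - 1) / 2) := by
  haveI : Finite (Matrix.ProjectiveSpecialLinearGroup (Fin n) K) := psl_finite
  obtain ⟨f, hp, hq⟩ := FiniteField.card K p
  have hndvd := Cfsg.Agent.Helper2.SLCard.not_dvd_prod p f n hp f.pos
  have hm0 : ∏ i ∈ Finset.range n, ((p ^ (f : ℕ)) ^ (n - i) - 1) ≠ 0 := by
    intro h0
    apply hndvd
    rw [h0]
    exact dvd_zero p
  have h1 := Cfsg.Agent.Helper2.SLCard.card_PSL_mul K n hn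
  have h2 := Cfsg.Agent.Helper2.SLCard.card_SL_mul K n hn
  rw [← h1, Matrix.card_GL_field, Cfsg.Agent.Helper2.SLCard.prod_eq (Fintype.card K) n, hq,
    ← pow_mul] at h2
  have hf1 : 1 ≤ (f : ℕ) := f.pos
  have hq1 : 1 < p ^ (f : ℕ) := Nat.one_lt_pow (by omega) hp.one_lt
  have hnd1 : ¬ p ∣ p ^ (f : ℕ) - 1 := by
    intro h
    have h3 : p ∣ p ^ (f : ℕ) := dvd_pow_self p (by omega)
    have e : p ^ (f : ℕ) = (p ^ (f : ℕ) - 1) + 1 := by omega
    rw [e] at h3
    have h4 : p ∣ 1 := (Nat.dvd_add_right h).1 h3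
    exact hp.one_lt.ne' (Nat.dvd_one.1 h4)
  have hnd2 : ¬ p ∣ Nat.gcd (p ^ (f : ℕ) - 1) n := fun h =>
    hnd1 (h.trans (Nat.gcd_dvd_left _ _))
  have hg0 : Nat.gcd (p ^ (f : ℕ) - 1) n ≠ 0 := by
    intro h0
    apply hnd2
    rw [h0]
    exact dvd_zero p
  have hq0 : p ^ (f : ℕ) - 1 ≠ 0 := by omega
  have hc0 : Nat.card (Matrix.ProjectiveSpecialLinearGroup (Fin n) K) ≠ 0 :=
    Nat.card_pos.ne'
  have h3 : (Nat.card (Matrix.ProjectiveSpecialLinearGroup (Fin n) K) *
      Nat.gcd (p ^ (f : ℕ) - 1) n * (p ^ (f : ℕ) - 1)).factorization p =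
      (p ^ ((f : ℕ) * (n * (n - 1) / 2)) *
        ∏ i ∈ Finset.range n, ((p ^ (f : ℕ)) ^ (n - i) - 1)).factorization p := by
    rw [h2]
  rw [Nat.factorization_mul (mul_ne_zero hc0 hg0) hq0, Nat.factorization_mul hc0 hg0,
    Nat.factorization_mul (pow_ne_zero _ hp.ne_zero) hm0, Finsupp.add_apply, Finsupp.add_apply,
    Finsupp.add_apply, hp.factorization_pow, Finsupp.single_eq_same,
    Nat.factorization_eq_zero_of_not_dvd hndvd, Nat.factorization_eq_zero_of_not_dvd hnd1,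
    Nat.factorization_eq_zero_of_not_dvd hnd2, add_zero, add_zero, add_zero] at h3
  rw [h3, hq, pow_mul]

theorem card_uniPSL [Fintype K] (p : ℕ) [Fact p.Prime] [CharP K p] (hn : 0 < n) :
    Nat.card ((uniSub n K).map (prj n K)) = Fintype.card K ^ (n * (n - 1) / 2) := by
  have hbij : Function.Bijective (fun u : uniSub n K =>
      (⟨prj n K u.1, Subgroup.mem_map_of_mem _ u.2⟩ : (uniSub n K).map (prj n K))) := by
    constructor
    · intro u u' h
      apply Subtype.ext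
      exact uni_inj p hn u.2 u'.2 (Subtype.mk.inj h)
    · rintro ⟨_, u, hu, rfl⟩
      exact ⟨⟨u, hu⟩, rfl⟩
  rw [← Nat.card_congr (Equiv.ofBijective _ hbij), card_uniSub, Nat.card_eq_fintype_card]

/-- The image of the unitriangular group is a Sylow `p`-subgroup of `PSL_n(K)`. -/
noncomputable def uniPSL (K : Type*) [Field K] [Fintype K] (p : ℕ) [Fact p.Prime] [CharP K p]
    {n : ℕ} (hn : 0 < n) : Sylow p (Matrix.ProjectiveSpecialLinearGroup (Fin n) K) :=
  haveI : Finite (Matrix.ProjectiveSpecialLinearGroup (Fin n) K) := psl_finite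
  Sylow.ofCard ((uniSub n K).map (prj n K)) (by rw [card_uniPSL p hn, psl_ppart p hn])

theorem coe_uniPSL [Fintype K] (p : ℕ) [Fact p.Prime] [CharP K p] (hn : 0 < n) :
    ((uniPSL K p hn : Sylow p (Matrix.ProjectiveSpecialLinearGroup (Fin n) K)) :
      Subgroup (Matrix.ProjectiveSpecialLinearGroup (Fin n) K)) = (uniSub n K).map (prj n K) :=
  rfl

end UniTri4

end Cfsg.Agent.Helper25
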