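import Mathlib
import Cfsg.Agent.Helper25.UniTri4
import Cfsg.Agent.Helper9.StrEmb

set_option autoImplicit false

namespace Cfsg.Agent.Helper25

open Matrix

section UniTri5

variable {n : ℕ} {K : Type*} [Field K]

theorem mtv (M : Matrix (Fin n) (Fin n) K) (i j : Fin n) (c : K) (r x : Fin n) :
    (M * transvection i j c) r x = if x = j then M r j + c * M r i else M r x := by
  split_ifs with h
  · subst h; exact mul_transvection_apply_same _ _ _ _ _
  · exact mul_transvection_apply_of_ne _ _ _ _ h _ _

theorem tvm (M : Matrix (Fin n) (Fin n) K) (i j : Fin n) (c : K) (r x : Fin n) :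
    (transvection i j c * M) r x = if r = i then M i x + c * M j x else M r x := by
  split_ifs with h
  · subst h; exact transvection_mul_apply_same _ _ _ _ _
  · exact transvection_mul_apply_of_ne _ _ _ _ h _ _

/-- The diagonal element `h_{ab}(c)` as a product of elementary matrices. -/
def hd (a b : Fin n) (hab : a ≠ b) (c : K) : SpecialLinearGroup (Fin n) K :=
  tv a b hab (c - 1) * tv b a hab.symm 1 * tv a b hab (c⁻¹ - 1) * tv b a hab.symm (-c)

/-- Diagonal entries of `h_{ab}(c)`. -/
def dvec (a b : Fin n) (c : K) : Fin n → K := Function.update (Function.update 1 a c) b c⁻¹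

theorem dvec_ne_zero (a b : Fin n) (c : K) (hc : c ≠ 0) (j : Fin n) : dvec a b c j ≠ 0 := by
  unfold dvec
  rw [Function.update_apply, Function.update_apply]
  split_ifs
  · exact inv_ne_zero hc
  · exact hc
  · exact one_ne_zero

theorem hd_val (a b : Fin n) (hab : a ≠ b) (c : K) (hc : c ≠ 0) :
    (hd a b hab c).1 = diagonal (dvec a b c) := by
  show transvection a b (c - 1) * transvection b a 1 * transvection a b (c⁻¹ - 1) *
    transvection b a (-c) = _
  ext r x
  simp only [mtv]
  simp only [transvection, Matrix.add_apply, Matrix.one_apply, Matrix.single_apply,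
    Matrix.diagonal_apply, dvec, Function.update_apply, Pi.one_apply]
  rcases eq_or_ne r a with rfl | hra
  · rcases eq_or_ne x r with rfl | hxa
    · simp [hab, hab.symm]
      right
      rw [sub_mul, inv_mul_cancel₀ hc]; ring
    · rcases eq_or_ne x b with rfl | hxb
      · simp [hab, hab.symm, hxa, hxa.symm]
        rw [sub_mul, inv_mul_cancel₀ hc]; ring
      · simp [hab, hab.symm, hxa, hxa.symm, hxb, hxb.symm]
  · rcases eq_or_ne r b with rfl | hrb
    · rcases eq_or_ne x a with rfl | hxa
      · simp [hab, hab.symm]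
        rw [mul_inv_cancel₀ hc]; ring
      · rcases eq_or_ne x r with rfl | hxb
        · simp [hab, hab.symm, hxa, hxa.symm]
        · simp [hab, hab.symm, hxa, hxa.symm, hxb, hxb.symm]
    · rcases eq_or_ne x a with rfl | hxa
      · simp [hab, hab.symm, hra, hra.symm, hrb, hrb.symm]
      · rcases eq_or_ne x b with rfl | hxb
        · simp [hab, hab.symm, hra, hra.symm, hrb, hrb.symm]
        · simp [hab, hab.symm, hra, hra.symm, hrb, hrb.symm, hxa, hxa.symm, hxb, hxb.symm]

theorem ut_of_diag_conj {d : Fin n → K} (hd : ∀ j, d j ≠ 0) {u v : Matrix (Fin n) (Fin n) K}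
    (hu : UT u) (e : v * diagonal d = diagonal d * u) : UT v := by
  have h : ∀ i j, v i j * d j = d i * u i j := by
    intro i j
    have h1 := congrFun (congrFun e i) j
    rwa [Matrix.mul_diagonal, Matrix.diagonal_mul] at h1
  refine ⟨fun i j hij => ?_, fun i => ?_⟩
  · have h1 := h i j
    rw [hu.1 i j hij, mul_zero] at h1
    exact (mul_eq_zero.1 h1).resolve_right (hd j)
  · have h1 := h i i
    rw [hu.2, mul_one] at h1
    exact mul_right_cancel₀ (hd i) (by rw [h1, one_mul])

theorem hd_mem_normalizer [Finite K] (a b : Fin n) (hab : a ≠ b) (c : K) (hc : c ≠ 0) :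
    hd a b hab c ∈ Subgroup.normalizer ((uniSub n K : Subgroup (SpecialLinearGroup (Fin n) K)) :
      Set (SpecialLinearGroup (Fin n) K)) := by
  haveI : Finite (SpecialLinearGroup (Fin n) K) := sl_finite
  apply Cfsg.Agent.Helper9.mem_normalizer_of_conj_le
  intro u hu
  obtain ⟨v, hv⟩ : ∃ v, v = hd a b hab c * u * (hd a b hab c)⁻¹ := ⟨_, rfl⟩
  rw [← hv]
  have e : v * hd a b hab c = hd a b hab c * u := by rw [hv]; group
  have e1 : v.1 * (hd a b hab c).1 = (hd a b hab c).1 * u.1 := congrArg Subtype.val e
  rw [hd_val a b hab c hc] at e1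
  exact ut_of_diag_conj (dvec_ne_zero a b c hc) hu e1

/-- An element of `SL_n` conjugating the unitriangular group into itself is upper triangular. -/
theorem upper_of_norm [Finite K] {A : SpecialLinearGroup (Fin n) K}
    (h : ∀ u ∈ uniSub n K, A * u * A⁻¹ ∈ uniSub n K) :
    ∀ i j : Fin n, j < i → A.1 i j = 0 := by
  have key : ∀ m : ℕ, ∀ i : Fin n, n ≤ (i : ℕ) + m → ∀ b : Fin n, b < i → A.1 i b = 0 := by
    intro m
    induction m with
    | zero => intro i hi; exact absurd i.2 (by omega)
    | succ m ih =>
      intro i hi b hb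
      have hu := h (tv b i (ne_of_lt hb) 1) (tv_mem_uniSub hb 1)
      obtain ⟨v, hv⟩ : ∃ v, v = A * tv b i (ne_of_lt hb) 1 * A⁻¹ := ⟨_, rfl⟩
      rw [← hv] at hu
      have hu' : UT v.1 := hu
      have e : v * A = A * tv b i (ne_of_lt hb) 1 := by rw [hv]; group
      have e1 : (v.1 * A.1) i i =
          (A.1 * (transvection b i 1 : Matrix (Fin n) (Fin n) K)) i i :=
        congrFun (congrFun (congrArg Subtype.val e) i) i
      rw [mul_transvection_apply_same, Matrix.mul_apply, Finset.sum_eq_single i] at e1
      · rw [hu'.2, one_mul, one_mul] at e1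
        have e2 : A.1 i i + 0 = A.1 i i + A.1 i b := by rw [add_zero]; exact e1
        exact (add_left_cancel e2).symm
      · intro k _ hk
        rcases lt_or_gt_of_ne hk with h1 | h1
        · rw [hu'.1 i k h1, zero_mul]
        · rw [ih k (by rw [Fin.lt_def] at h1; omega) i h1, mul_zero]
      · intro h1; exact absurd (Finset.mem_univ i) h1
  intro i j hij
  exact key n i (by omega) j hij

/-- Upper triangular elements of `SL_n` are generated by unitriangular elements and the
diagonal elements `h_{a,a+1}(c)`. -/
theorem upper_mem_closure [Finite K] {A : SpecialLinearGroup (Fin n) K}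
    (hA : ∀ i j : Fin n, j < i → A.1 i j = 0) :
    A ∈ Subgroup.closure (((uniSub n K : Subgroup (SpecialLinearGroup (Fin n) K)) :
      Set (SpecialLinearGroup (Fin n) K)) ∪
      {g | ∃ (a b : Fin n) (hab : a ≠ b) (c : K), c ≠ 0 ∧ (b : ℕ) = a + 1 ∧ g = hd a b hab c}) := by
  have key : ∀ k : ℕ, ∀ A : SpecialLinearGroup (Fin n) K,
      (∀ i j : Fin n, j < i → A.1 i j = 0) → (∀ i : Fin n, k ≤ (i : ℕ) → A.1 i i = 1) →
      A ∈ Subgroup.closure (((uniSub n K : Subgroup (SpecialLinearGroup (Fin n) K)) :
        Set (SpecialLinearGroup (Fin n) K)) ∪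
        {g | ∃ (a b : Fin n) (hab : a ≠ b) (c : K), c ≠ 0 ∧ (b : ℕ) = a + 1 ∧
          g = hd a b hab c}) := by
    intro k
    induction k with
    | zero =>
      intro A hA hdg
      exact Subgroup.subset_closure (Or.inl ⟨hA, fun i => hdg i (Nat.zero_le _)⟩)
    | succ k ih =>
      intro A hA hdg
      have hdet : ∏ i, A.1 i i = 1 := by
        have h1 := A.2
        rw [Matrix.det_of_upperTriangular (fun i j h => hA i j h)] at h1
        exact h1
      rcases Nat.eq_zero_or_pos k with rfl | hk
      · apply Subgroup.subset_closure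
        left
        refine ⟨hA, fun i => ?_⟩
        by_cases hi : 1 ≤ (i : ℕ)
        · exact hdg i hi
        · rw [Fintype.prod_eq_single i] at hdet
          · exact hdet
          · intro j hj
            apply hdg j
            have h2 : (j : ℕ) ≠ i := fun h => hj (Fin.ext h)
            omega
      · by_cases hkn : k < n
        · obtain ⟨b, hb⟩ : ∃ b : Fin n, (b : ℕ) = k := ⟨⟨k, hkn⟩, rfl⟩
          obtain ⟨a, ha⟩ : ∃ a : Fin n, (a : ℕ) = k - 1 := ⟨⟨k - 1, by omega⟩, rfl⟩
          have hab : (b : ℕ) = a + 1 := by omega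
          have hne : a ≠ b := adj_ne hab
          obtain ⟨c, hc⟩ : ∃ c, c = A.1 b b := ⟨_, rfl⟩
          have hc0 : c ≠ 0 := by
            intro h0
            have h3 : ∏ i, A.1 i i = 0 :=
              Finset.prod_eq_zero (Finset.mem_univ b) (by rw [← hc, h0])
            rw [h3] at hdet
            exact zero_ne_one hdet
          have hA' : A * hd a b hne c ∈ Subgroup.closure
              (((uniSub n K : Subgroup (SpecialLinearGroup (Fin n) K)) :
              Set (SpecialLinearGroup (Fin n) K)) ∪
              {g | ∃ (a b : Fin n) (hab : a ≠ b) (c : K), c ≠ 0 ∧ (b : ℕ) = a + 1 ∧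
                g = hd a b hab c}) := by
            apply ih
            · intro i j hij
              show (A.1 * (hd a b hne c).1) i j = 0
              rw [hd_val _ _ _ _ hc0, Matrix.mul_diagonal, hA i j hij, zero_mul]
            · intro i hi
              show (A.1 * (hd a b hne c).1) i i = 1
              rw [hd_val _ _ _ _ hc0, Matrix.mul_diagonal]
              by_cases hib : i = b
              · subst hib
                rw [dvec, Function.update_self, ← hc, mul_inv_cancel₀ hc0]
              · have hia : i ≠ a := by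
                  intro h; rw [h] at hi; omega
                rw [dvec, Function.update_of_ne hib, Function.update_of_ne hia, Pi.one_apply,
                  mul_one]
                apply hdg i
                have h2 : (i : ℕ) ≠ b := fun h => hib (Fin.ext h)
                omega
          have hh : hd a b hne c ∈ Subgroup.closure
              (((uniSub n K : Subgroup (SpecialLinearGroup (Fin n) K)) :
              Set (SpecialLinearGroup (Fin n) K)) ∪
              {g | ∃ (a b : Fin n) (hab : a ≠ b) (c : K), c ≠ 0 ∧ (b : ℕ) = a + 1 ∧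
                g = hd a b hab c}) :=
            Subgroup.subset_closure (Or.inr ⟨a, b, hne, c, hc0, hab, rfl⟩)
          have h4 := Subgroup.mul_mem _ hA' (Subgroup.inv_mem _ hh)
          rwa [mul_inv_cancel_right] at h4
        · exact ih A hA (fun i hi => absurd i.2 (by omega))
  exact key n A hA (fun i hi => absurd i.2 (by omega))

/-- An upper triangular element of `SL_n` with constant diagonal is a central multiple of a
unitriangular element. -/
theorem constdiag (hn : 0 < n) {A : SpecialLinearGroup (Fin n) K}
    (hup : ∀ i j : Fin n, j < i → A.1 i j = 0) (hdg : ∀ i j : Fin n, A.1 i i = A.1 j j) :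
    ∃ r : SpecialLinearGroup (Fin n) K, UT r.1 ∧ (∀ i j, A.1 i j = 0 → r.1 i j = 0) ∧
      prj n K A = prj n K r := by
  obtain ⟨c, hc⟩ : ∃ c, c = A.1 ⟨0, hn⟩ ⟨0, hn⟩ := ⟨_, rfl⟩
  have hcc : ∀ i, A.1 i i = c := fun i => by rw [hc]; exact hdg i _
  have hdet : c ^ n = 1 := by
    have h1 := A.2
    rw [Matrix.det_of_upperTriangular (fun i j h => hup i j h)] at h1
    simp_rw [hcc] at h1
    rw [Finset.prod_const, Finset.card_univ, Fintype.card_fin] at h1
    exact h1
  have hc0 : c ≠ 0 := by
    intro h0
    rw [h0, zero_pow (by omega)] at hdet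
    exact zero_ne_one hdet
  obtain ⟨z, hz⟩ : ∃ z : SpecialLinearGroup (Fin n) K, z.1 = diagonal (fun _ => c) := by
    refine ⟨⟨diagonal (fun _ => c), ?_⟩, rfl⟩
    rw [Matrix.det_diagonal, Finset.prod_const, Finset.card_univ, Fintype.card_fin]
    exact hdet
  have hzc : z ∈ Subgroup.center (SpecialLinearGroup (Fin n) K) := by
    rw [Matrix.SpecialLinearGroup.mem_center_iff]
    refine ⟨c, ?_, ?_⟩
    · rw [Fintype.card_fin]; exact hdet
    · rw [hz, Matrix.scalar_apply]
  obtain ⟨r, hr⟩ : ∃ r, r = z⁻¹ * A := ⟨_, rfl⟩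
  have e : z * r = A := by rw [hr]; group
  have e1 : ∀ i j, c * r.1 i j = A.1 i j := by
    intro i j
    have h2 : (z.1 * r.1) i j = A.1 i j := congrFun (congrFun (congrArg Subtype.val e) i) j
    rw [hz, Matrix.diagonal_mul] at h2
    exact h2
  refine ⟨r, ⟨fun i j hij => ?_, fun i => ?_⟩, fun i j h0 => ?_, ?_⟩
  · have h3 := e1 i j
    rw [hup i j hij] at h3
    exact (mul_eq_zero.1 h3).resolve_left hc0
  · have h3 := e1 i i
    rw [hcc i] at h3
    exact mul_left_cancel₀ hc0 (by rw [h3, mul_one])
  · have h3 := e1 i j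
    rw [h0] at h3
    exact (mul_eq_zero.1 h3).resolve_left hc0
  · rw [← e, map_mul, prj_eq_one_iff.2 hzc, one_mul]

end UniTri5

end Cfsg.Agent.Helper25
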