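import Mathlib
import Cfsg.Agent.Helper25.UniTri5

set_option autoImplicit false

namespace Cfsg.Agent.Helper25

open Matrix

section UniTri6

variable {n : ℕ} {K : Type*} [Field K]

theorem uni_le_normalizer_rad [Finite K] (a b : Fin n) (hab : (b : ℕ) = a + 1) :
    uniSub n K ≤ Subgroup.normalizer
      ((radSub K a b hab : Subgroup (SpecialLinearGroup (Fin n) K)) :
        Set (SpecialLinearGroup (Fin n) K)) := by
  haveI : Finite (SpecialLinearGroup (Fin n) K) := sl_finite
  intro u hu
  apply Cfsg.Agent.Helper9.mem_normalizer_of_conj_le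
  intro r hr
  have hu' : UT u.1 := hu
  have hi : UT (u⁻¹).1 := ut_inv hu'
  have hr' := mem_radSub.1 hr
  refine mem_radSub.2 ⟨ut_mul (ut_mul hu' hr'.1) hi, ?_⟩
  show (u.1 * r.1 * (u⁻¹).1) a b = 0
  rw [ut_mul_adj (ut_mul hu' hr'.1) hi hab, ut_mul_adj hu' hr'.1 hab, hr'.2, add_zero]
  have h1 := ut_mul_adj hu' hi hab
  have h2 : u.1 * (u⁻¹).1 = 1 := congrArg Subtype.val (mul_inv_cancel u)
  rw [h2, Matrix.one_apply_ne (adj_ne hab)] at h1
  exact h1.symm

theorem tvl_mem_normalizer_rad [Finite K] (a b : Fin n) (hab : (b : ℕ) = a + 1) (c : K) :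
    tv b a (adj_ne hab).symm c ∈ Subgroup.normalizer
      ((radSub K a b hab : Subgroup (SpecialLinearGroup (Fin n) K)) :
        Set (SpecialLinearGroup (Fin n) K)) := by
  haveI : Finite (SpecialLinearGroup (Fin n) K) := sl_finite
  apply Cfsg.Agent.Helper9.mem_normalizer_of_conj_le
  intro r hr
  obtain ⟨hr1, hr2⟩ := mem_radSub.1 hr
  have hne : a ≠ b := adj_ne hab
  have hlt : a < b := adj_lt hab
  rw [tv_inv]
  have hv : ∀ i j, (tv b a (adj_ne hab).symm c * r * tv b a (adj_ne hab).symm (-c)).1 i j =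
      (if j = a then (if i = b then r.1 b a + c * r.1 a a else r.1 i a) +
          -c * (if i = b then r.1 b b + c * r.1 a b else r.1 i b)
        else (if i = b then r.1 b j + c * r.1 a j else r.1 i j)) := by
    intro i j
    show (transvection b a c * r.1 * transvection b a (-c)) i j = _
    rw [mtv]
    simp only [tvm]
  refine mem_radSub.2 ⟨⟨fun i j hij => ?_, fun i => ?_⟩, ?_⟩
  · rw [hv]
    by_cases hja : j = a
    · rw [if_pos hja]
      by_cases hib : i = b
      · rw [if_pos hib, if_pos hib, hr1.1 b a hlt, hr1.2, hr1.2, hr2]; ring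
      · rw [if_neg hib, if_neg hib]
        have hai : a < i := by rw [← hja]; exact hij
        have hbi : b < i := by
          rw [Fin.lt_def] at hai ⊢
          have h1 : (i : ℕ) ≠ b := fun h => hib (Fin.ext h)
          omega
        rw [hr1.1 i a hai, hr1.1 i b hbi]; ring
    · rw [if_neg hja]
      by_cases hib : i = b
      · rw [if_pos hib]
        have hjb : j < b := by rw [← hib]; exact hij
        have hja' : j < a := by
          rw [Fin.lt_def] at hjb ⊢
          have h1 : (j : ℕ) ≠ a := fun h => hja (Fin.ext h)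
          omega
        rw [hr1.1 b j hjb, hr1.1 a j hja']; ring
      · rw [if_neg hib]
        exact hr1.1 i j hij
  · rw [hv]
    by_cases hia : i = a
    · have hib : i ≠ b := by rw [hia]; exact hne
      rw [if_pos hia, if_neg hib, if_neg hib, hia, hr1.2, hr2]; ring
    · rw [if_neg hia]
      by_cases hib : i = b
      · rw [if_pos hib, hib, hr1.2, hr2]; ring
      · rw [if_neg hib, hr1.2]
  · rw [hv, if_neg hne.symm, if_neg hne]
    exact hr2

theorem rad_of_conj [Finite K] (a b : Fin n) (hab : (b : ℕ) = a + 1)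
    {u : SpecialLinearGroup (Fin n) K} (hu : u ∈ uniSub n K)
    (hv : tv b a (adj_ne hab).symm 1 * u * (tv b a (adj_ne hab).symm 1)⁻¹ ∈ uniSub n K) :
    tv b a (adj_ne hab).symm 1 * u * (tv b a (adj_ne hab).symm 1)⁻¹ ∈ radSub K a b hab := by
  obtain ⟨v, hv'⟩ : ∃ v, v = tv b a (adj_ne hab).symm 1 * u * (tv b a (adj_ne hab).symm 1)⁻¹ :=
    ⟨_, rfl⟩
  rw [← hv'] at hv ⊢
  have hvU : UT v.1 := hv
  have huU : UT u.1 := hu
  have e : v * tv b a (adj_ne hab).symm 1 = tv b a (adj_ne hab).symm 1 * u := by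
    rw [hv']; group
  have e1 : (v.1 * (transvection b a 1 : Matrix (Fin n) (Fin n) K)) a a =
      ((transvection b a 1 : Matrix (Fin n) (Fin n) K) * u.1) a a :=
    congrFun (congrFun (congrArg Subtype.val e) a) a
  rw [mul_transvection_apply_same, transvection_mul_apply_of_ne _ _ _ _ (adj_ne hab), hvU.2,
    huU.2, one_mul] at e1
  refine mem_radSub.2 ⟨hvU, ?_⟩
  have e2 : (1 : K) + v.1 a b = 1 + 0 := by rw [add_zero]; exact e1
  exact add_left_cancel e2

theorem rad_centralizer [Finite K] (hn : 3 ≤ n) (a b : Fin n) (hab : (b : ℕ) = a + 1)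
    {A : SpecialLinearGroup (Fin n) K} (hA : ∀ r ∈ radSub K a b hab, A * r = r * A) :
    (∀ i j : Fin n, j < i → A.1 i j = 0) ∧ A.1 a b = 0 ∧ ∀ i j : Fin n, A.1 i i = A.1 j j := by
  have hne : a ≠ b := adj_ne hab
  have hlt : a < b := adj_lt hab
  have hcm : ∀ (j k : Fin n) (hjk : j < k), ¬ (j = a ∧ k = b) →
      Commute (single j k (1 : K)) A.1 := by
    intro j k hjk hjk'
    apply commute_single_of_tv (ne_of_lt hjk)
    have hmem : tv j k (ne_of_lt hjk) 1 ∈ radSub K a b hab := by
      refine mem_radSub.2 ⟨ut_transvection hjk 1, ?_⟩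
      show (transvection j k (1 : K)) a b = 0
      unfold transvection
      rw [Matrix.add_apply, Matrix.one_apply_ne hne, Matrix.single_apply_of_ne _ _ _ _ _ hjk',
        add_zero]
    exact (hA _ hmem).symm
  obtain ⟨c, hc⟩ : ∃ c : Fin n, c < a ∨ b < c := by
    by_cases h0 : (a : ℕ) = 0
    · refine ⟨⟨2, by omega⟩, Or.inr ?_⟩
      rw [Fin.lt_def]
      show (b : ℕ) < 2
      omega
    · refine ⟨⟨0, by omega⟩, Or.inl ?_⟩
      rw [Fin.lt_def]
      show 0 < (a : ℕ)
      omega
  have hca : c ≠ a := by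
    rcases hc with h | h
    · exact ne_of_lt h
    · exact ne_of_gt (lt_trans hlt h)
  have hcb : c ≠ b := by
    rcases hc with h | h
    · exact ne_of_lt (lt_trans h hlt)
    · exact ne_of_gt h
  refine ⟨fun i j hji => ?_, ?_, ?_⟩
  · by_cases h : j = a ∧ i = b
    · rw [h.1, h.2]
      rcases hc with hc | hc
      · exact row_eq_zero_of_commute_single
          (hcm c b (lt_trans hc hlt) (fun h' => hca h'.1)) hne
      · exact col_eq_zero_of_commute_single
          (hcm a c (lt_trans hlt hc) (fun h' => hcb h'.2)) hne.symm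
    · exact col_eq_zero_of_commute_single (hcm j i hji h) (ne_of_gt hji)
  · rcases hc with hc | hc
    · exact row_eq_zero_of_commute_single (hcm c a hc (fun h' => hca h'.1)) hne.symm
    · exact col_eq_zero_of_commute_single (hcm b c hc (fun h' => hne h'.1.symm)) hne
  · have key : ∀ i : Fin n, A.1 i i = A.1 c c := by
      intro i
      by_cases hic : i = c
      · rw [hic]
      · rcases lt_or_gt_of_ne hic with h | h
        · exact Matrix.diag_eq_of_commute_single (hcm i c h (fun h' => hcb h'.2))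
        · exact (Matrix.diag_eq_of_commute_single (hcm c i h (fun h' => hca h'.1))).symm
    intro i j
    rw [key i, key j]

end UniTri6

end Cfsg.Agent.Helper25
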