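import Mathlib
import Cfsg.Agent.Helper25.UniTri6
import Cfsg.Agent.Helper25.RadCrit3

set_option autoImplicit false

namespace Cfsg.Agent.Helper25

open Matrix

section SpBasics

variable {m : ℕ} {K : Type*} [Field K]

/-- The symplectic group `Sp_{2m}(K)` as a type. -/
abbrev SpG (m : ℕ) (K : Type*) [Field K] : Type _ := ↥(Matrix.symplecticGroup (Fin m) K)

theorem sp_finite [Finite K] : Finite (SpG m K) := Subtype.finite

theorem ut_of_left_inv [Finite K] {n : ℕ} {A M : Matrix (Fin n) (Fin n) K} (hA : UT A)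
    (h : M * A = 1) : UT M := by
  obtain ⟨A', hA'⟩ : ∃ A' : SpecialLinearGroup (Fin n) K, A'.1 = A :=
    ⟨((uniEquiv n K).symm ⟨A, hA⟩).1, rfl⟩
  have h1 : UT (A'⁻¹).1 := ut_inv (by rw [hA']; exact hA)
  have h2 : A * (A'⁻¹).1 = 1 := by
    rw [← hA']; exact congrArg Subtype.val (mul_inv_cancel A')
  have h3 : M = (A'⁻¹).1 := by
    calc M = M * (A * (A'⁻¹).1) := by rw [h2, Matrix.mul_one]
      _ = (M * A) * (A'⁻¹).1 := by rw [Matrix.mul_assoc]
      _ = (A'⁻¹).1 := by rw [h, Matrix.one_mul]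
  rw [h3]; exact h1

/-- The ordering of the index set making the standard Borel subgroup upper triangular. -/
def spIdxFun (m : ℕ) : Fin m ⊕ Fin m → Fin (2 * m)
  | Sum.inl i => ⟨(i : ℕ), by have := i.2; omega⟩
  | Sum.inr i => ⟨2 * m - 1 - (i : ℕ), by have := i.2; omega⟩

/-- Inverse of `spIdxFun`. -/
def spIdxInv (m : ℕ) (k : Fin (2 * m)) : Fin m ⊕ Fin m :=
  if h : (k : ℕ) < m then Sum.inl ⟨(k : ℕ), h⟩
  else Sum.inr ⟨2 * m - 1 - (k : ℕ), by have := k.2; omega⟩

/-- The ordering of the index set making the standard Borel subgroup upper triangular. -/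
def spIdx (m : ℕ) : Fin m ⊕ Fin m ≃ Fin (2 * m) where
  toFun := spIdxFun m
  invFun := spIdxInv m
  left_inv := by
    rintro (i | i)
    · have h : ((spIdxFun m (Sum.inl i) : Fin (2 * m)) : ℕ) < m := i.2
      unfold spIdxInv
      rw [dif_pos h]
      rfl
    · have h : ¬ ((spIdxFun m (Sum.inr i) : Fin (2 * m)) : ℕ) < m := by
        show ¬ (2 * m - 1 - (i : ℕ) < m)
        have := i.2; omega
      unfold spIdxInv
      rw [dif_neg h]
      congr 1
      apply Fin.ext
      show 2 * m - 1 - (2 * m - 1 - (i : ℕ)) = i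
      have := i.2
      omega
  right_inv := by
    intro k
    unfold spIdxInv
    by_cases h : (k : ℕ) < m
    · rw [dif_pos h]; rfl
    · rw [dif_neg h]
      apply Fin.ext
      show 2 * m - 1 - (2 * m - 1 - (k : ℕ)) = k
      have := k.2
      omega

theorem spIdx_inl (i : Fin m) : ((spIdx m (Sum.inl i) : Fin (2 * m)) : ℕ) = i := rfl

theorem spIdx_inr (i : Fin m) : ((spIdx m (Sum.inr i) : Fin (2 * m)) : ℕ) = 2 * m - 1 - i := rfl

/-- `Sp_{2m}(K)` inside `SL_{2m}(K)`, with the reordered basis. -/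
def spRho (m : ℕ) (K : Type*) [Field K] : SpG m K →* SpecialLinearGroup (Fin (2 * m)) K where
  toFun g := ⟨g.1.submatrix (spIdx m).symm (spIdx m).symm, by
    rw [Matrix.det_submatrix_equiv_self]; exact SymplecticGroup.det_eq_one g.2⟩
  map_one' := by
    apply Subtype.ext
    show (1 : Matrix _ _ K).submatrix (spIdx m).symm (spIdx m).symm = 1
    exact Matrix.submatrix_one_equiv _
  map_mul' g h := by
    apply Subtype.ext
    show (g.1 * h.1).submatrix _ _ = g.1.submatrix _ _ * h.1.submatrix _ _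
    exact (Matrix.submatrix_mul_equiv _ _ _ _ _).symm

theorem spRho_apply (g : SpG m K) (a b : Fin (2 * m)) :
    (spRho m K g).1 a b = g.1 ((spIdx m).symm a) ((spIdx m).symm b) := rfl

theorem spRho_idx (g : SpG m K) (x y : Fin m ⊕ Fin m) :
    (spRho m K g).1 (spIdx m x) (spIdx m y) = g.1 x y := by
  rw [spRho_apply, Equiv.symm_apply_apply, Equiv.symm_apply_apply]

theorem spRho_injective : Function.Injective (spRho m K) := by
  intro g h e
  apply Subtype.ext
  ext x y
  rw [← spRho_idx g x y, ← spRho_idx h x y, e]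

theorem sp_blocks (g : SpG m K) :
    g.1 = fromBlocks g.1.toBlocks₁₁ g.1.toBlocks₁₂ g.1.toBlocks₂₁ g.1.toBlocks₂₂ :=
  (fromBlocks_toBlocks g.1).symm

theorem sp_rel (g : SpG m K) :
    g.1.toBlocks₁₁ᵀ * g.1.toBlocks₂₁ = g.1.toBlocks₂₁ᵀ * g.1.toBlocks₁₁ ∧
    g.1.toBlocks₁₂ᵀ * g.1.toBlocks₂₂ = g.1.toBlocks₂₂ᵀ * g.1.toBlocks₁₂ ∧
    g.1.toBlocks₁₁ᵀ * g.1.toBlocks₂₂ - g.1.toBlocks₂₁ᵀ * g.1.toBlocks₁₂ = 1 := by
  have h := g.2
  rw [sp_blocks g] at h
  exact SymplecticGroup.fromBlocks_mem_iff.1 h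

/-- The unipotent radical of the standard Borel subgroup of `Sp_{2m}(K)`. -/
def uSp (m : ℕ) (K : Type*) [Field K] [Finite K] : Subgroup (SpG m K) :=
  (uniSub (2 * m) K).comap (spRho m K)

theorem mem_uSp_iff [Finite K] {g : SpG m K} :
    g ∈ uSp m K ↔ g.1.toBlocks₂₁ = 0 ∧ UT g.1.toBlocks₁₁ := by
  constructor
  · intro h
    have h' : UT (spRho m K g).1 := h
    refine ⟨?_, ⟨fun i j hij => ?_, fun i => ?_⟩⟩
    · ext i j
      show g.1 (Sum.inr i) (Sum.inl j) = 0
      rw [← spRho_idx]
      apply h'.1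
      rw [Fin.lt_def, spIdx_inl, spIdx_inr]
      have := i.2
      have := j.2
      omega
    · show g.1 (Sum.inl i) (Sum.inl j) = 0
      rw [← spRho_idx]
      apply h'.1
      rw [Fin.lt_def, spIdx_inl, spIdx_inl]
      exact hij
    · show g.1 (Sum.inl i) (Sum.inl i) = 1
      rw [← spRho_idx]
      exact h'.2 _
  · rintro ⟨hC, hA⟩
    have hrel := (sp_rel g).2.2
    rw [hC, Matrix.transpose_zero, Matrix.zero_mul, sub_zero] at hrel
    have hD : UT g.1.toBlocks₂₂ᵀ := by
      apply ut_of_left_inv hA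
      have h1 := congrArg Matrix.transpose hrel
      rw [Matrix.transpose_mul, Matrix.transpose_transpose, Matrix.transpose_one] at h1
      exact h1
    show UT (spRho m K g).1
    refine ⟨fun a b hab => ?_, fun a => ?_⟩
    · rw [spRho_apply]
      rcases hx : (spIdx m).symm a with i | i <;> rcases hy : (spIdx m).symm b with j | j
      · have ha : a = spIdx m (Sum.inl i) := by rw [← hx, Equiv.apply_symm_apply]
        have hb : b = spIdx m (Sum.inl j) := by rw [← hy, Equiv.apply_symm_apply]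
        rw [ha, hb, Fin.lt_def, spIdx_inl, spIdx_inl] at hab
        exact hA.1 i j hab
      · have ha : a = spIdx m (Sum.inl i) := by rw [← hx, Equiv.apply_symm_apply]
        have hb : b = spIdx m (Sum.inr j) := by rw [← hy, Equiv.apply_symm_apply]
        rw [ha, hb, Fin.lt_def, spIdx_inl, spIdx_inr] at hab
        have := i.2
        have := j.2
        omega
      · have h2 := congrFun (congrFun hC i) j
        exact h2
      · have ha : a = spIdx m (Sum.inr i) := by rw [← hx, Equiv.apply_symm_apply]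
        have hb : b = spIdx m (Sum.inr j) := by rw [← hy, Equiv.apply_symm_apply]
        rw [ha, hb, Fin.lt_def, spIdx_inr, spIdx_inr] at hab
        have hij : i < j := by
          rw [Fin.lt_def]
          have := i.2
          have := j.2
          omega
        exact hD.1 j i hij
    · rw [spRho_apply]
      rcases hx : (spIdx m).symm a with i | i
      · exact hA.2 i
      · exact hD.2 i

end SpBasics

end Cfsg.Agent.Helper25
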