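import Mathlib
import Cfsg.Agent.Helper25.Sp1

set_option autoImplicit false

namespace Cfsg.Agent.Helper25

open Matrix

section Sp2

variable {m : ℕ} {K : Type*} [Field K]

theorem tb11_mul (M N : Matrix (Fin m ⊕ Fin m) (Fin m ⊕ Fin m) K) :
    (M * N).toBlocks₁₁ = M.toBlocks₁₁ * N.toBlocks₁₁ + M.toBlocks₁₂ * N.toBlocks₂₁ := by
  have h := congrArg toBlocks₁₁ (fromBlocks_multiply M.toBlocks₁₁ M.toBlocks₁₂ M.toBlocks₂₁
    M.toBlocks₂₂ N.toBlocks₁₁ N.toBlocks₁₂ N.toBlocks₂₁ N.toBlocks₂₂)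
  rw [fromBlocks_toBlocks, fromBlocks_toBlocks, toBlocks_fromBlocks₁₁] at h
  exact h

theorem tb21_mul (M N : Matrix (Fin m ⊕ Fin m) (Fin m ⊕ Fin m) K) :
    (M * N).toBlocks₂₁ = M.toBlocks₂₁ * N.toBlocks₁₁ + M.toBlocks₂₂ * N.toBlocks₂₁ := by
  have h := congrArg toBlocks₂₁ (fromBlocks_multiply M.toBlocks₁₁ M.toBlocks₁₂ M.toBlocks₂₁
    M.toBlocks₂₂ N.toBlocks₁₁ N.toBlocks₁₂ N.toBlocks₂₁ N.toBlocks₂₂)
  rw [fromBlocks_toBlocks, fromBlocks_toBlocks, toBlocks_fromBlocks₂₁] at h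
  exact h

theorem tb11_one : (1 : Matrix (Fin m ⊕ Fin m) (Fin m ⊕ Fin m) K).toBlocks₁₁ = 1 := by
  ext i j
  simp [toBlocks₁₁, Matrix.one_apply]

theorem tb21_one : (1 : Matrix (Fin m ⊕ Fin m) (Fin m ⊕ Fin m) K).toBlocks₂₁ = 0 := by
  ext i j
  simp [toBlocks₂₁, Matrix.one_apply]

theorem transvection_transpose' (i j : Fin m) (c : K) :
    (transvection i j c)ᵀ = transvection j i c := by
  unfold transvection
  rw [transpose_add, transpose_one, transpose_single]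

theorem sp_rel_upper {A B D : Matrix (Fin m) (Fin m) K}
    (h : fromBlocks A B 0 D ∈ Matrix.symplecticGroup (Fin m) K) :
    Aᵀ * D = 1 ∧ Bᵀ * D = Dᵀ * B := by
  obtain ⟨-, h2, h3⟩ := SymplecticGroup.fromBlocks_mem_iff.1 h
  rw [Matrix.transpose_zero, Matrix.zero_mul, sub_zero] at h3
  exact ⟨h3, h2⟩

/-- The Levi embedding `SL_m → Sp_{2m}`. -/
def dS (m : ℕ) (K : Type*) [Field K] : SpecialLinearGroup (Fin m) K →* SpG m K where
  toFun A := ⟨fromBlocks A.1 0 0 (A⁻¹).1ᵀ, by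
    rw [SymplecticGroup.fromBlocks_mem_iff]
    refine ⟨by simp, by simp, ?_⟩
    rw [Matrix.transpose_zero, Matrix.zero_mul, sub_zero, ← Matrix.transpose_mul]
    have h1 : (A⁻¹).1 * A.1 = 1 := congrArg Subtype.val (inv_mul_cancel A)
    rw [h1, Matrix.transpose_one]⟩
  map_one' := by
    apply Subtype.ext
    show fromBlocks (1 : SpecialLinearGroup (Fin m) K).1 0 0
      ((1 : SpecialLinearGroup (Fin m) K)⁻¹).1ᵀ = 1
    rw [inv_one]
    show fromBlocks (1 : Matrix (Fin m) (Fin m) K) 0 0 (1 : Matrix (Fin m) (Fin m) K)ᵀ = 1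
    rw [Matrix.transpose_one, Matrix.fromBlocks_one]
  map_mul' A B := by
    apply Subtype.ext
    show fromBlocks (A * B).1 0 0 ((A * B)⁻¹).1ᵀ =
      fromBlocks A.1 0 0 (A⁻¹).1ᵀ * fromBlocks B.1 0 0 (B⁻¹).1ᵀ
    rw [Matrix.fromBlocks_multiply, _root_.mul_inv_rev]
    have h1 : (B⁻¹ * A⁻¹).1ᵀ = (A⁻¹).1ᵀ * (B⁻¹).1ᵀ := by
      show ((B⁻¹).1 * (A⁻¹).1)ᵀ = _
      rw [Matrix.transpose_mul]
    rw [h1]
    simp only [Matrix.mul_zero, Matrix.zero_mul, add_zero, zero_add]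
    rfl

theorem dS_val (A : SpecialLinearGroup (Fin m) K) :
    (dS m K A).1 = fromBlocks A.1 0 0 (A⁻¹).1ᵀ := rfl

open Classical in
/-- The element `[[1, S], [0, 1]]` of `Sp_{2m}(K)` for symmetric `S` (and `1` otherwise). -/
noncomputable def nS (S : Matrix (Fin m) (Fin m) K) : SpG m K :=
  if h : Sᵀ = S then ⟨fromBlocks 1 S 0 1, by
    rw [SymplecticGroup.fromBlocks_mem_iff]
    refine ⟨by simp, by simp [h], by simp⟩⟩ else 1

theorem nS_val {S : Matrix (Fin m) (Fin m) K} (h : Sᵀ = S) : (nS S).1 = fromBlocks 1 S 0 1 := by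
  unfold nS
  rw [dif_pos h]

open Classical in
/-- The element `[[1, 0], [S, 1]]` of `Sp_{2m}(K)` for symmetric `S` (and `1` otherwise). -/
noncomputable def nL (S : Matrix (Fin m) (Fin m) K) : SpG m K :=
  if h : Sᵀ = S then ⟨fromBlocks 1 0 S 1, by
    rw [SymplecticGroup.fromBlocks_mem_iff]
    refine ⟨by simp [h], by simp, by simp⟩⟩ else 1

theorem nL_val {S : Matrix (Fin m) (Fin m) K} (h : Sᵀ = S) : (nL S).1 = fromBlocks 1 0 S 1 := by
  unfold nL
  rw [dif_pos h]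

theorem symm_add {S S' : Matrix (Fin m) (Fin m) K} (h : Sᵀ = S) (h' : S'ᵀ = S') :
    (S + S')ᵀ = S + S' := by
  rw [transpose_add, h, h']

theorem symm_neg {S : Matrix (Fin m) (Fin m) K} (h : Sᵀ = S) : (-S)ᵀ = -S := by
  rw [transpose_neg, h]

theorem symm_sub {S S' : Matrix (Fin m) (Fin m) K} (h : Sᵀ = S) (h' : S'ᵀ = S') :
    (S - S')ᵀ = S - S' := by
  rw [transpose_sub, h, h']

theorem symm_conj (A : Matrix (Fin m) (Fin m) K) {S : Matrix (Fin m) (Fin m) K} (h : Sᵀ = S) :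
    (A * S * Aᵀ)ᵀ = A * S * Aᵀ := by
  rw [transpose_mul, transpose_mul, transpose_transpose, h, Matrix.mul_assoc]

theorem symm_single (i : Fin m) (c : K) : (single i i c)ᵀ = single i i c := transpose_single i i c

theorem symm_pair (i j : Fin m) (c : K) :
    (single i j c + single j i c)ᵀ = single i j c + single j i c := by
  rw [transpose_add, transpose_single, transpose_single, add_comm]

theorem nS_zero : nS (0 : Matrix (Fin m) (Fin m) K) = 1 := by
  apply Subtype.ext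
  rw [nS_val (transpose_zero)]
  exact Matrix.fromBlocks_one

theorem nS_mul {S S' : Matrix (Fin m) (Fin m) K} (h : Sᵀ = S) (h' : S'ᵀ = S') :
    nS S * nS S' = nS (S + S') := by
  apply Subtype.ext
  show (nS S).1 * (nS S').1 = _
  rw [nS_val h, nS_val h', nS_val (symm_add h h'), Matrix.fromBlocks_multiply]
  simp [add_comm]

theorem nS_inv {S : Matrix (Fin m) (Fin m) K} (h : Sᵀ = S) : (nS S)⁻¹ = nS (-S) := by
  apply inv_eq_of_mul_eq_one_right
  rw [nS_mul h (symm_neg h), add_neg_cancel, nS_zero]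

theorem nS_inj {S S' : Matrix (Fin m) (Fin m) K} (h : Sᵀ = S) (h' : S'ᵀ = S')
    (e : nS S = nS S') : S = S' := by
  have h1 : (nS S).1 = (nS S').1 := by rw [e]
  rw [nS_val h, nS_val h', Matrix.fromBlocks_inj] at h1
  exact h1.2.1

theorem nL_zero : nL (0 : Matrix (Fin m) (Fin m) K) = 1 := by
  apply Subtype.ext
  rw [nL_val (transpose_zero)]
  exact Matrix.fromBlocks_one

theorem nL_mul {S S' : Matrix (Fin m) (Fin m) K} (h : Sᵀ = S) (h' : S'ᵀ = S') :
    nL S * nL S' = nL (S + S') := by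
  apply Subtype.ext
  show (nL S).1 * (nL S').1 = _
  rw [nL_val h, nL_val h', nL_val (symm_add h h'), Matrix.fromBlocks_multiply]
  simp [add_comm]

theorem nL_inv {S : Matrix (Fin m) (Fin m) K} (h : Sᵀ = S) : (nL S)⁻¹ = nL (-S) := by
  apply inv_eq_of_mul_eq_one_right
  rw [nL_mul h (symm_neg h), add_neg_cancel, nL_zero]

/-- The Siegel parabolic subgroup: vanishing lower left block. -/
def pSp (m : ℕ) (K : Type*) [Field K] [Finite K] : Subgroup (SpG m K) where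
  carrier := {g | g.1.toBlocks₂₁ = 0}
  mul_mem' := by
    intro g h hg hh
    show (g.1 * h.1).toBlocks₂₁ = 0
    rw [tb21_mul, show g.1.toBlocks₂₁ = 0 from hg, show h.1.toBlocks₂₁ = 0 from hh,
      Matrix.zero_mul, Matrix.mul_zero, add_zero]
  one_mem' := tb21_one
  inv_mem' := by
    intro g hg
    haveI : Finite (SpG m K) := sp_finite
    have h1 : g⁻¹ = g ^ (orderOf g - 1) := by
      rw [inv_eq_iff_mul_eq_one, ← pow_succ', Nat.sub_add_cancel (orderOf_pos g),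
        pow_orderOf_eq_one]
    rw [h1]
    have h2 : ∀ k : ℕ, (g ^ k).1.toBlocks₂₁ = 0 := by
      intro k
      induction k with
      | zero => rw [pow_zero]; exact tb21_one
      | succ k ih =>
        rw [pow_succ]
        show ((g ^ k).1 * g.1).toBlocks₂₁ = 0
        rw [tb21_mul, ih, show g.1.toBlocks₂₁ = 0 from hg, Matrix.zero_mul, Matrix.mul_zero,
          add_zero]
    exact h2 _

theorem mem_pSp [Finite K] {g : SpG m K} : g ∈ pSp m K ↔ g.1.toBlocks₂₁ = 0 := Iff.rfl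

theorem blkA_mul [Finite K] (g : SpG m K) {h : SpG m K} (hh : h ∈ pSp m K) :
    (g * h).1.toBlocks₁₁ = g.1.toBlocks₁₁ * h.1.toBlocks₁₁ := by
  show (g.1 * h.1).toBlocks₁₁ = _
  rw [tb11_mul, mem_pSp.1 hh, Matrix.mul_zero, add_zero]

theorem blkA_inv_mul [Finite K] {g : SpG m K} (hg : g ∈ pSp m K) :
    (g⁻¹).1.toBlocks₁₁ * g.1.toBlocks₁₁ = 1 := by
  rw [← blkA_mul g⁻¹ hg, inv_mul_cancel]
  exact tb11_one

theorem blkA_mul_inv [Finite K] {g : SpG m K} (hg : g ∈ pSp m K) :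
    g.1.toBlocks₁₁ * (g⁻¹).1.toBlocks₁₁ = 1 := by
  rw [← blkA_mul g (inv_mem hg), mul_inv_cancel]
  exact tb11_one

theorem pSp_form [Finite K] {g : SpG m K} (hg : g ∈ pSp m K) :
    g.1 = fromBlocks g.1.toBlocks₁₁ g.1.toBlocks₁₂ 0 g.1.toBlocks₂₂ := by
  have h := sp_blocks g
  rw [mem_pSp.1 hg] at h
  exact h

theorem uSp_le_pSp [Finite K] : uSp m K ≤ pSp m K := fun _ h => (mem_uSp_iff.1 h).1

theorem dS_mem_pSp [Finite K] (A : SpecialLinearGroup (Fin m) K) : dS m K A ∈ pSp m K := by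
  rw [mem_pSp, dS_val, toBlocks_fromBlocks₂₁]

theorem dS_blkA (A : SpecialLinearGroup (Fin m) K) : (dS m K A).1.toBlocks₁₁ = A.1 := by
  rw [dS_val, toBlocks_fromBlocks₁₁]

theorem dS_mem_uSp [Finite K] {A : SpecialLinearGroup (Fin m) K} (hA : UT A.1) :
    dS m K A ∈ uSp m K := by
  rw [mem_uSp_iff, dS_val, toBlocks_fromBlocks₂₁, toBlocks_fromBlocks₁₁]
  exact ⟨rfl, hA⟩

/-- The unipotent radical of the Siegel parabolic. -/
def vSp (m : ℕ) (K : Type*) [Field K] [Finite K] : Subgroup (SpG m K) where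
  carrier := {g | g.1.toBlocks₂₁ = 0 ∧ g.1.toBlocks₁₁ = 1}
  mul_mem' := by
    rintro g h ⟨hg1, hg2⟩ ⟨hh1, hh2⟩
    refine ⟨(pSp m K).mul_mem hg1 hh1, ?_⟩
    rw [blkA_mul g hh1, hg2, hh2, Matrix.mul_one]
  one_mem' := ⟨tb21_one, tb11_one⟩
  inv_mem' := by
    rintro g ⟨hg1, hg2⟩
    refine ⟨(pSp m K).inv_mem hg1, ?_⟩
    have h1 := blkA_inv_mul (g := g) hg1
    rw [hg2, Matrix.mul_one] at h1
    exact h1

theorem mem_vSp [Finite K] {g : SpG m K} :
    g ∈ vSp m K ↔ g.1.toBlocks₂₁ = 0 ∧ g.1.toBlocks₁₁ = 1 := Iff.rfl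

theorem vSp_le_uSp [Finite K] : vSp m K ≤ uSp m K := by
  intro g hg
  rw [mem_uSp_iff]
  refine ⟨hg.1, ?_⟩
  rw [hg.2]
  exact ut_one

theorem nS_mem_vSp [Finite K] (S : Matrix (Fin m) (Fin m) K) : nS S ∈ vSp m K := by
  by_cases h : Sᵀ = S
  · rw [mem_vSp, nS_val h, toBlocks_fromBlocks₂₁, toBlocks_fromBlocks₁₁]
    exact ⟨rfl, rfl⟩
  · have h1 : nS S = 1 := by
      unfold nS
      rw [dif_neg h]
    rw [h1]
    exact Subgroup.one_mem _

theorem mem_vSp_iff_nS [Finite K] {g : SpG m K} :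
    g ∈ vSp m K ↔ ∃ S : Matrix (Fin m) (Fin m) K, Sᵀ = S ∧ g = nS S := by
  constructor
  · rintro ⟨hC, hA⟩
    have hform := pSp_form (g := g) hC
    rw [hA] at hform
    have hmem := g.2
    rw [hform] at hmem
    obtain ⟨h1, h2⟩ := sp_rel_upper hmem
    rw [Matrix.transpose_one, Matrix.one_mul] at h1
    rw [h1, Matrix.mul_one, Matrix.transpose_one, Matrix.one_mul] at h2
    refine ⟨g.1.toBlocks₁₂, h2, ?_⟩
    apply Subtype.ext
    rw [nS_val h2]
    rw [h1] at hform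
    exact hform
  · rintro ⟨S, -, rfl⟩
    exact nS_mem_vSp S

/-- Conjugating `n(S)` by an element of the Siegel parabolic. -/
theorem pSp_conj_nS [Finite K] {g : SpG m K} (hg : g ∈ pSp m K)
    {S : Matrix (Fin m) (Fin m) K} (hS : Sᵀ = S) :
    g * nS S * g⁻¹ = nS (g.1.toBlocks₁₁ * S * g.1.toBlocks₁₁ᵀ) := by
  obtain ⟨A, hA⟩ : ∃ A, A = g.1.toBlocks₁₁ := ⟨_, rfl⟩
  obtain ⟨B, hB⟩ : ∃ B, B = g.1.toBlocks₁₂ := ⟨_, rfl⟩
  obtain ⟨D, hD⟩ : ∃ D, D = g.1.toBlocks₂₂ := ⟨_, rfl⟩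
  have hform : g.1 = fromBlocks A B 0 D := by
    rw [hA, hB, hD]; exact pSp_form hg
  have hmem := g.2
  rw [hform] at hmem
  obtain ⟨h1, -⟩ := sp_rel_upper hmem
  rw [← hA, mul_inv_eq_iff_eq_mul]
  apply Subtype.ext
  show g.1 * (nS S).1 = (nS _).1 * g.1
  rw [nS_val hS, nS_val (symm_conj _ hS), hform, Matrix.fromBlocks_multiply,
    Matrix.fromBlocks_multiply]
  simp only [Matrix.mul_one, Matrix.mul_zero, add_zero, Matrix.zero_mul, zero_add,
    Matrix.one_mul]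
  rw [Matrix.mul_assoc (A * S), h1, Matrix.mul_one, add_comm]

theorem dS_conj_nS [Finite K] (X : SpecialLinearGroup (Fin m) K)
    {S : Matrix (Fin m) (Fin m) K} (hS : Sᵀ = S) :
    dS m K X * nS S * (dS m K X)⁻¹ = nS (X.1 * S * X.1ᵀ) := by
  rw [pSp_conj_nS (dS_mem_pSp X) hS, dS_blkA]

/-- Conjugating a short root element of `V` by a lower long root element. -/
theorem nL_conj_short {i j : Fin m} (hij : i ≠ j) (c : K) :
    (nL (single j j (1 : K)) * nS (single i j c + single j i c) *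
        (nL (single j j (1 : K)))⁻¹).1 =
      fromBlocks (tv i j hij (-c)).1 (single i j c + single j i c) 0 (1 + single j i c) := by
  rw [nL_inv (symm_single j 1)]
  show (nL (single j j (1 : K))).1 * (nS (single i j c + single j i c)).1 *
    (nL (-single j j (1 : K))).1 = _
  rw [nL_val (symm_single j 1), nS_val (symm_pair i j c), nL_val (symm_neg (symm_single j 1)),
    Matrix.fromBlocks_multiply, Matrix.fromBlocks_multiply]
  simp only [Matrix.mul_one, Matrix.mul_zero, add_zero, Matrix.zero_mul, zero_add,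
    Matrix.one_mul, Matrix.mul_neg, Matrix.add_mul, Matrix.mul_add,
    single_mul_single_same, single_mul_single_of_ne _ _ _ _ hij,
    single_mul_single_of_ne _ _ _ _ hij.symm, mul_one, one_mul, neg_zero, add_neg_cancel,
    neg_add_cancel]
  have h1 : (tv i j hij (-c)).1 = 1 + -single i j c := by
    show transvection i j (-c) = _
    unfold transvection
    rw [single_neg]
  rw [h1, add_comm (single j i c) 1]

end Sp2

end Cfsg.Agent.Helper25
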