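import Mathlib
import Cfsg.Agent.Helper25.Sp2

set_option autoImplicit false

namespace Cfsg.Agent.Helper25

open Matrix

section Sp3

variable {m : ℕ} {K : Type*} [Field K]

/-- Generalized form of `upper_of_norm`: only some unitriangular elements are used. -/
theorem upper_of_norm_gen {n : ℕ} {A : SpecialLinearGroup (Fin n) K}
    (h : ∀ b i : Fin n, b < i → ∃ u v : SpecialLinearGroup (Fin n) K, UT v.1 ∧ v * A = A * u ∧
      ∀ k, u.1 k i = (if k = i then 1 else 0) + (if k = b then 1 else 0)) :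
    ∀ i j : Fin n, j < i → A.1 i j = 0 := by
  have key : ∀ d : ℕ, ∀ i : Fin n, n ≤ (i : ℕ) + d → ∀ b : Fin n, b < i → A.1 i b = 0 := by
    intro d
    induction d with
    | zero => intro i hi; exact absurd i.2 (by omega)
    | succ d ih =>
      intro i hi b hb
      obtain ⟨u, v, hv, e, hcol⟩ := h b i hb
      have e1 : (v.1 * A.1) i i = (A.1 * u.1) i i :=
        congrFun (congrFun (congrArg Subtype.val e) i) i
      have e2 : (A.1 * u.1) i i = A.1 i i + A.1 i b := by
        rw [Matrix.mul_apply]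
        simp_rw [hcol, mul_add, mul_ite, mul_one, mul_zero]
        rw [Finset.sum_add_distrib, Finset.sum_ite_eq', Finset.sum_ite_eq']
        simp
      rw [e2, Matrix.mul_apply, Finset.sum_eq_single i] at e1
      · rw [hv.2, one_mul] at e1
        have e3 : A.1 i i + 0 = A.1 i i + A.1 i b := by rw [add_zero]; exact e1
        exact (add_left_cancel e3).symm
      · intro k _ hk
        rcases lt_or_gt_of_ne hk with h1 | h1
        · rw [hv.1 i k h1, zero_mul]
        · rw [ih k (by rw [Fin.lt_def] at h1; omega) i h1, mul_zero]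
      · intro h1; exact absurd (Finset.mem_univ i) h1
  intro i j hij
  exact key n i (by omega) j hij

theorem upper_pow_diag {n : ℕ} {M : Matrix (Fin n) (Fin n) K}
    (hM : ∀ i j : Fin n, j < i → M i j = 0) (k : ℕ) :
    (∀ i j : Fin n, j < i → (M ^ k) i j = 0) ∧ ∀ i : Fin n, (M ^ k) i i = (M i i) ^ k := by
  induction k with
  | zero =>
    refine ⟨fun i j hij => ?_, fun i => ?_⟩
    · rw [pow_zero, Matrix.one_apply_ne (ne_of_gt hij)]
    · rw [pow_zero, pow_zero, Matrix.one_apply_eq]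
  | succ k ih =>
    refine ⟨fun i j hij => ?_, fun i => ?_⟩
    · rw [pow_succ, Matrix.mul_apply]
      apply Finset.sum_eq_zero
      intro l _
      by_cases hl : l < i
      · rw [ih.1 i l hl, zero_mul]
      · rw [hM l j (lt_of_lt_of_le hij (not_lt.1 hl)), mul_zero]
    · rw [pow_succ, Matrix.mul_apply, Finset.sum_eq_single i]
      · rw [ih.2, pow_succ]
      · intro l _ hl
        rcases lt_or_gt_of_ne hl with h1 | h1
        · rw [ih.1 i l h1, zero_mul]
        · rw [hM l i h1, mul_zero]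
      · intro h1; exact absurd (Finset.mem_univ i) h1

theorem ut_of_upper_pElt {n : ℕ} (p : ℕ) [Fact p.Prime] [CharP K p]
    {A : SpecialLinearGroup (Fin n) K} (hup : ∀ i j : Fin n, j < i → A.1 i j = 0) {k : ℕ}
    (h : A ^ p ^ k = 1) : UT A.1 := by
  refine ⟨hup, fun i => ?_⟩
  apply eq_one_of_pow_char p (m := k)
  rw [← (upper_pow_diag hup (p ^ k)).2 i]
  have h1 : A.1 ^ p ^ k = (A ^ p ^ k).1 := (Matrix.SpecialLinearGroup.coe_pow _ _).symm
  rw [h1, h]
  exact Matrix.one_apply_eq i

/-- Root elements of `uSp` with a prescribed column. -/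
theorem sp_col_elt [Finite K] (x y : Fin m ⊕ Fin m) (hxy : spIdx m x < spIdx m y) :
    ∃ r ∈ uSp m K, ∀ z, r.1 z y = (if z = y then 1 else 0) + (if z = x then 1 else 0) := by
  rcases x with b | b <;> rcases y with i | i
  · rw [Fin.lt_def, spIdx_inl, spIdx_inl] at hxy
    have hbi : b < i := hxy
    refine ⟨dS m K (tv b i (ne_of_lt hbi) 1), dS_mem_uSp (ut_transvection hbi 1), ?_⟩
    rintro (k | k)
    · rw [dS_val, fromBlocks_apply₁₁, tv_val]
      unfold transvection
      rw [Matrix.add_apply, Matrix.one_apply, Matrix.single_apply]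
      simp [eq_comm]
    · rw [dS_val, fromBlocks_apply₂₁]
      simp
  · by_cases hbi : b = i
    · subst hbi
      refine ⟨nS (single b b 1), vSp_le_uSp (nS_mem_vSp _), ?_⟩
      rintro (k | k)
      · rw [nS_val (symm_single b 1), fromBlocks_apply₁₂, Matrix.single_apply]
        simp [eq_comm]
      · rw [nS_val (symm_single b 1), fromBlocks_apply₂₂, Matrix.one_apply]
        simp
    · refine ⟨nS (single b i 1 + single i b 1), vSp_le_uSp (nS_mem_vSp _), ?_⟩
      rintro (k | k)
      · rw [nS_val (symm_pair b i 1), fromBlocks_apply₁₂, Matrix.add_apply, Matrix.single_apply,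
          Matrix.single_apply]
        simp [eq_comm, hbi]
      · rw [nS_val (symm_pair b i 1), fromBlocks_apply₂₂, Matrix.one_apply]
        simp
  · rw [Fin.lt_def, spIdx_inl, spIdx_inr] at hxy
    have := b.2
    have := i.2
    omega
  · rw [Fin.lt_def, spIdx_inr, spIdx_inr] at hxy
    have hib : i < b := by
      rw [Fin.lt_def]
      have := b.2
      have := i.2
      omega
    refine ⟨dS m K (tv i b (ne_of_lt hib) (-1)), dS_mem_uSp (ut_transvection hib _), ?_⟩
    have hD : ((tv i b (ne_of_lt hib) (-1 : K))⁻¹).1ᵀ = transvection b i 1 := by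
      rw [tv_inv, neg_neg, tv_val, transvection_transpose']
    rintro (k | k)
    · rw [dS_val, fromBlocks_apply₁₂]
      simp
    · rw [dS_val, fromBlocks_apply₂₂, hD]
      unfold transvection
      rw [Matrix.add_apply, Matrix.one_apply, Matrix.single_apply]
      simp [eq_comm]

theorem sp_upper_of_norm [Finite K] {g : SpG m K}
    (h : ∀ u ∈ uSp m K, g * u * g⁻¹ ∈ uSp m K) :
    ∀ a b : Fin (2 * m), b < a → (spRho m K g).1 a b = 0 := by
  apply upper_of_norm_gen
  intro b i hbi
  obtain ⟨r, hr, hcol⟩ := sp_col_elt (K := K) ((spIdx m).symm b) ((spIdx m).symm i)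
    (by rw [Equiv.apply_symm_apply, Equiv.apply_symm_apply]; exact hbi)
  have hv : UT (spRho m K (g * r * g⁻¹)).1 := h r hr
  refine ⟨spRho m K r, spRho m K (g * r * g⁻¹), hv, ?_, ?_⟩
  · rw [← map_mul, ← map_mul]
    congr 1
    group
  · intro k
    rw [spRho_apply, hcol]
    simp only [(spIdx m).symm.injective.eq_iff]

theorem uSp_isPGroup [Finite K] (p : ℕ) [Fact p.Prime] [CharP K p] : IsPGroup p (uSp m K) :=
  (uni_isPGroup (n := 2 * m) (K := K) p).comap_of_injective (spRho m K) spRho_injective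

theorem uSp_pElt_mem [Finite K] (p : ℕ) [Fact p.Prime] [CharP K p] {g : SpG m K}
    (hg : g ∈ Subgroup.normalizer ((uSp m K : Subgroup (SpG m K)) : Set (SpG m K))) {k : ℕ}
    (hk : g ^ p ^ k = 1) : g ∈ uSp m K := by
  show UT (spRho m K g).1
  apply ut_of_upper_pElt p (sp_upper_of_norm (fun u hu => (Subgroup.mem_normalizer_iff.1 hg u).1 hu))
    (k := k)
  rw [← map_pow, hk, map_one]

theorem uSp_sylow [Finite K] (p : ℕ) [Fact p.Prime] [CharP K p] :
    ∃ P : Sylow p (SpG m K), (P : Subgroup (SpG m K)) = uSp m K := by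
  haveI : Finite (SpG m K) := sp_finite
  exact sylow_of_pElts (uSp_isPGroup p) (fun g hg ⟨k, hk⟩ => uSp_pElt_mem p hg hk)

/-- A central `p`-element of `Sp_{2m}(K)` is trivial. -/
theorem sp_center_pElt [Finite K] (p : ℕ) [Fact p.Prime] [CharP K p] {z : SpG m K}
    (hz : z ∈ Subgroup.center (SpG m K)) {k : ℕ} (hk : z ^ p ^ k = 1) : z = 1 := by
  have hzN : z ∈ Subgroup.normalizer ((uSp m K : Subgroup (SpG m K)) : Set (SpG m K)) := by
    rw [Subgroup.mem_normalizer_iff]
    intro h
    have h1 : z * h * z⁻¹ = h := by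
      rw [← Subgroup.mem_center_iff.1 hz h, mul_inv_cancel_right]
    rw [h1]
  have hzU := uSp_pElt_mem p hzN hk
  obtain ⟨hC, hA⟩ := mem_uSp_iff.1 hzU
  obtain ⟨A, hA'⟩ : ∃ A, A = z.1.toBlocks₁₁ := ⟨_, rfl⟩
  obtain ⟨B, hB'⟩ : ∃ B, B = z.1.toBlocks₁₂ := ⟨_, rfl⟩
  obtain ⟨D, hD'⟩ : ∃ D, D = z.1.toBlocks₂₂ := ⟨_, rfl⟩
  have hform : z.1 = fromBlocks A B 0 D := by
    rw [hA', hB', hD']; exact pSp_form (uSp_le_pSp hzU)
  rw [← hA'] at hA
  have hJ : (SymplecticGroup.symJ (Fin m) K) * z = z * (SymplecticGroup.symJ (Fin m) K) :=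
    Subgroup.mem_center_iff.1 hz _
  have hJ' : J (Fin m) K * z.1 = z.1 * J (Fin m) K := congrArg Subtype.val hJ
  rw [hform] at hJ'
  unfold J at hJ'
  rw [Matrix.fromBlocks_multiply, Matrix.fromBlocks_multiply, Matrix.fromBlocks_inj] at hJ'
  simp only [Matrix.mul_one, Matrix.mul_zero, add_zero, Matrix.zero_mul, zero_add,
    Matrix.one_mul, Matrix.mul_neg, Matrix.neg_mul, neg_zero] at hJ'
  obtain ⟨hB0, -, hAD, -⟩ := hJ'
  have hmem := z.2
  rw [hform] at hmem
  obtain ⟨h1, -⟩ := sp_rel_upper hmem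
  rw [← hAD] at h1
  have hAt : UT Aᵀ := ut_of_left_inv hA h1
  have hA1 : A = 1 := by
    ext i j
    rcases lt_trichotomy i j with h | h | h
    · have h2 := hAt.1 j i h
      rw [Matrix.transpose_apply] at h2
      rw [h2, Matrix.one_apply_ne (ne_of_lt h)]
    · subst h; rw [hA.2, Matrix.one_apply_eq]
    · rw [hA.1 i j h, Matrix.one_apply_ne (ne_of_gt h)]
  apply Subtype.ext
  rw [hform, ← hAD, hA1, ← hB0]
  exact Matrix.fromBlocks_one

end Sp3

end Cfsg.Agent.Helper25
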