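import Mathlib
import Cfsg.Agent.Helper25.Sp3

set_option autoImplicit false

namespace Cfsg.Agent.Helper25

open Matrix

section Sp4a

variable {m : ℕ} {K : Type*} [Field K]

theorem conj_long_tv {k o : Fin m} (hko : k ≠ o) (c : K) :
    transvection k o 1 * single o o c * (transvection k o (1 : K))ᵀ =
      single o o c + (single k o c + single o k c + single k k c) := by
  rw [transvection_transpose']
  unfold transvection
  simp only [Matrix.mul_add, Matrix.add_mul, Matrix.mul_one, Matrix.one_mul,
    single_mul_single_same, single_mul_single_of_ne _ _ _ _ hko,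
    single_mul_single_of_ne _ _ _ _ hko.symm, mul_one, one_mul, add_zero, zero_add]
  abel

theorem conj_S1 {k o : Fin m} (hko : k ≠ o) (c : K) :
    transvection o k 1 * (single k o c + single o k c + single k k c) *
        (transvection o k (1 : K))ᵀ =
      (single k o c + single o k c + single k k c) +
        (single o o c + single o o c + single o o c + (single o k c + single k o c)) := by
  rw [transvection_transpose']
  unfold transvection
  simp only [Matrix.mul_add, Matrix.add_mul, Matrix.mul_one, Matrix.one_mul,
    single_mul_single_same, single_mul_single_of_ne _ _ _ _ hko,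
    single_mul_single_of_ne _ _ _ _ hko.symm, mul_one, one_mul, add_zero, zero_add]
  abel

theorem conj_pair {k l o : Fin m} (hko : k ≠ o) (hlo : l ≠ o) (hkl : k ≠ l) (c : K) :
    transvection l o 1 * (single k o c + single o k c) * (transvection l o (1 : K))ᵀ =
      (single k o c + single o k c) + (single k l c + single l k c) := by
  rw [transvection_transpose']
  unfold transvection
  simp only [Matrix.mul_add, Matrix.add_mul, Matrix.mul_one, Matrix.one_mul,
    single_mul_single_same, single_mul_single_of_ne _ _ _ _ hko,
    single_mul_single_of_ne _ _ _ _ hko.symm, single_mul_single_of_ne _ _ _ _ hlo,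
    single_mul_single_of_ne _ _ _ _ hlo.symm, single_mul_single_of_ne _ _ _ _ hkl,
    single_mul_single_of_ne _ _ _ _ hkl.symm, mul_one, one_mul, add_zero, zero_add]
  abel

theorem conj_S0 {o i1 i2 : Fin m} (h01 : o ≠ i1) (h02 : o ≠ i2) (h12 : i1 ≠ i2) (a b : K) :
    transvection i2 i1 1 * (single o o a + (single o i1 b + single i1 o b)) *
        (transvection i2 i1 (1 : K))ᵀ =
      (single o o a + (single o i1 b + single i1 o b)) + (single o i2 b + single i2 o b) := by
  rw [transvection_transpose']
  unfold transvection
  simp only [Matrix.mul_add, Matrix.add_mul, Matrix.mul_one, Matrix.one_mul,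
    single_mul_single_same, single_mul_single_of_ne _ _ _ _ h01,
    single_mul_single_of_ne _ _ _ _ h01.symm, single_mul_single_of_ne _ _ _ _ h02,
    single_mul_single_of_ne _ _ _ _ h02.symm, single_mul_single_of_ne _ _ _ _ h12,
    single_mul_single_of_ne _ _ _ _ h12.symm, mul_one, one_mul, add_zero, zero_add]
  abel

theorem conj_Ejj {i j : Fin m} (hij : i ≠ j) (c : K) :
    transvection i j (-c) * single j j 1 * (transvection i j (-c))ᵀ =
      single j j 1 + (single i j (-c) + single j i (-c) + single i i (c * c)) := by
  rw [transvection_transpose']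
  unfold transvection
  simp only [Matrix.mul_add, Matrix.add_mul, Matrix.mul_one, Matrix.one_mul,
    single_mul_single_same, single_mul_single_of_ne _ _ _ _ hij,
    single_mul_single_of_ne _ _ _ _ hij.symm, mul_one, one_mul, add_zero, zero_add,
    neg_mul_neg]
  abel

theorem conj_diag_S0 {o i1 : Fin m} (h01 : o ≠ i1) (l : K) (hl : l ≠ 0) (a b : K) :
    diagonal (dvec o i1 l) * (single o o a + (single o i1 b + single i1 o b)) *
        (diagonal (dvec o i1 l))ᵀ =
      single o o (l * l * a) + (single o i1 b + single i1 o b) := by
  rw [Matrix.diagonal_transpose]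
  ext r x
  rw [Matrix.mul_diagonal, Matrix.diagonal_mul]
  simp only [Matrix.add_apply, Matrix.single_apply, dvec, Function.update_apply, Pi.one_apply]
  by_cases hr : r = o
  · subst hr
    by_cases hx : x = r
    · subst hx
      simp [h01, h01.symm]
      ring
    · by_cases hx1 : x = i1
      · subst hx1
        simp [h01, h01.symm, hx]
        field_simp
      · simp [h01, h01.symm, hx, hx1, Ne.symm hx, Ne.symm hx1]
  · by_cases hr1 : r = i1
    · subst hr1
      by_cases hx : x = o
      · subst hx
        simp [h01, h01.symm, hr]
        field_simp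
      · simp [h01, h01.symm, hr, hx, Ne.symm hx, Ne.symm hr]
    · simp [h01, h01.symm, hr, hr1, Ne.symm hr, Ne.symm hr1]

/-- Symmetric matrices are sums of the elementary symmetric matrices. -/
theorem symm_mem_of_gens (W : AddSubgroup (Matrix (Fin m) (Fin m) K))
    (hd : ∀ (i : Fin m) (c : K), single i i c ∈ W)
    (hp : ∀ i j : Fin m, i ≠ j → ∀ c : K, single i j c + single j i c ∈ W)
    {S : Matrix (Fin m) (Fin m) K} (hS : Sᵀ = S) : S ∈ W := by
  have hsym : ∀ i j, S j i = S i j := fun i j => by
    have h1 := congrFun (congrFun hS i) j
    rw [Matrix.transpose_apply] at h1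
    exact h1
  have h2 : ∀ i j : Fin m, single i j (S i j) =
      (if i ≤ j then single i j (S i j) else 0) + (if j < i then single i j (S i j) else 0) := by
    intro i j
    by_cases h : i ≤ j
    · rw [if_pos h, if_neg (not_lt.2 h), add_zero]
    · rw [if_neg h, if_pos (not_le.1 h), zero_add]
  have h3 : ∑ i : Fin m, ∑ j : Fin m, ((if i ≤ j then single i j (S i j) else 0) +
      (if i < j then single j i (S i j) else 0)) =
      ∑ i : Fin m, ∑ j : Fin m, (if i ≤ j then single i j (S i j) else 0) +
        ∑ i : Fin m, ∑ j : Fin m, (if j < i then single i j (S i j) else 0) := by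
    simp only [Finset.sum_add_distrib]
    congr 1
    rw [Finset.sum_comm]
    apply Finset.sum_congr rfl
    intro i _
    apply Finset.sum_congr rfl
    intro j _
    rw [hsym i j]
  have h1 : S = ∑ i, ∑ j, ((if i ≤ j then single i j (S i j) else 0) +
      (if i < j then single j i (S i j) else 0)) := by
    rw [h3, ← Finset.sum_add_distrib]
    conv_lhs => rw [Matrix.matrix_eq_sum_single S]
    apply Finset.sum_congr rfl
    intro i _
    rw [← Finset.sum_add_distrib]
    apply Finset.sum_congr rfl
    intro j _
    exact h2 i j
  rw [h1]
  apply AddSubgroup.sum_mem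
  intro i _
  apply AddSubgroup.sum_mem
  intro j _
  rcases lt_trichotomy i j with h | h | h
  · rw [if_pos h.le, if_pos h]
    exact hp i j (ne_of_lt h) _
  · subst h
    rw [if_pos le_rfl, if_neg (lt_irrefl _), add_zero]
    exact hd i _
  · rw [if_neg (not_le.2 h), if_neg (not_lt.2 h.le), add_zero]
    exact W.zero_mem

end Sp4a

end Cfsg.Agent.Helper25
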