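import Mathlib
import Cfsg.Agent.Helper25.Sp4a
import Cfsg.Agent.S0065

set_option autoImplicit false

namespace Cfsg.Agent.Helper25

open Matrix

section Sp4

variable {m : ℕ} {K : Type*} [Field K]

theorem single_sub' (i j : Fin m) (a b : K) :
    single i j (a - b) = single i j a - single i j b := by
  rw [sub_eq_add_neg, single_add, ← single_neg, ← sub_eq_add_neg]

/-- Symmetric matrices whose `n(S)` lies in `T`. -/
def wSub [Finite K] (T : Subgroup (SpG m K)) : AddSubgroup (Matrix (Fin m) (Fin m) K) where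
  carrier := {S | Sᵀ = S ∧ nS S ∈ T}
  add_mem' := by
    rintro S S' ⟨h1, h2⟩ ⟨h1', h2'⟩
    refine ⟨symm_add h1 h1', ?_⟩
    rw [← nS_mul h1 h1']
    exact mul_mem h2 h2'
  zero_mem' := ⟨Matrix.transpose_zero, by rw [nS_zero]; exact one_mem _⟩
  neg_mem' := by
    rintro S ⟨h1, h2⟩
    refine ⟨symm_neg h1, ?_⟩
    rw [← nS_inv h1]
    exact inv_mem h2

theorem mem_wSub [Finite K] {T : Subgroup (SpG m K)} {S : Matrix (Fin m) (Fin m) K} :
    S ∈ wSub T ↔ Sᵀ = S ∧ nS S ∈ T := Iff.rfl

theorem wSub_conj [Finite K] {T : Subgroup (SpG m K)}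
    (hcl : ∀ t ∈ T, ∀ g : SpG m K, g * t * g⁻¹ ∈ uSp m K → g * t * g⁻¹ ∈ T)
    (X : SpecialLinearGroup (Fin m) K) {S : Matrix (Fin m) (Fin m) K} (hS : S ∈ wSub T) :
    X.1 * S * X.1ᵀ ∈ wSub T := by
  obtain ⟨h1, h2⟩ := hS
  refine ⟨symm_conj _ h1, ?_⟩
  rw [← dS_conj_nS X h1]
  apply hcl _ h2
  rw [dS_conj_nS X h1]
  exact vSp_le_uSp (nS_mem_vSp _)

theorem long_of_short [Finite K] {T : Subgroup (SpG m K)}
    (hcl : ∀ t ∈ T, ∀ g : SpG m K, g * t * g⁻¹ ∈ uSp m K → g * t * g⁻¹ ∈ T)
    {i j : Fin m} (hij : i < j) (c : K) (h : single i j c + single j i c ∈ wSub T) :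
    single i i (c * c) ∈ wSub T := by
  obtain ⟨u, hu⟩ : ∃ u, u = nL (single j j (1 : K)) * nS (single i j c + single j i c) *
        (nL (single j j (1 : K)))⁻¹ := ⟨_, rfl⟩
  have hval : u.1 = fromBlocks (tv i j (ne_of_lt hij) (-c)).1 (single i j c + single j i c) 0
      (1 + single j i c) := by rw [hu]; exact nL_conj_short (ne_of_lt hij) c
  have huU : u ∈ uSp m K := by
    rw [mem_uSp_iff, hval, toBlocks_fromBlocks₂₁, toBlocks_fromBlocks₁₁]
    exact ⟨rfl, ut_transvection hij _⟩
  have huT : u ∈ T := by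
    rw [hu]
    apply hcl _ h.2
    rw [← hu]; exact huU
  have hA : u.1.toBlocks₁₁ = transvection i j (-c) := by
    rw [hval, toBlocks_fromBlocks₁₁]; rfl
  have h1 : u * nS (single j j (1:K)) * u⁻¹ =
      nS (single j j 1 + (single i j (-c) + single j i (-c) + single i i (c * c))) := by
    rw [pSp_conj_nS (uSp_le_pSp huU) (symm_single j 1), hA, conj_Ejj (ne_of_lt hij)]
  have h2 : u * nS (single j j (1:K)) * u⁻¹ * (nS (single j j (1:K)))⁻¹ ∈ T := by
    have h3 : nS (single j j (1:K)) * u⁻¹ * (nS (single j j (1:K)))⁻¹ ∈ T := by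
      apply hcl _ (inv_mem huT)
      exact mul_mem (mul_mem (vSp_le_uSp (nS_mem_vSp _)) (inv_mem huU))
        (inv_mem (vSp_le_uSp (nS_mem_vSp _)))
    have h4 := mul_mem huT h3
    have e : u * (nS (single j j (1:K)) * u⁻¹ * (nS (single j j (1:K)))⁻¹) =
        u * nS (single j j (1:K)) * u⁻¹ * (nS (single j j (1:K)))⁻¹ := by group
    rw [e] at h4; exact h4
  have hsym : (single i j (-c) + single j i (-c) + single i i (c * c))ᵀ =
      single i j (-c) + single j i (-c) + single i i (c * c) :=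
    symm_add (symm_pair i j (-c)) (symm_single i _)
  rw [h1, nS_inv (symm_single j 1),
    nS_mul (symm_add (symm_single j 1) hsym) (symm_neg (symm_single j 1))] at h2
  have h5 : single j j (1:K) + (single i j (-c) + single j i (-c) + single i i (c * c)) +
      -single j j 1 = single i j (-c) + single j i (-c) + single i i (c * c) := by abel
  rw [h5] at h2
  have h6 : single i j (-c) + single j i (-c) + single i i (c * c) ∈ wSub T := ⟨hsym, h2⟩
  have h7 := (wSub T).add_mem h h6
  have h8 : single i j c + single j i c +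
      (single i j (-c) + single j i (-c) + single i i (c * c)) = single i i (c * c) := by
    rw [← single_neg, ← single_neg]; abel
  rw [h8] at h7
  exact h7

theorem exists_ne_zero_one [Finite K] (hK : 3 ≤ Nat.card K) : ∃ l : K, l ≠ 0 ∧ l ≠ 1 := by
  classical
  by_contra hcon
  push Not at hcon
  haveI := Fintype.ofFinite K
  have : Nat.card K ≤ 2 := by
    rw [Nat.card_eq_fintype_card]
    calc Fintype.card K = (Finset.univ : Finset K).card := rfl
      _ ≤ ({0, 1} : Finset K).card := Finset.card_le_card (fun x _ => by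
          by_cases hx : x = 0
          · simp [hx]
          · simp [hcon x hx])
      _ ≤ 2 := Finset.card_le_two
  omega

/-- The unipotent radical `U` has no proper nontrivial strongly closed subgroups. -/
theorem uSp_closed [Finite K] (p : ℕ) [Fact p.Prime] [CharP K p] (hm : 2 ≤ m)
    (hex : m = 2 → 3 ≤ Nat.card K)
    (T : Subgroup (SpG m K)) (hT : T ≤ uSp m K) (hT1 : T ≠ ⊥)
    (hcl : ∀ t ∈ T, ∀ g : SpG m K, g * t * g⁻¹ ∈ uSp m K → g * t * g⁻¹ ∈ T) :
    T = uSp m K := by
  haveI : Finite (SpG m K) := sp_finite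
  haveI hnil : Group.IsNilpotent (uSp m K) := (uSp_isPGroup p).isNilpotent
  haveI hnorm : (T.subgroupOf (uSp m K)).Normal := by
    constructor
    intro t ht g
    rw [Subgroup.mem_subgroupOf] at ht ⊢
    exact hcl _ ht g (mul_mem (mul_mem g.2 t.2) (inv_mem g.2))
  have hne : T.subgroupOf (uSp m K) ≠ ⊥ := by
    intro h
    apply hT1
    rw [Subgroup.subgroupOf_eq_bot] at h
    exact (disjoint_self).1 (h.mono_right hT)
  have h1 := Cfsg.Agent.S0065.result (T.subgroupOf (uSp m K)) hne
  obtain ⟨⟨z, hz⟩, hz1⟩ := (Subgroup.ne_bot_iff_exists_ne_one).1 h1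
  obtain ⟨hzT, hzC⟩ := hz
  have hzT : z ∈ T.subgroupOf (uSp m K) := hzT
  have hzC : z ∈ Subgroup.center (uSp m K) := hzC
  rw [Subgroup.mem_subgroupOf] at hzT
  have hzU : (z : SpG m K) ∈ uSp m K := z.2
  have hzne : (z : SpG m K) ≠ 1 := by
    intro h
    apply hz1
    apply Subtype.ext
    apply Subtype.ext
    exact h
  have hcomm : ∀ u ∈ uSp m K, u * (z : SpG m K) = (z : SpG m K) * u := by
    intro u hu
    have h2 := Subgroup.mem_center_iff.1 hzC ⟨u, hu⟩
    exact congrArg Subtype.val h2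
  obtain ⟨A, hA⟩ : ∃ A, A = (z : SpG m K).1.toBlocks₁₁ := ⟨_, rfl⟩
  obtain ⟨B, hB⟩ : ∃ B, B = (z : SpG m K).1.toBlocks₁₂ := ⟨_, rfl⟩
  obtain ⟨D, hD⟩ : ∃ D, D = (z : SpG m K).1.toBlocks₂₂ := ⟨_, rfl⟩
  have hform : (z : SpG m K).1 = fromBlocks A B 0 D := by
    rw [hA, hB, hD]; exact pSp_form (uSp_le_pSp hzU)
  have hUTA : UT A := by rw [hA]; exact (mem_uSp_iff.1 hzU).2
  have hAS : ∀ S : Matrix (Fin m) (Fin m) K, Sᵀ = S → A * S = S * D := by
    intro S hS
    have h2 := hcomm (nS S) (vSp_le_uSp (nS_mem_vSp S))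
    have h3 : (nS S).1 * (z : SpG m K).1 = (z : SpG m K).1 * (nS S).1 := congrArg Subtype.val h2
    rw [nS_val hS, hform, Matrix.fromBlocks_multiply, Matrix.fromBlocks_multiply] at h3
    simp only [Matrix.mul_one, Matrix.mul_zero, add_zero, Matrix.zero_mul, zero_add,
      Matrix.one_mul] at h3
    have h4 := congrArg Matrix.toBlocks₁₂ h3
    rw [toBlocks_fromBlocks₁₂, toBlocks_fromBlocks₁₂] at h4
    rw [add_comm] at h4
    exact (add_right_cancel h4).symm
  have hAD : A = D := by
    have := hAS 1 Matrix.transpose_one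
    rwa [Matrix.mul_one, Matrix.one_mul] at this
  have hA1 : A = 1 := by
    ext i k
    by_cases hik : i = k
    · subst hik
      rw [Matrix.one_apply_eq]; exact hUTA.2 i
    · rw [Matrix.one_apply_ne hik]
      have h2 := hAS (single k k 1) (symm_single k 1)
      rw [← hAD] at h2
      have h3 := congrFun (congrFun h2 i) k
      rw [Matrix.mul_single_apply_same, Matrix.single_mul_apply_of_ne _ _ _ _ _ hik,
        mul_one] at h3
      exact h3
  have hzV : (z : SpG m K) ∈ vSp m K := by
    rw [mem_vSp]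
    exact ⟨(mem_uSp_iff.1 hzU).1, by rw [← hA]; exact hA1⟩
  obtain ⟨S₀, hS₀, hzS⟩ := mem_vSp_iff_nS.1 hzV
  have hS₀ne : S₀ ≠ 0 := by
    intro h
    apply hzne
    rw [hzS, h, nS_zero]
  have hS₀W : S₀ ∈ wSub T := ⟨hS₀, by rw [← hzS]; exact hzT⟩
  have hinv : ∀ (i j : Fin m), i < j →
      transvection i j (1:K) * S₀ * (transvection i j (1:K))ᵀ = S₀ := by
    intro i j hij
    have h2 := hcomm (dS m K (tv i j (ne_of_lt hij) 1)) (dS_mem_uSp (ut_transvection hij 1))
    rw [hzS] at h2
    have h3 : dS m K (tv i j (ne_of_lt hij) 1) * nS S₀ *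
        (dS m K (tv i j (ne_of_lt hij) 1))⁻¹ = nS S₀ := by
      rw [h2]; group
    rw [dS_conj_nS _ hS₀] at h3
    exact nS_inj (symm_conj _ hS₀) hS₀ h3
  have hent1 : ∀ (i j : Fin m), i < j → ∀ x, x ≠ i → S₀ j x = 0 := by
    intro i j hij x hx
    have h2 := congrFun (congrFun (hinv i j hij) i) x
    rw [transvection_transpose', mtv, if_neg hx, tvm, if_pos rfl, one_mul] at h2
    exact add_eq_left.1 h2
  have hent2 : ∀ (i j : Fin m), i < j → S₀ j i + S₀ i j + S₀ j j = 0 := by
    intro i j hij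
    have h2 := congrFun (congrFun (hinv i j hij) i) i
    rw [transvection_transpose', mtv, if_pos rfl, tvm, if_pos rfl, tvm, if_pos rfl, one_mul,
      one_mul, one_mul] at h2
    have h3 : S₀ i i + (S₀ j i + S₀ i j + S₀ j j) = S₀ i i := by
      calc S₀ i i + (S₀ j i + S₀ i j + S₀ j j) = S₀ i i + S₀ j i + (S₀ i j + S₀ j j) := by ring
        _ = S₀ i i := h2
    exact add_eq_left.1 h3
  obtain ⟨o, ho⟩ : ∃ o : Fin m, (o : ℕ) = 0 := ⟨⟨0, by omega⟩, rfl⟩
  obtain ⟨i1, hi1⟩ : ∃ i1 : Fin m, (i1 : ℕ) = 1 := ⟨⟨1, by omega⟩, rfl⟩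
  have ho1 : o < i1 := by rw [Fin.lt_def]; omega
  have h01 : o ≠ i1 := ne_of_lt ho1
  have hsymm : ∀ i j, S₀ j i = S₀ i j := fun i j => by
    have h1 := congrFun (congrFun hS₀ i) j
    rw [Matrix.transpose_apply] at h1
    exact h1
  obtain ⟨a, ha⟩ : ∃ a, a = S₀ o o := ⟨_, rfl⟩
  obtain ⟨b, hb⟩ : ∃ b, b = S₀ o i1 := ⟨_, rfl⟩
  have hrow : ∀ j x : Fin m, 2 ≤ (j : ℕ) → S₀ j x = 0 := by
    intro j x hj
    by_cases hx : x = o
    · rw [hx]
      exact hent1 i1 j (by rw [Fin.lt_def]; omega) o h01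
    · exact hent1 o j (by rw [Fin.lt_def]; omega) x hx
  have hcases : ∀ r : Fin m, r = o ∨ r = i1 ∨ 2 ≤ (r : ℕ) := by
    intro r
    rcases Nat.lt_or_ge (r : ℕ) 2 with h | h
    · rcases Nat.lt_or_ge (r : ℕ) 1 with h' | h'
      · left; apply Fin.ext; omega
      · right; left; apply Fin.ext; omega
    · right; right; exact h
  have h11 : S₀ i1 i1 = 0 := hent1 o i1 ho1 i1 h01.symm
  have hS₀form : S₀ = single o o a + (single o i1 b + single i1 o b) := by
    ext r x
    simp only [Matrix.add_apply, Matrix.single_apply]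
    rcases hcases r with hr | hr | hr
    · rcases hcases x with hx | hx | hx
      · rw [hr, hx]; simp [h01, h01.symm, ha]
      · rw [hr, hx]; simp [h01, h01.symm, hb]
      · have hxo : o ≠ x := by intro h; rw [← h] at hx; omega
        have hx1 : i1 ≠ x := by intro h; rw [← h] at hx; omega
        rw [hsymm, hrow x r hx]; simp [hxo, hx1]
    · rcases hcases x with hx | hx | hx
      · rw [hr, hx, hsymm]; simp [h01, h01.symm, hb]
      · rw [hr, hx]; simp [h01, h01.symm, h11]
      · have hxo : o ≠ x := by intro h; rw [← h] at hx; omega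
        have hx1 : i1 ≠ x := by intro h; rw [← h] at hx; omega
        rw [hsymm, hrow x r hx]; simp [hxo, hx1]
    · have hro : o ≠ r := by intro h; rw [← h] at hr; omega
      have hr1 : i1 ≠ r := by intro h; rw [← h] at hr; omega
      rw [hrow r x hr]; simp [hro, hr1]
  have h2b : b + b = 0 := by
    have h2 := hent2 o i1 ho1
    rw [hsymm o i1, ← hb, h11, add_zero] at h2
    exact h2
  have hS₀W' : single o o a + (single o i1 b + single i1 o b) ∈ wSub T := by
    rw [← hS₀form]; exact hS₀W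
  have hlong : ∃ a' : K, a' ≠ 0 ∧ single o o a' ∈ wSub T := by
    by_cases hb0 : b = 0
    · refine ⟨a, ?_, ?_⟩
      · intro ha0
        apply hS₀ne
        rw [hS₀form, ha0, hb0]
        simp
      · have h2 := hS₀W'
        rw [hb0] at h2
        simpa using h2
    · by_cases ha0 : a = 0
      · refine ⟨b * b, mul_ne_zero hb0 hb0, ?_⟩
        apply long_of_short hcl ho1
        have h2 := hS₀W'
        rw [ha0] at h2
        simpa using h2
      · by_cases hm3 : 3 ≤ m
        · obtain ⟨i2, hi2⟩ : ∃ i2 : Fin m, (i2 : ℕ) = 2 := ⟨⟨2, by omega⟩, rfl⟩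
          have ho2 : o < i2 := by rw [Fin.lt_def]; omega
          have h12 : i1 ≠ i2 := by intro h; rw [h] at hi1; omega
          refine ⟨b * b, mul_ne_zero hb0 hb0, ?_⟩
          apply long_of_short hcl ho2
          have h2 := wSub_conj hcl (tv i2 i1 h12.symm 1) hS₀W'
          have h3 : (tv i2 i1 h12.symm (1:K)).1 = transvection i2 i1 1 := rfl
          rw [h3, conj_S0 h01 (ne_of_lt ho2) h12] at h2
          have h4 := (wSub T).sub_mem h2 hS₀W'
          rw [add_sub_cancel_left] at h4
          exact h4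
        · have hm2 : m = 2 := by omega
          have hK := hex hm2
          have h20 : (2 : K) = 0 := by
            have : (2 : K) * b = 0 := by rw [two_mul]; exact h2b
            exact (mul_eq_zero.1 this).resolve_right hb0
          obtain ⟨l, hl0, hl1⟩ := exists_ne_zero_one hK
          refine ⟨(l * l - 1) * a, mul_ne_zero ?_ ha0, ?_⟩
          · intro h
            have h3 : (l - 1) * (l - 1) = 0 := by
              have h4 : (l - 1) * (l - 1) = l * l - 1 - (2 : K) * l + 2 := by ring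
              rw [h4, h, h20]; ring
            have h4 : l - 1 = 0 := mul_self_eq_zero.1 h3
            exact hl1 (sub_eq_zero.1 h4)
          · have h2 := wSub_conj hcl (hd o i1 h01 l) hS₀W'
            rw [hd_val _ _ _ _ hl0, conj_diag_S0 h01 l hl0] at h2
            have h4 := (wSub T).sub_mem h2 hS₀W'
            have e : single o o (l * l * a) + (single o i1 b + single i1 o b) -
                (single o o a + (single o i1 b + single i1 o b)) =
                single o o ((l * l - 1) * a) := by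
              rw [sub_mul, one_mul, single_sub']; abel
            rw [e] at h4; exact h4
  obtain ⟨a', ha'0, ha'W⟩ := hlong
  have hsq : ∀ l : K, single o o (l * l * a') ∈ wSub T := by
    intro l
    by_cases hl0 : l = 0
    · rw [hl0, zero_mul, zero_mul, Matrix.single_zero]; exact (wSub T).zero_mem
    · have h2 := wSub_conj hcl (hd o i1 h01 l) ha'W
      rw [hd_val _ _ _ _ hl0] at h2
      have h3 := conj_diag_S0 h01 l hl0 a' (0 : K)
      simp only [Matrix.single_zero, add_zero] at h3
      rw [h3] at h2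
      exact h2
  have hall : ∀ c : K, single o o c ∈ wSub T := by
    intro c
    by_cases h20 : (2 : K) = 0
    · have hp2 : p = 2 := by
        have h3 : ((2 : ℕ) : K) = 0 := by exact_mod_cast h20
        have h4 := (CharP.cast_eq_zero_iff K p 2).1 h3
        exact (Nat.prime_dvd_prime_iff_eq (Fact.out) Nat.prime_two).1 h4
      have hrc : ringChar K = 2 := by rw [← hp2]; exact ringChar.eq K p
      obtain ⟨l, hl⟩ := FiniteField.isSquare_of_char_two hrc (c / a')
      have h3 := hsq l
      rw [← hl, div_mul_cancel₀ _ ha'0] at h3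
      exact h3
    · have h3 := (wSub T).sub_mem (hsq ((c / a' + 1) / 2)) (hsq ((c / a' - 1) / 2))
      rw [← single_sub'] at h3
      have e : (c / a' + 1) / 2 * ((c / a' + 1) / 2) * a' -
          (c / a' - 1) / 2 * ((c / a' - 1) / 2) * a' = c := by
        field_simp
        ring
      rw [e] at h3; exact h3
  have hS1 : ∀ (k : Fin m), k ≠ o → ∀ c : K,
      single k o c + single o k c + single k k c ∈ wSub T := by
    intro k hk c
    have h2 := wSub_conj hcl (tv k o hk 1) (hall c)
    have h3 : (tv k o hk (1:K)).1 = transvection k o 1 := rfl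
    rw [h3, conj_long_tv hk] at h2
    have h4 := (wSub T).sub_mem h2 (hall c)
    rw [add_sub_cancel_left] at h4
    exact h4
  have hpr : ∀ (k : Fin m), k ≠ o → ∀ c : K, single k o c + single o k c ∈ wSub T := by
    intro k hk c
    have h2 := wSub_conj hcl (tv o k hk.symm 1) (hS1 k hk c)
    have h3 : (tv o k hk.symm (1:K)).1 = transvection o k 1 := rfl
    rw [h3, conj_S1 hk] at h2
    have h4 := (wSub T).sub_mem h2 (hS1 k hk c)
    rw [add_sub_cancel_left] at h4
    have h5 := (wSub T).sub_mem h4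
      ((wSub T).add_mem ((wSub T).add_mem (hall c) (hall c)) (hall c))
    rw [add_sub_cancel_left, add_comm] at h5
    exact h5
  have hdg : ∀ (k : Fin m) (c : K), single k k c ∈ wSub T := by
    intro k c
    by_cases hk : k = o
    · rw [hk]; exact hall c
    · have h4 := (wSub T).sub_mem (hS1 k hk c) (hpr k hk c)
      rw [add_sub_cancel_left] at h4
      exact h4
  have hpair : ∀ i j : Fin m, i ≠ j → ∀ c : K, single i j c + single j i c ∈ wSub T := by
    intro i j hij c
    by_cases hi : i = o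
    · rw [hi] at hij ⊢
      have h2 := hpr j hij.symm c
      rw [add_comm] at h2; exact h2
    · by_cases hj : j = o
      · rw [hj]; exact hpr i hi c
      · have h2 := wSub_conj hcl (tv j o hj 1) (hpr i hi c)
        have h3 : (tv j o hj (1:K)).1 = transvection j o 1 := rfl
        rw [h3, conj_pair hi hj hij] at h2
        have h4 := (wSub T).sub_mem h2 (hpr i hi c)
        rw [add_sub_cancel_left] at h4
        exact h4
  have hV : vSp m K ≤ T := by
    intro g hg
    obtain ⟨S, hS, rfl⟩ := mem_vSp_iff_nS.1 hg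
    exact (symm_mem_of_gens (wSub T) hdg hpair hS).2
  have hvmem : ∀ (X : SpecialLinearGroup (Fin m) K) (u : SpG m K), u ∈ pSp m K →
      u.1.toBlocks₁₁ = X.1 → (dS m K X)⁻¹ * u ∈ vSp m K := by
    intro X u hu hA
    rw [mem_vSp]
    refine ⟨mul_mem (inv_mem (dS_mem_pSp X)) hu, ?_⟩
    rw [blkA_mul _ hu, hA, ← dS_blkA X]
    exact blkA_inv_mul (dS_mem_pSp X)
  have htv : ∀ (i j : Fin m) (hij : i < j) (c : K), dS m K (tv i j (ne_of_lt hij) c) ∈ T := by
    intro i j hij c
    obtain ⟨u, hu⟩ : ∃ u, u = nL (single j j (1 : K)) * nS (single i j (-c) + single j i (-c)) *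
        (nL (single j j (1 : K)))⁻¹ := ⟨_, rfl⟩
    have hval : u.1 = fromBlocks (tv i j (ne_of_lt hij) c).1 (single i j (-c) + single j i (-c)) 0
        (1 + single j i (-c)) := by
      rw [hu]
      have h2 := nL_conj_short (ne_of_lt hij) (-c)
      rw [neg_neg] at h2
      exact h2
    have huU : u ∈ uSp m K := by
      rw [mem_uSp_iff, hval, toBlocks_fromBlocks₂₁, toBlocks_fromBlocks₁₁]
      exact ⟨rfl, ut_transvection hij _⟩
    have huT : u ∈ T := by
      rw [hu]
      apply hcl _ (hV (nS_mem_vSp _))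
      rw [← hu]; exact huU
    have hA : u.1.toBlocks₁₁ = (tv i j (ne_of_lt hij) c).1 := by
      rw [hval, toBlocks_fromBlocks₁₁]
    have h2 := hV (hvmem _ u (uSp_le_pSp huU) hA)
    have h3 := mul_mem huT (inv_mem h2)
    have e : u * ((dS m K (tv i j (ne_of_lt hij) c))⁻¹ * u)⁻¹ =
        dS m K (tv i j (ne_of_lt hij) c) := by group
    rw [e] at h3; exact h3
  apply le_antisymm hT
  intro u hu
  obtain ⟨hu1, hu2⟩ := mem_uSp_iff.1 hu
  have hdet : u.1.toBlocks₁₁.det = 1 := by
    rw [Matrix.det_of_isUpperTriangular (fun i j h => hu2.1 i j h)]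
    exact Finset.prod_eq_one (fun i _ => hu2.2 i)
  have h2 : dS m K ⟨u.1.toBlocks₁₁, hdet⟩ ∈ T :=
    ut_mem_of_tv (T.comap (dS m K)) (fun i j hij t => htv i j hij t) ⟨u.1.toBlocks₁₁, hdet⟩ hu2
  have h3 := hV (hvmem ⟨u.1.toBlocks₁₁, hdet⟩ u (uSp_le_pSp hu) rfl)
  have h4 := mul_mem h2 h3
  rw [mul_inv_cancel_left] at h4
  exact h4

end Sp4

end Cfsg.Agent.Helper25
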