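import Mathlib
import Cfsg.Agent.Helper25.Sp4

set_option autoImplicit false

namespace Cfsg.Agent.Helper25

open Matrix

section Sp5a

variable {m : ℕ} {K : Type*} [Field K]

/-- An element of the Siegel parabolic with diagonal `A`-block normalizes `uSp`. -/
theorem pSp_diag_normalizer [Finite K] {g : SpG m K} (hg : g ∈ pSp m K) {d : Fin m → K}
    (hd : ∀ j, d j ≠ 0) (hA : g.1.toBlocks₁₁ = diagonal d) :
    g ∈ Subgroup.normalizer ((uSp m K : Subgroup (SpG m K)) : Set (SpG m K)) := by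
  haveI : Finite (SpG m K) := sp_finite
  apply Cfsg.Agent.Helper9.mem_normalizer_of_conj_le
  intro u hu
  have hup := uSp_le_pSp hu
  rw [mem_uSp_iff]
  refine ⟨mul_mem (mul_mem hg hup) (inv_mem hg), ?_⟩
  rw [blkA_mul _ (inv_mem hg), blkA_mul _ hup]
  apply ut_of_diag_conj hd (mem_uSp_iff.1 hu).2
  rw [← hA, Matrix.mul_assoc, blkA_inv_mul hg, Matrix.mul_one]

theorem pElt_of_pow {G : Type*} [Group G] (p : ℕ) [hp : Fact p.Prime] {g : G} (h : g ^ p = 1) :
    ∃ k : ℕ, orderOf g = p ^ k := by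
  have h1 : orderOf g ∣ p := orderOf_dvd_of_pow_eq_one h
  rcases (Nat.dvd_prime hp.out).1 h1 with h2 | h2
  · exact ⟨0, by rw [h2, pow_zero]⟩
  · exact ⟨1, by rw [h2, pow_one]⟩

/-- The Siegel parabolic normalizes its unipotent radical. -/
theorem pSp_le_normalizer_vSp [Finite K] :
    pSp m K ≤ Subgroup.normalizer ((vSp m K : Subgroup (SpG m K)) : Set (SpG m K)) := by
  haveI : Finite (SpG m K) := sp_finite
  intro g hg
  apply Cfsg.Agent.Helper9.mem_normalizer_of_conj_le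
  intro v hv
  have hvp : v ∈ pSp m K := uSp_le_pSp (vSp_le_uSp hv)
  rw [mem_vSp]
  refine ⟨mul_mem (mul_mem hg hvp) (inv_mem hg), ?_⟩
  rw [blkA_mul _ (inv_mem hg), blkA_mul _ hvp, (mem_vSp.1 hv).2, Matrix.mul_one, blkA_mul_inv hg]

/-- The reversal permutation matrix. -/
def wRev (m : ℕ) (K : Type*) [Field K] : Matrix (Fin m) (Fin m) K :=
  Matrix.of fun i j => if Fin.rev i = j then 1 else 0

theorem wRev_mul (M : Matrix (Fin m) (Fin m) K) (i j : Fin m) :
    (wRev m K * M) i j = M (Fin.rev i) j := by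
  simp [wRev, Matrix.mul_apply]

theorem mul_wRev (M : Matrix (Fin m) (Fin m) K) (i j : Fin m) :
    (M * wRev m K) i j = M i (Fin.rev j) := by
  simp [wRev, Matrix.mul_apply, Fin.rev_eq_iff]

theorem wRev_transpose : (wRev m K)ᵀ = wRev m K := by
  ext i j
  simp only [wRev, Matrix.transpose_apply, Matrix.of_apply, Fin.rev_eq_iff]
  by_cases h : i = j.rev
  · rw [if_pos (Fin.rev_eq_iff.1 h.symm), if_pos h]
  · rw [if_neg (fun e => h (Fin.rev_eq_iff.1 e.symm)), if_neg h]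

theorem wRev_sq : wRev m K * wRev m K = 1 := by
  ext i j
  rw [wRev_mul]
  simp [wRev, Matrix.one_apply]

/-- The element of `Sp_{2m}(K)` reversing the order of the first `m` basis vectors. -/
def nRev (m : ℕ) (K : Type*) [Field K] : SpG m K :=
  ⟨fromBlocks (wRev m K) 0 0 (wRev m K), by
    rw [SymplecticGroup.fromBlocks_mem_iff]
    refine ⟨by simp, by simp, ?_⟩
    rw [Matrix.transpose_zero, Matrix.zero_mul, sub_zero, wRev_transpose, wRev_sq]⟩

theorem nRev_val : (nRev m K).1 = fromBlocks (wRev m K) 0 0 (wRev m K) := rfl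

theorem nRev_mem_pSp [Finite K] : nRev m K ∈ pSp m K := by
  rw [mem_pSp, nRev_val, toBlocks_fromBlocks₂₁]

theorem nRev_inv : (nRev m K)⁻¹ = nRev m K := by
  apply inv_eq_of_mul_eq_one_right
  apply Subtype.ext
  show (nRev m K).1 * (nRev m K).1 = 1
  rw [nRev_val, Matrix.fromBlocks_multiply]
  simp only [Matrix.mul_zero, Matrix.zero_mul, add_zero, zero_add, wRev_sq]
  exact Matrix.fromBlocks_one

/-- Conjugation by `nRev` takes elements of `uSp` that stay in `uSp` into `vSp`. -/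
theorem nRev_conj [Finite K] {s : SpG m K} (hs : s ∈ uSp m K)
    (h : nRev m K * s * (nRev m K)⁻¹ ∈ uSp m K) : nRev m K * s * (nRev m K)⁻¹ ∈ vSp m K := by
  have hsp := uSp_le_pSp hs
  rw [mem_vSp]
  refine ⟨(mem_uSp_iff.1 h).1, ?_⟩
  have hUT := (mem_uSp_iff.1 h).2
  have hsUT := (mem_uSp_iff.1 hs).2
  have e : (nRev m K * s * (nRev m K)⁻¹).1.toBlocks₁₁ =
      wRev m K * s.1.toBlocks₁₁ * wRev m K := by
    rw [nRev_inv, blkA_mul _ nRev_mem_pSp, blkA_mul _ hsp, nRev_val, toBlocks_fromBlocks₁₁]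
  rw [e] at hUT ⊢
  ext i j
  rcases lt_trichotomy i j with hij | hij | hij
  · rw [Matrix.one_apply_ne (ne_of_lt hij), mul_wRev, wRev_mul]
    apply hsUT.1
    exact Fin.rev_lt_rev.2 hij
  · rw [hij]; rw [Matrix.one_apply_eq]; exact hUT.2 j
  · rw [Matrix.one_apply_ne (ne_of_gt hij)]
    exact hUT.1 i j hij

/-- Central elements acting as the scalars `±1`. -/
theorem center_scalar (c : K) (hc : c * c = 1) :
    ∃ z ∈ Subgroup.center (SpG m K), ∀ g : SpG m K, (z * g).1 = c • g.1 := by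
  have h1 : (c - 1) * (c + 1) = 0 := by linear_combination hc
  rcases mul_eq_zero.1 h1 with h | h
  · have hc1 : c = 1 := sub_eq_zero.1 h
    exact ⟨1, Subgroup.one_mem _, fun g => by rw [one_mul, hc1, one_smul]⟩
  · have hc1 : c = -1 := eq_neg_of_add_eq_zero_left h
    refine ⟨⟨-1, SymplecticGroup.neg_mem (Matrix.symplecticGroup (Fin m) K).one_mem⟩, ?_, ?_⟩
    · rw [Subgroup.mem_center_iff]
      intro g
      apply Subtype.ext
      show g.1 * (-1) = (-1) * g.1
      rw [Matrix.mul_neg, Matrix.neg_mul, Matrix.mul_one, Matrix.one_mul]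
    · intro g
      show (-1 : Matrix _ _ K) * g.1 = c • g.1
      rw [Matrix.neg_mul, Matrix.one_mul, hc1, neg_smul, one_smul]

theorem comm_nS_blocks (g : SpG m K) {S : Matrix (Fin m) (Fin m) K} (hS : Sᵀ = S)
    (h : g * nS S = nS S * g) :
    S * g.1.toBlocks₂₁ = 0 ∧ g.1.toBlocks₁₁ * S = S * g.1.toBlocks₂₂ ∧
      g.1.toBlocks₂₁ * S = 0 := by
  obtain ⟨A, hA⟩ : ∃ A, A = g.1.toBlocks₁₁ := ⟨_, rfl⟩
  obtain ⟨B, hB⟩ : ∃ B, B = g.1.toBlocks₁₂ := ⟨_, rfl⟩
  obtain ⟨C, hC⟩ : ∃ C, C = g.1.toBlocks₂₁ := ⟨_, rfl⟩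
  obtain ⟨D, hD⟩ : ∃ D, D = g.1.toBlocks₂₂ := ⟨_, rfl⟩
  have hform : g.1 = fromBlocks A B C D := by
    rw [hA, hB, hC, hD]; exact sp_blocks g
  rw [← hA, ← hC, ← hD]
  have h3 : g.1 * (nS S).1 = (nS S).1 * g.1 := congrArg Subtype.val h
  rw [nS_val hS, hform, Matrix.fromBlocks_multiply, Matrix.fromBlocks_multiply] at h3
  simp only [Matrix.mul_one, Matrix.mul_zero, add_zero, Matrix.zero_mul, zero_add,
    Matrix.one_mul] at h3
  obtain ⟨e1, e2, -, e4⟩ := Matrix.fromBlocks_inj.1 h3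
  refine ⟨left_eq_add.1 e1, ?_, add_eq_right.1 e4⟩
  rw [add_comm] at e2
  exact add_left_cancel e2

/-- Structure of elements commuting with all `n(S)`, `S` symmetric with `S l l = 0`. -/
theorem cent_struct (hm : 2 ≤ m) (l : Fin m) (g : SpG m K)
    (h : ∀ S : Matrix (Fin m) (Fin m) K, Sᵀ = S → S l l = 0 → g * nS S = nS S * g) :
    g.1.toBlocks₂₁ = 0 ∧ (∀ i k, i ≠ k → k ≠ l → g.1.toBlocks₁₁ i k = 0) ∧
      ∃ c : K, c * c = 1 ∧ ∀ k, g.1.toBlocks₁₁ k k = c := by
  obtain ⟨A, hA⟩ : ∃ A, A = g.1.toBlocks₁₁ := ⟨_, rfl⟩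
  obtain ⟨C, hC⟩ : ∃ C, C = g.1.toBlocks₂₁ := ⟨_, rfl⟩
  obtain ⟨D, hD⟩ : ∃ D, D = g.1.toBlocks₂₂ := ⟨_, rfl⟩
  rw [← hA, ← hC]
  obtain ⟨j, hj⟩ : ∃ j : Fin m, j ≠ l := by
    by_cases h0 : (l : ℕ) = 0
    · exact ⟨⟨1, by omega⟩, fun e => by rw [← e] at h0; simp at h0⟩
    · exact ⟨⟨0, by omega⟩, fun e => by rw [← e] at h0; simp at h0⟩
  have hE : ∀ k : Fin m, k ≠ l → (single k k (1:K)) l l = 0 := fun k hk => by
    rw [Matrix.single_apply]; simp [hk]
  have hP : ∀ k : Fin m, k ≠ l →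
      (single k l (1:K) + single l k 1 : Matrix (Fin m) (Fin m) K) l l = 0 := fun k hk => by
    rw [Matrix.add_apply, Matrix.single_apply, Matrix.single_apply]; simp [hk]
  have h1 : ∀ k : Fin m, k ≠ l →
      single k k (1:K) * C = 0 ∧ A * single k k 1 = single k k 1 * D := by
    intro k hk
    have h3 := comm_nS_blocks g (symm_single k 1) (h _ (symm_single k 1) (hE k hk))
    rw [← hA, ← hC, ← hD] at h3
    exact ⟨h3.1, h3.2.1⟩
  have h2 : ∀ k : Fin m, k ≠ l → (single k l (1:K) + single l k 1) * C = 0 ∧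
      A * (single k l 1 + single l k 1) = (single k l 1 + single l k 1) * D := by
    intro k hk
    have h3 := comm_nS_blocks g (symm_pair k l 1) (h _ (symm_pair k l 1) (hP k hk))
    rw [← hA, ← hC, ← hD] at h3
    exact ⟨h3.1, h3.2.1⟩
  have hC0 : C = 0 := by
    ext i x
    rw [Matrix.zero_apply]
    by_cases hi : i = l
    · have h3 := congrFun (congrFun (h2 j hj).1 j) x
      rw [Matrix.add_mul, Matrix.add_apply, Matrix.single_mul_apply_same,
        Matrix.single_mul_apply_of_ne _ _ _ _ _ hj, add_zero, one_mul, Matrix.zero_apply] at h3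
      rw [hi]; exact h3
    · have h3 := congrFun (congrFun (h1 i hi).1 i) x
      rw [Matrix.single_mul_apply_same, one_mul, Matrix.zero_apply] at h3
      exact h3
  have hAoff : ∀ i k, i ≠ k → k ≠ l → A i k = 0 := by
    intro i k hik hk
    have h3 := congrFun (congrFun (h1 k hk).2 i) k
    rw [Matrix.mul_single_apply_same, Matrix.single_mul_apply_of_ne _ _ _ _ _ hik, mul_one] at h3
    exact h3
  have hAD : ∀ k, k ≠ l → A k k = D k k := by
    intro k hk
    have h3 := congrFun (congrFun (h1 k hk).2 k) k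
    rw [Matrix.mul_single_apply_same, Matrix.single_mul_apply_same, mul_one, one_mul] at h3
    exact h3
  have hAl : ∀ k, k ≠ l → A l l = D k k := by
    intro k hk
    have h3 := congrFun (congrFun (h2 k hk).2 l) k
    rw [Matrix.mul_add, Matrix.add_mul, Matrix.add_apply, Matrix.add_apply,
      Matrix.mul_single_apply_of_ne _ _ _ _ _ hk, Matrix.mul_single_apply_same,
      Matrix.single_mul_apply_of_ne _ _ _ _ _ hk.symm, Matrix.single_mul_apply_same, zero_add,
      zero_add, mul_one, one_mul] at h3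
    exact h3
  have hrel := (sp_rel g).2.2
  rw [← hA, ← hC, ← hD, hC0, Matrix.transpose_zero, Matrix.zero_mul, sub_zero] at hrel
  have hcc : A l l * A l l = 1 := by
    have h3 := congrFun (congrFun hrel j) j
    rw [Matrix.mul_apply, Matrix.one_apply_eq, Finset.sum_eq_single j] at h3
    · rw [Matrix.transpose_apply, hAD j hj, ← hAl j hj] at h3
      exact h3
    · intro i _ hij
      rw [Matrix.transpose_apply, hAoff i j hij hj, zero_mul]
    · intro h; exact absurd (Finset.mem_univ j) h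
  refine ⟨hC0, hAoff, A l l, hcc, fun k => ?_⟩
  by_cases hk : k = l
  · rw [hk]
  · rw [hAD k hk, ← hAl k hk]

end Sp5a

end Cfsg.Agent.Helper25
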