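import Mathlib
import Cfsg.Agent.Helper25.Sp5a

set_option autoImplicit false

namespace Cfsg.Agent.Helper25

open Matrix

section Sp5b

variable {m : ℕ} {K : Type*} [Field K]

theorem diag_upd (l : Fin m) (c : K) :
    diagonal (Function.update (1 : Fin m → K) l c) = 1 + single l l (c - 1) := by
  ext i j
  rw [Matrix.add_apply, Matrix.single_apply, Matrix.diagonal_apply, Matrix.one_apply,
    Function.update_apply]
  by_cases hij : i = j
  · subst hij
    by_cases hi : i = l
    · subst hi; simp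
    · simp [hi, Ne.symm hi]
  · by_cases hi : l = i
    · subst hi; simp [hij]
    · simp [hij, hi]

/-- The long-root torus element. -/
noncomputable def hL (l : Fin m) (c : K) : SpG m K :=
  nS (single l l (c - 1)) * nL (single l l 1) * nS (single l l (c⁻¹ - 1)) * nL (single l l (-c))

theorem hL_val (l : Fin m) (c : K) (hc : c ≠ 0) :
    (hL l c).1 = fromBlocks (diagonal (Function.update 1 l c)) 0 0
      (diagonal (Function.update 1 l c⁻¹)) := by
  show (nS (single l l (c - 1))).1 * (nL (single l l 1)).1 * (nS (single l l (c⁻¹ - 1))).1 *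
    (nL (single l l (-c))).1 = _
  rw [nS_val (symm_single _ _), nL_val (symm_single _ _), nS_val (symm_single _ _),
    nL_val (symm_single _ _), Matrix.fromBlocks_multiply, Matrix.fromBlocks_multiply,
    Matrix.fromBlocks_multiply, diag_upd, diag_upd]
  simp only [Matrix.mul_one, Matrix.one_mul, Matrix.mul_zero, Matrix.zero_mul, add_zero, zero_add,
    Matrix.add_mul, Matrix.mul_add, single_mul_single_same, mul_one, one_mul]
  have hcc : c⁻¹ * c = 1 := inv_mul_cancel₀ hc
  have e1 : (c⁻¹ - 1) * -c + (c - 1) * (c⁻¹ - 1) * -c + (c - 1) * -c = 0 := by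
    linear_combination (-c) * hcc
  have e2 : (c⁻¹ - 1) + (c - 1) * (c⁻¹ - 1) + (c - 1) = 0 := by
    linear_combination hcc
  have e3 : 1 + ((c⁻¹ - 1) * -c + -c) = 0 := by
    linear_combination (-1 : K) * hcc
  simp only [← single_add]
  rw [e1, e2, e3, single_zero, add_zero, add_comm (single l l (c⁻¹ - 1)) 1]

theorem hL_mem_pSp [Finite K] (l : Fin m) (c : K) (hc : c ≠ 0) : hL l c ∈ pSp m K := by
  rw [mem_pSp, hL_val l c hc, toBlocks_fromBlocks₂₁]

theorem hL_blkA (l : Fin m) (c : K) (hc : c ≠ 0) :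
    (hL l c).1.toBlocks₁₁ = diagonal (Function.update 1 l c) := by
  rw [hL_val l c hc, toBlocks_fromBlocks₁₁]

theorem hL_mem_normalizer [Finite K] (l : Fin m) (c : K) (hc : c ≠ 0) :
    hL l c ∈ Subgroup.normalizer ((uSp m K : Subgroup (SpG m K)) : Set (SpG m K)) := by
  apply pSp_diag_normalizer (hL_mem_pSp l c hc) (d := Function.update 1 l c) _ (hL_blkA l c hc)
  intro j
  rw [Function.update_apply]
  split_ifs
  · exact hc
  · exact one_ne_zero

theorem dS_hd_mem_normalizer [Finite K] (a b : Fin m) (hab : a ≠ b) (c : K) (hc : c ≠ 0) :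
    dS m K (hd a b hab c) ∈
      Subgroup.normalizer ((uSp m K : Subgroup (SpG m K)) : Set (SpG m K)) := by
  apply pSp_diag_normalizer (dS_mem_pSp _) (d := dvec a b c) (dvec_ne_zero a b c hc)
  rw [dS_blkA, hd_val a b hab c hc]

theorem spRho_nL (l : Fin m) (t : K) (hne : spIdx m (Sum.inr l) ≠ spIdx m (Sum.inl l)) :
    spRho m K (nL (single l l t)) = tv (spIdx m (Sum.inr l)) (spIdx m (Sum.inl l)) hne t := by
  apply Subtype.ext
  ext x y
  rw [spRho_apply, nL_val (symm_single l t), tv_val]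
  unfold transvection
  rw [Matrix.add_apply, Matrix.one_apply, Matrix.single_apply]
  obtain ⟨x', rfl⟩ := (spIdx m).surjective x
  obtain ⟨y', rfl⟩ := (spIdx m).surjective y
  rw [Equiv.symm_apply_apply, Equiv.symm_apply_apply]
  simp only [(spIdx m).injective.eq_iff]
  rcases x' with i | i <;> rcases y' with j | j
  · rw [fromBlocks_apply₁₁, Matrix.one_apply]; simp
  · rw [fromBlocks_apply₁₂]; simp
  · rw [fromBlocks_apply₂₁, Matrix.single_apply]; simp
  · rw [fromBlocks_apply₂₂, Matrix.one_apply]; simp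

/-- The unipotent radical of the minimal parabolic of the long simple root. -/
def rSp (m : ℕ) (K : Type*) [Field K] [Finite K] (l : Fin m) (hl : (l : ℕ) + 1 = m) :
    Subgroup (SpG m K) :=
  (radSub K (spIdx m (Sum.inl l)) (spIdx m (Sum.inr l))
    (by rw [spIdx_inl, spIdx_inr]; omega)).comap (spRho m K)

theorem mem_rSp [Finite K] {l : Fin m} {hl : (l : ℕ) + 1 = m} {g : SpG m K} :
    g ∈ rSp m K l hl ↔ g ∈ uSp m K ∧ g.1 (Sum.inl l) (Sum.inr l) = 0 := by
  constructor
  · rintro ⟨h1, h2⟩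
    refine ⟨h1, ?_⟩
    rw [← spRho_idx]; exact h2
  · rintro ⟨h1, h2⟩
    refine ⟨h1, ?_⟩
    show (spRho m K g).1 _ _ = 0
    rw [spRho_idx]; exact h2

/-- The normalizer of `uSp` is generated by `uSp` and torus elements. -/
theorem norm_uSp_le [Finite K] (l : Fin m) :
    Subgroup.normalizer ((uSp m K : Subgroup (SpG m K)) : Set (SpG m K)) ≤
      Subgroup.closure (((uSp m K : Subgroup (SpG m K)) : Set (SpG m K)) ∪
        {y | ∃ (a b : Fin m) (hab : a ≠ b) (c : K), c ≠ 0 ∧ y = dS m K (hd a b hab c)} ∪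
        {y | ∃ c : K, c ≠ 0 ∧ y = hL l c}) := by
  intro g hg
  have hup := sp_upper_of_norm (fun u hu => (Subgroup.mem_normalizer_iff.1 hg u).1 hu)
  have hgp : g ∈ pSp m K := by
    rw [mem_pSp]
    ext i j
    show g.1 (Sum.inr i) (Sum.inl j) = 0
    rw [← spRho_idx]
    apply hup
    rw [Fin.lt_def, spIdx_inl, spIdx_inr]
    have := i.2
    have := j.2
    omega
  have hAup : ∀ i j : Fin m, j < i → g.1.toBlocks₁₁ i j = 0 := by
    intro i j hij
    show g.1 (Sum.inl i) (Sum.inl j) = 0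
    rw [← spRho_idx]
    apply hup
    rw [Fin.lt_def, spIdx_inl, spIdx_inl]
    exact hij
  obtain ⟨A, hA⟩ : ∃ A, A = g.1.toBlocks₁₁ := ⟨_, rfl⟩
  obtain ⟨B, hB⟩ : ∃ B, B = g.1.toBlocks₁₂ := ⟨_, rfl⟩
  obtain ⟨D, hD⟩ : ∃ D, D = g.1.toBlocks₂₂ := ⟨_, rfl⟩
  have hform : g.1 = fromBlocks A B 0 D := by
    rw [hA, hB, hD]; exact pSp_form hgp
  have hmem := g.2
  rw [hform] at hmem
  obtain ⟨h1, -⟩ := sp_rel_upper hmem
  have hdet : A.det ≠ 0 := by
    intro h0
    have h2 := congrArg Matrix.det h1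
    rw [Matrix.det_mul, Matrix.det_transpose, h0, zero_mul, Matrix.det_one] at h2
    exact zero_ne_one h2
  obtain ⟨c, hc⟩ : ∃ c, c = (A.det)⁻¹ := ⟨_, rfl⟩
  have hc0 : c ≠ 0 := by rw [hc]; exact inv_ne_zero hdet
  have hL_p : hL l c ∈ pSp m K := hL_mem_pSp l c hc0
  have hA' : (hL l c * g).1.toBlocks₁₁ = diagonal (Function.update 1 l c) * A := by
    rw [blkA_mul _ hgp, hL_blkA l c hc0, hA]
  have hdet' : (diagonal (Function.update (1 : Fin m → K) l c) * A).det = 1 := by
    rw [Matrix.det_mul, Matrix.det_diagonal, Finset.prod_update_of_mem (Finset.mem_univ l)]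
    simp only [Pi.one_apply, Finset.prod_const_one, mul_one]
    rw [hc]; exact inv_mul_cancel₀ hdet
  obtain ⟨X, hX⟩ : ∃ X : SpecialLinearGroup (Fin m) K,
      X.1 = diagonal (Function.update 1 l c) * A := ⟨⟨_, hdet'⟩, rfl⟩
  have hXup : ∀ i j : Fin m, j < i → X.1 i j = 0 := by
    intro i j hij
    rw [hX, Matrix.diagonal_mul, hA, hAup i j hij, mul_zero]
  have hXcl := upper_mem_closure hXup
  have hdSX : dS m K X ∈ Subgroup.closure
      (((uSp m K : Subgroup (SpG m K)) : Set (SpG m K)) ∪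
        {y | ∃ (a b : Fin m) (hab : a ≠ b) (c : K), c ≠ 0 ∧ y = dS m K (hd a b hab c)} ∪
        {y | ∃ c : K, c ≠ 0 ∧ y = hL l c}) := by
    have h3 : Subgroup.closure (((uniSub m K : Subgroup (SpecialLinearGroup (Fin m) K)) :
        Set (SpecialLinearGroup (Fin m) K)) ∪
        {g | ∃ (a b : Fin m) (hab : a ≠ b) (c : K), c ≠ 0 ∧ (b : ℕ) = a + 1 ∧
          g = hd a b hab c}) ≤ (Subgroup.closure
      (((uSp m K : Subgroup (SpG m K)) : Set (SpG m K)) ∪
        {y | ∃ (a b : Fin m) (hab : a ≠ b) (c : K), c ≠ 0 ∧ y = dS m K (hd a b hab c)} ∪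
        {y | ∃ c : K, c ≠ 0 ∧ y = hL l c})).comap (dS m K) := by
      rw [Subgroup.closure_le]
      rintro x (hx | ⟨a, b, hab, c', hc', -, rfl⟩)
      · have hx' : UT x.1 := hx
        exact Subgroup.subset_closure (Or.inl (Or.inl (dS_mem_uSp hx')))
      · exact Subgroup.subset_closure (Or.inl (Or.inr ⟨a, b, hab, c', hc', rfl⟩))
    exact h3 hXcl
  have hv : (dS m K X)⁻¹ * (hL l c * g) ∈ vSp m K := by
    rw [mem_vSp]
    have hp : hL l c * g ∈ pSp m K := mul_mem hL_p hgp
    refine ⟨mul_mem (inv_mem (dS_mem_pSp X)) hp, ?_⟩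
    rw [blkA_mul _ hp, hA', ← hX, ← dS_blkA X]
    exact blkA_inv_mul (dS_mem_pSp X)
  have e : g = (hL l c)⁻¹ * (dS m K X * ((dS m K X)⁻¹ * (hL l c * g))) := by group
  rw [e]
  exact mul_mem (inv_mem (Subgroup.subset_closure (Or.inr ⟨c, hc0, rfl⟩)))
    (mul_mem hdSX (Subgroup.subset_closure (Or.inl (Or.inl (vSp_le_uSp hv)))))

end Sp5b

end Cfsg.Agent.Helper25
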