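import Mathlib
import Cfsg.Agent.Helper25.Sp5b
import Cfsg.Agent.Helper25.RadCrit3

set_option autoImplicit false

namespace Cfsg.Agent.Helper25

open Matrix

section Sp6

variable {m : ℕ} {K : Type*} [Field K]

theorem smul_tb21_zero {c : K} {M : Matrix (Fin m ⊕ Fin m) (Fin m ⊕ Fin m) K}
    (h : M.toBlocks₂₁ = 0) : (c • M).toBlocks₂₁ = 0 := by
  ext i j
  show c • M (Sum.inr i) (Sum.inl j) = 0
  have h1 : M (Sum.inr i) (Sum.inl j) = M.toBlocks₂₁ i j := rfl
  rw [h1, h, Matrix.zero_apply, smul_zero]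

theorem smul_tb11_apply (c : K) (M : Matrix (Fin m ⊕ Fin m) (Fin m ⊕ Fin m) K) (i j : Fin m) :
    (c • M).toBlocks₁₁ i j = c * M.toBlocks₁₁ i j := rfl

theorem mk_center_mul {G : Type*} [Group G] {z : G} (hz : z ∈ Subgroup.center G) (g : G) :
    QuotientGroup.mk' (Subgroup.center G) g = QuotientGroup.mk' (Subgroup.center G) (z * g) := by
  have h1 : QuotientGroup.mk' (Subgroup.center G) z = 1 := by
    rw [← MonoidHom.mem_ker, QuotientGroup.ker_mk']; exact hz
  rw [map_mul, h1, one_mul]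

/-- The unipotent radical of the Siegel parabolic is a good radical subgroup. -/
theorem goodRX_vSp [Finite K] (hm : 2 ≤ m) :
    GoodRX (QuotientGroup.mk' (Subgroup.center (SpG m K))) (uSp m K) (vSp m K) := by
  refine ⟨vSp_le_uSp, uSp_le_pSp.trans pSp_le_normalizer_vSp, ?_, nRev m K,
    pSp_le_normalizer_vSp nRev_mem_pSp, ?_⟩
  · intro g hg
    have hcomm : ∀ S : Matrix (Fin m) (Fin m) K, Sᵀ = S → g * nS S = nS S * g := by
      intro S hS
      exact (Subgroup.mem_centralizer_iff.1 hg (nS S) (nS_mem_vSp S)).symm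
    obtain ⟨o, ho⟩ : ∃ o : Fin m, (o : ℕ) = 0 := ⟨⟨0, by omega⟩, rfl⟩
    obtain ⟨i1, hi1⟩ : ∃ i1 : Fin m, (i1 : ℕ) = 1 := ⟨⟨1, by omega⟩, rfl⟩
    have h01 : o ≠ i1 := by intro h; rw [h] at ho; omega
    obtain ⟨hC, hoff0, c, hcc, hdiag⟩ := cent_struct hm o g (fun S hS _ => hcomm S hS)
    obtain ⟨-, hoff1, -⟩ := cent_struct hm i1 g (fun S hS _ => hcomm S hS)
    obtain ⟨z, hz, hzg⟩ := center_scalar (m := m) c hcc
    have hr : z * g ∈ vSp m K := by
      rw [mem_vSp, hzg]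
      refine ⟨smul_tb21_zero hC, ?_⟩
      ext i k
      rw [smul_tb11_apply]
      by_cases hik : i = k
      · subst hik; rw [hdiag, Matrix.one_apply_eq, hcc]
      · rw [Matrix.one_apply_ne hik]
        by_cases hk : k = o
        · rw [hoff1 i k hik (by rw [hk]; exact h01), mul_zero]
        · rw [hoff0 i k hik hk, mul_zero]
    rw [mk_center_mul hz g]
    exact Subgroup.mem_map_of_mem _ hr
  · intro s hs h
    exact nRev_conj hs h

theorem rSp_hab (l : Fin m) (hl : (l : ℕ) + 1 = m) :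
    ((spIdx m (Sum.inr l) : Fin (2 * m)) : ℕ) = (spIdx m (Sum.inl l) : Fin (2 * m)) + 1 := by
  rw [spIdx_inl, spIdx_inr]; omega

theorem uSp_le_normalizer_rSp [Finite K] (l : Fin m) (hl : (l : ℕ) + 1 = m) :
    uSp m K ≤ Subgroup.normalizer ((rSp m K l hl : Subgroup (SpG m K)) : Set (SpG m K)) :=
  (Subgroup.comap_mono (uni_le_normalizer_rad _ _ (rSp_hab l hl))).trans
    (Subgroup.le_normalizer_comap _)

theorem nL_mem_normalizer_rSp [Finite K] (l : Fin m) (hl : (l : ℕ) + 1 = m) (t : K) :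
    nL (single l l t) ∈
      Subgroup.normalizer ((rSp m K l hl : Subgroup (SpG m K)) : Set (SpG m K)) := by
  apply Subgroup.le_normalizer_comap (spRho m K)
  rw [Subgroup.mem_comap, spRho_nL l t (adj_ne (rSp_hab l hl)).symm]
  exact tvl_mem_normalizer_rad _ _ (rSp_hab l hl) t

/-- The unipotent radical of the long-root minimal parabolic is a good radical subgroup. -/
theorem goodRX_rSp [Finite K] (hm : 2 ≤ m) (l : Fin m) (hl : (l : ℕ) + 1 = m) :
    GoodRX (QuotientGroup.mk' (Subgroup.center (SpG m K))) (uSp m K) (rSp m K l hl) := by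
  have hab := rSp_hab l hl
  have hne : spIdx m (Sum.inr l) ≠ spIdx m (Sum.inl l) := (adj_ne hab).symm
  refine ⟨fun g hg => (mem_rSp.1 hg).1, uSp_le_normalizer_rSp l hl, ?_, nL (single l l 1),
    nL_mem_normalizer_rSp l hl 1, ?_⟩
  · intro g hg
    have hcomm : ∀ r ∈ rSp m K l hl, g * r = r * g := fun r hr =>
      (Subgroup.mem_centralizer_iff.1 hg r hr).symm
    have hnS : ∀ S : Matrix (Fin m) (Fin m) K, Sᵀ = S → S l l = 0 → g * nS S = nS S * g := by
      intro S hS hSl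
      apply hcomm
      rw [mem_rSp]
      refine ⟨vSp_le_uSp (nS_mem_vSp S), ?_⟩
      rw [nS_val hS, fromBlocks_apply₁₂]; exact hSl
    obtain ⟨hC, hoff, c, hcc, hdiag⟩ := cent_struct hm l g hnS
    obtain ⟨o, ho⟩ : ∃ o : Fin m, (o : ℕ) = 0 := ⟨⟨0, by omega⟩, rfl⟩
    have hol : o < l := by rw [Fin.lt_def]; omega
    have hdS : dS m K (tv o l (ne_of_lt hol) 1) ∈ rSp m K l hl := by
      rw [mem_rSp]
      refine ⟨dS_mem_uSp (ut_transvection hol 1), ?_⟩
      rw [dS_val, fromBlocks_apply₁₂]; rfl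
    have h3 := hcomm _ hdS
    obtain ⟨A, hA⟩ : ∃ A, A = g.1.toBlocks₁₁ := ⟨_, rfl⟩
    obtain ⟨B, hB⟩ : ∃ B, B = g.1.toBlocks₁₂ := ⟨_, rfl⟩
    obtain ⟨D, hD⟩ : ∃ D, D = g.1.toBlocks₂₂ := ⟨_, rfl⟩
    have hgp : g ∈ pSp m K := hC
    have hform : g.1 = fromBlocks A B 0 D := by
      rw [hA, hB, hD]; exact pSp_form hgp
    have h4 : g.1 * (dS m K (tv o l (ne_of_lt hol) 1)).1 =
        (dS m K (tv o l (ne_of_lt hol) 1)).1 * g.1 := congrArg Subtype.val h3
    rw [dS_val, hform, Matrix.fromBlocks_multiply, Matrix.fromBlocks_multiply, tv_inv, tv_val,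
      tv_val, transvection_transpose'] at h4
    simp only [Matrix.mul_zero, Matrix.zero_mul, add_zero, zero_add] at h4
    have h5 := (Matrix.fromBlocks_inj.1 h4).2.1
    have h6 := congrFun (congrFun h5 o) l
    rw [mtv, if_neg (ne_of_gt hol), tvm, if_pos rfl, one_mul] at h6
    have hBll : B l l = 0 := left_eq_add.1 h6
    obtain ⟨z, hz, hzg⟩ := center_scalar (m := m) c hcc
    have hr : z * g ∈ rSp m K l hl := by
      rw [mem_rSp, mem_uSp_iff, hzg]
      refine ⟨⟨smul_tb21_zero hC, ⟨fun i k hki => ?_, fun i => ?_⟩⟩, ?_⟩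
      · rw [smul_tb11_apply, hoff i k (ne_of_gt hki) ?_, mul_zero]
        intro hkl
        rw [hkl, Fin.lt_def] at hki
        have := i.2
        omega
      · rw [smul_tb11_apply, hdiag, hcc]
      · show c • g.1 (Sum.inl l) (Sum.inr l) = 0
        have h7 : g.1 (Sum.inl l) (Sum.inr l) = B l l := by rw [hB]; rfl
        rw [h7, hBll, smul_zero]
    rw [mk_center_mul hz g]
    exact Subgroup.mem_map_of_mem _ hr
  · intro s hs h
    show spRho m K (nL (single l l 1) * s * (nL (single l l 1))⁻¹) ∈ radSub K _ _ hab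
    have h' : spRho m K (nL (single l l 1) * s * (nL (single l l 1))⁻¹) ∈ uniSub (2 * m) K := h
    rw [map_mul, map_mul, map_inv, spRho_nL l 1 hne] at h' ⊢
    exact rad_of_conj _ _ hab hs h'

theorem dS_hd_mem_closure [Finite K] (p : ℕ) [Fact p.Prime] [CharP K p] (a b : Fin m)
    (hab : a ≠ b) (c : K) :
    dS m K (hd a b hab c) ∈ Subgroup.closure {g : SpG m K |
      g ∈ Subgroup.normalizer ((vSp m K : Subgroup (SpG m K)) : Set (SpG m K)) ∧
        ∃ k : ℕ, orderOf g = p ^ k} := by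
  have key : ∀ (i j : Fin m) (hij : i ≠ j) (t : K), dS m K (tv i j hij t) ∈
      Subgroup.closure {g : SpG m K |
        g ∈ Subgroup.normalizer ((vSp m K : Subgroup (SpG m K)) : Set (SpG m K)) ∧
          ∃ k : ℕ, orderOf g = p ^ k} := by
    intro i j hij t
    apply Subgroup.subset_closure
    refine ⟨pSp_le_normalizer_vSp (dS_mem_pSp _), pElt_of_pow p ?_⟩
    rw [← map_pow, tv_pow_char p, map_one]
  unfold hd
  rw [map_mul, map_mul, map_mul]
  exact mul_mem (mul_mem (mul_mem (key _ _ _ _) (key _ _ _ _)) (key _ _ _ _)) (key _ _ _ _)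

theorem hL_mem_closure [Finite K] (p : ℕ) [Fact p.Prime] [CharP K p] (l : Fin m)
    (hl : (l : ℕ) + 1 = m) (c : K) :
    hL l c ∈ Subgroup.closure {g : SpG m K |
      g ∈ Subgroup.normalizer ((rSp m K l hl : Subgroup (SpG m K)) : Set (SpG m K)) ∧
        ∃ k : ℕ, orderOf g = p ^ k} := by
  have hne : spIdx m (Sum.inr l) ≠ spIdx m (Sum.inl l) := (adj_ne (rSp_hab l hl)).symm
  have k1 : ∀ t : K, nS (single l l t) ∈ Subgroup.closure {g : SpG m K |
      g ∈ Subgroup.normalizer ((rSp m K l hl : Subgroup (SpG m K)) : Set (SpG m K)) ∧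
        ∃ k : ℕ, orderOf g = p ^ k} := by
    intro t
    apply Subgroup.subset_closure
    have hu : nS (single l l t) ∈ uSp m K := vSp_le_uSp (nS_mem_vSp _)
    refine ⟨uSp_le_normalizer_rSp l hl hu, ?_⟩
    obtain ⟨k, hk⟩ := (IsPGroup.iff_orderOf.1 (uSp_isPGroup (m := m) (K := K) p)) ⟨_, hu⟩
    exact ⟨k, by rw [← hk, Subgroup.orderOf_mk]⟩
  have k2 : ∀ t : K, nL (single l l t) ∈ Subgroup.closure {g : SpG m K |
      g ∈ Subgroup.normalizer ((rSp m K l hl : Subgroup (SpG m K)) : Set (SpG m K)) ∧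
        ∃ k : ℕ, orderOf g = p ^ k} := by
    intro t
    apply Subgroup.subset_closure
    refine ⟨nL_mem_normalizer_rSp l hl t, pElt_of_pow p ?_⟩
    apply spRho_injective
    rw [map_pow, spRho_nL l t hne, tv_pow_char p, map_one]
  unfold hL
  exact mul_mem (mul_mem (mul_mem (k1 _) (k2 _)) (k1 _)) (k2 _)

end Sp6

end Cfsg.Agent.Helper25
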