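import Mathlib
import Cfsg.Agent.Helper25.Sp6
import Cfsg.Agent.Helper25.RadCrit2

set_option autoImplicit false

namespace Cfsg.Agent.Helper25

open Matrix

section Sp7

variable {m : ℕ} {K : Type*} [Field K]

theorem simpleDataX_uSp [Finite K] (p : ℕ) [Fact p.Prime] [CharP K p] (hm : 2 ≤ m)
    (hex : m = 2 → 3 ≤ Nat.card K) :
    SimpleDataX (QuotientGroup.mk' (Subgroup.center (SpG m K))) p (uSp m K) := by
  obtain ⟨l, hl⟩ : ∃ l : Fin m, (l : ℕ) + 1 = m := ⟨⟨m - 1, by omega⟩, by simp; omega⟩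
  refine ⟨?_, uSp_closed p hm hex, _, norm_uSp_le l, ?_⟩
  · intro h
    have h1 : nS (single l l (1:K)) ∈ uSp m K := vSp_le_uSp (nS_mem_vSp _)
    rw [h, Subgroup.mem_bot] at h1
    have h2 := nS_inj (symm_single l (1:K)) Matrix.transpose_zero (by rw [h1, nS_zero])
    have h3 := congrFun (congrFun h2 l) l
    rw [Matrix.single_apply_same, Matrix.zero_apply] at h3
    exact one_ne_zero h3
  · rintro y ((hy | ⟨a, b, hab, c, hc, rfl⟩) | ⟨c, hc, rfl⟩)
    · exact ⟨Subgroup.le_normalizer hy, Or.inl hy⟩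
    · exact ⟨dS_hd_mem_normalizer a b hab c hc, Or.inr (Or.inr ⟨vSp m K, goodRX_vSp hm,
        dS_hd_mem_closure p a b hab c⟩)⟩
    · exact ⟨hL_mem_normalizer l c hc, Or.inr (Or.inr ⟨rSp m K l hl, goodRX_rSp hm l hl,
        hL_mem_closure p l hl c⟩)⟩

theorem simpleData_uSp [Finite K] (p : ℕ) [Fact p.Prime] [CharP K p] (hm : 2 ≤ m)
    (hex : m = 2 → 3 ≤ Nat.card K) :
    SimpleData p ((uSp m K).map (QuotientGroup.mk' (Subgroup.center (SpG m K)))) := by
  haveI : Finite (SpG m K) := sp_finite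
  apply simpleData_of_X (QuotientGroup.mk' (Subgroup.center (SpG m K)))
    (QuotientGroup.mk'_surjective _) _ _ (uSp_isPGroup p) (simpleDataX_uSp p hm hex)
  · rw [QuotientGroup.ker_mk']
  · intro z hz k hk
    rw [QuotientGroup.ker_mk'] at hz
    exact sp_center_pElt p hz hk

/-- The `p`-fusion system of `PSp_{2m}(K)` (`char K = p`) on any Sylow `p`-subgroup is simple. -/
theorem psp_simpleData [Finite K] (p : ℕ) [Fact p.Prime] [CharP K p] (hm : 2 ≤ m)
    (hex : m = 2 → 3 ≤ Nat.card K)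
    (S : Sylow p (SpG m K ⧸ Subgroup.center (SpG m K))) :
    SimpleData p (S : Subgroup (SpG m K ⧸ Subgroup.center (SpG m K))) := by
  haveI : Finite (SpG m K) := sp_finite
  obtain ⟨P, hP⟩ := uSp_sylow (m := m) (K := K) p
  obtain ⟨g, hg⟩ := MulAction.exists_smul_eq (SpG m K ⧸ Subgroup.center (SpG m K))
    (P.mapSurjective (QuotientGroup.mk'_surjective (Subgroup.center (SpG m K)))) S
  have h1 := (simpleData_uSp (m := m) (K := K) p hm hex).map (MulAut.conj g)
  have h2 : (S : Subgroup (SpG m K ⧸ Subgroup.center (SpG m K))) =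
      ((uSp m K).map (QuotientGroup.mk' (Subgroup.center (SpG m K)))).map
        (MulAut.conj g).toMonoidHom := by
    rw [← hg, Sylow.coe_subgroup_smul, Sylow.coe_mapSurjective, hP]
    rfl
  rw [h2]
  exact h1

end Sp7

end Cfsg.Agent.Helper25
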