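import Mathlib
import Cfsg.Prelude.Def_GeometricClasses
import Cfsg.Agent.Lead.S5998p8

set_option autoImplicit false
open scoped MatrixGroups

namespace Cfsg.Agent.Helper25.U3B4

/-- a normalising `y` with `y ^ r` central (`r` prime, `r ≠ 2, 3`) centralises a nonabelian
`R` of order 27 -/
theorem cent_of_norm {F : Type*} [Field F] (R : Subgroup (GL (Fin 3) F)) (hR : Nat.card R = 27)
    (hna : ¬ ∀ a b : R, a * b = b * a) (y : GL (Fin 3) F)
    (hy : y ∈ Cfsg.Geo.subgroupNormalizer R) (r : ℕ) [Fact r.Prime] (hr2 : r ≠ 2) (hr3 : r ≠ 3)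
    (hyr : ∀ h : GL (Fin 3) F, y ^ r * h = h * y ^ r) :
    ∀ h ∈ R, y * h = h * y := by
  have hy0 : y ∈ Subgroup.normalizer (R : Set (GL (Fin 3) F)) := hy
  have hy' : ∀ h, h ∈ R ↔ y * h * y⁻¹ ∈ R := Subgroup.mem_normalizer_iff.mp hy0
  have hyi : ∀ h, h ∈ R ↔ y⁻¹ * h * y ∈ R := by
    intro h
    have := Subgroup.mem_normalizer_iff.mp (inv_mem hy0) h
    simpa using this
  let φ : MulAut R :=
    { toFun := fun h => ⟨y * h * y⁻¹, (hy' h).mp h.2⟩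
      invFun := fun h => ⟨y⁻¹ * h * y, (hyi h).mp h.2⟩
      left_inv := fun h => Subtype.ext (by
        show y⁻¹ * (y * (h : GL (Fin 3) F) * y⁻¹) * y = h
        group)
      right_inv := fun h => Subtype.ext (by
        show y * (y⁻¹ * (h : GL (Fin 3) F) * y) * y⁻¹ = h
        group)
      map_mul' := fun a b => Subtype.ext (by
        show y * ((a : GL (Fin 3) F) * b) * y⁻¹ = (y * a * y⁻¹) * (y * b * y⁻¹)
        group) }
  have hφa : ∀ h : R, ((φ h : R) : GL (Fin 3) F) = y * h * y⁻¹ := fun h => rfl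
  have hpow : ∀ (n : ℕ) (h : R), (((φ ^ n) h : R) : GL (Fin 3) F) = y ^ n * h * (y ^ n)⁻¹ := by
    intro n
    induction n with
    | zero => intro h; simp
    | succ n ih =>
      intro h
      rw [pow_succ', MulAut.mul_apply, hφa, ih h, pow_succ']
      group
  have hφ : φ ^ r = 1 := by
    apply MulEquiv.ext
    intro h
    apply Subtype.ext
    rw [hpow r h, hyr]
    simp
  intro h hh
  have h1 := Cfsg.Agent.Lead.S5998p8.aut_trivial hR hna φ r hr2 hr3 hφ ⟨h, hh⟩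
  have h2 : y * h * y⁻¹ = h := congrArg Subtype.val h1
  calc y * h = y * h * y⁻¹ * y := by group
    _ = h * y := by rw [h2]

variable {F : Type*} [Field F] [Fintype F] {p : ℕ} [Fact p.Prime] [CharP F p]

theorem nz_scalar (R : Subgroup (GL (Fin 3) F)) (g : GL (Fin 3) F) (ω : F) (hω : ω ≠ 1) (hω3 : ω ^ 3 = 1) (hRd : ∀ y : GL (Fin 3) F, y ∈ R ↔ ∃ i j k : ℕ, (y : Matrix (Fin 3) (Fin 3) F) = (g : Matrix (Fin 3) (Fin 3) F) * (ω ^ i • (Matrix.diagonal ![1, ω ^ 2, ω] ^ j * !![0, 0, 1; 1, 0, 0; 0, 1, 0] ^ k)) * ((g⁻¹ : GL (Fin 3) F) : Matrix (Fin 3) (Fin 3) F)) (hR : Nat.card R = 27) (x : GL (Fin 3) F) (hx : x ∈ Cfsg.Geo.subgroupNormalizer R) (r : ℕ) (hr : r.Prime) (hr5 : 5 ≤ r) (hxr : ∃ z : F, ((x ^ r : GL (Fin 3) F) : Matrix (Fin 3) (Fin 3) F) = z • (1 : Matrix (Fin 3) (Fin 3) F)) : ∃ z : F, (x : Matrix (Fin 3) (Fin 3) F) = z • (1 : Matrix (Fin 3) (Fin 3) F) := by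
  classical
  have hrF : Fact r.Prime := ⟨hr⟩
  have hω0 : ω ≠ 0 := by
    rintro rfl
    simp at hω3
  have hω2 : ω ^ 2 ≠ 1 := by
    intro h
    apply hω
    have h3 : ω ^ 3 = ω := by rw [pow_succ, h, one_mul]
    rw [← h3, hω3]
  have hω21 : ω ^ 2 ≠ ω := by
    intro h
    apply hω
    have h3 : ω * ω = ω * 1 := by rw [mul_one, ← sq]; exact h
    exact mul_left_cancel₀ hω0 h3
  obtain ⟨A, hA⟩ : ∃ A : Matrix (Fin 3) (Fin 3) F, A = Matrix.diagonal ![1, ω ^ 2, ω] := ⟨_, rfl⟩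
  obtain ⟨C, hC⟩ : ∃ C : Matrix (Fin 3) (Fin 3) F, C = !![0, 0, 1; 1, 0, 0; 0, 1, 0] := ⟨_, rfl⟩
  rw [← hA, ← hC] at hRd
  have hdA : A.det ≠ 0 := by
    rw [hA, Matrix.det_diagonal, Fin.prod_univ_three]
    show (1 : F) * ω ^ 2 * ω ≠ 0
    have h3 : (1 : F) * ω ^ 2 * ω = ω ^ 3 := by ring
    rw [h3, hω3]
    exact one_ne_zero
  have hdC : C.det ≠ 0 := by
    rw [hC, Matrix.det_fin_three]
    simp
  obtain ⟨uA, huA⟩ : ∃ u : GL (Fin 3) F, (u : Matrix (Fin 3) (Fin 3) F) = A :=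
    ⟨Matrix.GeneralLinearGroup.mkOfDetNeZero A hdA, rfl⟩
  obtain ⟨uC, huC⟩ : ∃ u : GL (Fin 3) F, (u : Matrix (Fin 3) (Fin 3) F) = C :=
    ⟨Matrix.GeneralLinearGroup.mkOfDetNeZero C hdC, rfl⟩
  have haR : g * uA * g⁻¹ ∈ R := by
    rw [hRd]
    refine ⟨0, 1, 0, ?_⟩
    rw [Units.val_mul, Units.val_mul, huA, pow_zero, one_smul, pow_one, pow_zero, mul_one]
  have hcR : g * uC * g⁻¹ ∈ R := by
    rw [hRd]
    refine ⟨0, 0, 1, ?_⟩
    rw [Units.val_mul, Units.val_mul, huC, pow_zero, one_smul, pow_one, pow_zero, one_mul]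
  have hAC : A * C ≠ C * A := by
    intro h
    have h02 := congrFun (congrFun h 0) 2
    rw [hA, hC, Matrix.diagonal_mul, Matrix.mul_diagonal] at h02
    apply hω
    have h02' : (1 : F) * 1 = 1 * ω := h02
    rw [one_mul, one_mul] at h02'
    exact h02'.symm
  have hna : ¬ ∀ a b : R, a * b = b * a := by
    intro h
    have h1 : g * uA * g⁻¹ * (g * uC * g⁻¹) = g * uC * g⁻¹ * (g * uA * g⁻¹) :=
      congrArg Subtype.val (h ⟨_, haR⟩ ⟨_, hcR⟩)
    have h2 : uA * uC = uC * uA := by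
      calc uA * uC = g⁻¹ * (g * uA * g⁻¹ * (g * uC * g⁻¹)) * g := by group
        _ = g⁻¹ * (g * uC * g⁻¹ * (g * uA * g⁻¹)) * g := by rw [h1]
        _ = uC * uA := by group
    have h3 := congrArg Units.val h2
    rw [Units.val_mul, Units.val_mul, huA, huC] at h3
    exact hAC h3
  obtain ⟨z, hz⟩ := hxr
  have hxc : ∀ h : GL (Fin 3) F, x ^ r * h = h * x ^ r := by
    intro h
    apply Units.ext
    rw [Units.val_mul, Units.val_mul, hz, Matrix.smul_mul, Matrix.mul_smul, one_mul, mul_one]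
  have hcen := cent_of_norm R hR hna x hx r (by omega) (by omega) hxc
  have hxa : x * (g * uA * g⁻¹) = g * uA * g⁻¹ * x := hcen _ haR
  have hxc' : x * (g * uC * g⁻¹) = g * uC * g⁻¹ * x := hcen _ hcR
  have hya : (g⁻¹ * x * g) * uA = uA * (g⁻¹ * x * g) := by
    calc (g⁻¹ * x * g) * uA = g⁻¹ * (x * (g * uA * g⁻¹)) * g := by group
      _ = g⁻¹ * (g * uA * g⁻¹ * x) * g := by rw [hxa]
      _ = uA * (g⁻¹ * x * g) := by group
  have hyc : (g⁻¹ * x * g) * uC = uC * (g⁻¹ * x * g) := by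
    calc (g⁻¹ * x * g) * uC = g⁻¹ * (x * (g * uC * g⁻¹)) * g := by group
      _ = g⁻¹ * (g * uC * g⁻¹ * x) * g := by rw [hxc']
      _ = uC * (g⁻¹ * x * g) := by group
  obtain ⟨yu, hyu⟩ : ∃ yu : GL (Fin 3) F, yu = g⁻¹ * x * g := ⟨_, rfl⟩
  rw [← hyu] at hya hyc
  obtain ⟨Y, hY⟩ : ∃ Y : Matrix (Fin 3) (Fin 3) F,
      Y = (yu : Matrix (Fin 3) (Fin 3) F) := ⟨_, rfl⟩
  have hYA : Y * A = A * Y := by
    have h3 := congrArg Units.val hya
    rw [Units.val_mul, Units.val_mul, huA, ← hY] at h3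
    exact h3
  have hYC : Y * C = C * Y := by
    have h3 := congrArg Units.val hyc
    rw [Units.val_mul, Units.val_mul, huC, ← hY] at h3
    exact h3
  have e : ∀ i j, Y i j * (![1, ω ^ 2, ω] : Fin 3 → F) j
      = (![1, ω ^ 2, ω] : Fin 3 → F) i * Y i j := by
    intro i j
    have h3 := congrFun (congrFun hYA i) j
    rw [hA, Matrix.mul_diagonal, Matrix.diagonal_mul] at h3
    exact h3
  have off : ∀ i j : Fin 3,
      (![1, ω ^ 2, ω] : Fin 3 → F) i ≠ (![1, ω ^ 2, ω] : Fin 3 → F) j → Y i j = 0 := by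
    intro i j hij
    have h := e i j
    have h' : Y i j * ((![1, ω ^ 2, ω] : Fin 3 → F) j - (![1, ω ^ 2, ω] : Fin 3 → F) i) = 0 := by
      rw [mul_sub, h]; ring
    rcases mul_eq_zero.mp h' with h0 | h0
    · exact h0
    · exact absurd (sub_eq_zero.mp h0).symm hij
  have h01 : Y 0 1 = 0 := off 0 1 (by
    show (1 : F) ≠ ω ^ 2
    exact fun h => hω2 h.symm)
  have h02 : Y 0 2 = 0 := off 0 2 (by
    show (1 : F) ≠ ω
    exact fun h => hω h.symm)
  have h10 : Y 1 0 = 0 := off 1 0 (by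
    show ω ^ 2 ≠ (1 : F)
    exact hω2)
  have h12 : Y 1 2 = 0 := off 1 2 (by
    show ω ^ 2 ≠ ω
    exact hω21)
  have h20 : Y 2 0 = 0 := off 2 0 (by
    show ω ≠ (1 : F)
    exact hω)
  have h21 : Y 2 1 = 0 := off 2 1 (by
    show ω ≠ ω ^ 2
    exact fun h => hω21 h.symm)
  have c10 := congrFun (congrFun hYC 1) 0
  have c21 := congrFun (congrFun hYC 2) 1
  simp [hC, Matrix.mul_apply, Fin.sum_univ_three] at c10 c21
  have hYs : Y = (Y 0 0) • (1 : Matrix (Fin 3) (Fin 3) F) := by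
    ext i j
    fin_cases i <;> fin_cases j <;> simp [h01, h02, h10, h12, h20, h21, c10, c21]
  obtain ⟨s, hs⟩ : ∃ s : F, Y = s • (1 : Matrix (Fin 3) (Fin 3) F) := ⟨_, hYs⟩
  refine ⟨s, ?_⟩
  have hx' : x = g * yu * g⁻¹ := by rw [hyu]; group
  have hX : (x : Matrix (Fin 3) (Fin 3) F)
      = (g : Matrix (Fin 3) (Fin 3) F) * Y * ((g⁻¹ : GL (Fin 3) F) : Matrix (Fin 3) (Fin 3) F) := by
    rw [hY, ← Units.val_mul, ← Units.val_mul, ← hx']
  rw [hX, hs, Matrix.mul_smul, Matrix.smul_mul, mul_one, ← Units.val_mul, mul_inv_cancel,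
    Units.val_one]

end Cfsg.Agent.Helper25.U3B4
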