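import Mathlib
import Cfsg.Agent.Helper25.Sp7

set_option autoImplicit false

namespace Cfsg.Agent.Helper25

open Matrix

section Un1

variable {n k : ℕ} {K : Type*} [Field K]

/-- The `n × k` matrix of an index map. -/
def pM (K : Type*) [Field K] (p : Fin k → Fin n) : Matrix (Fin n) (Fin k) K :=
  Matrix.of fun i x => if p x = i then 1 else 0

theorem pM_apply (p : Fin k → Fin n) (i : Fin n) (x : Fin k) :
    pM K p i x = if p x = i then 1 else 0 := rfl

theorem pM_tmul {p : Fin k → Fin n} (hp : Function.Injective p) :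
    (pM K p)ᵀ * pM K p = 1 := by
  ext x y
  rw [Matrix.mul_apply, Finset.sum_eq_single (p x)]
  · rw [Matrix.transpose_apply, pM_apply, pM_apply, if_pos rfl, one_mul, Matrix.one_apply]
    by_cases h : x = y
    · rw [if_pos h, if_pos (by rw [h])]
    · rw [if_neg h, if_neg (fun e => h (hp e).symm)]
  · intro i _ hi
    rw [Matrix.transpose_apply, pM_apply, if_neg (Ne.symm hi), zero_mul]
  · intro h; exact absurd (Finset.mem_univ _) h

/-- Embedding of small matrices into `n × n` matrices along an index map. -/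
def emb (p : Fin k → Fin n) (M : Matrix (Fin k) (Fin k) K) : Matrix (Fin n) (Fin n) K :=
  1 - pM K p * (pM K p)ᵀ + pM K p * M * (pM K p)ᵀ

theorem emb_one (p : Fin k → Fin n) : emb p (1 : Matrix (Fin k) (Fin k) K) = 1 := by
  unfold emb
  rw [Matrix.mul_one, sub_add_cancel]

theorem emb_mul {p : Fin k → Fin n} (hp : Function.Injective p)
    (M N : Matrix (Fin k) (Fin k) K) : emb p (M * N) = emb p M * emb p N := by
  have h1 : ∀ X : Matrix (Fin k) (Fin n) K, (pM K p)ᵀ * (pM K p * X) = X := by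
    intro X; rw [← Matrix.mul_assoc, pM_tmul (K := K) hp, Matrix.one_mul]
  unfold emb
  simp only [Matrix.add_mul, Matrix.mul_add, Matrix.sub_mul, Matrix.mul_sub, Matrix.one_mul,
    Matrix.mul_one, Matrix.mul_assoc, h1]
  abel

theorem emb_single (p : Fin k → Fin n) (x y : Fin k) (c : K) :
    pM K p * single x y c * (pM K p)ᵀ = single (p x) (p y) c := by
  ext i j
  rw [Matrix.mul_apply, Finset.sum_eq_single y]
  · rw [Matrix.mul_single_apply_same, Matrix.transpose_apply, pM_apply, pM_apply,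
      Matrix.single_apply]
    by_cases h1 : p x = i <;> by_cases h2 : p y = j <;> simp [h1, h2]
  · intro z _ hz
    rw [Matrix.mul_single_apply_of_ne c x y i z hz (pM K p), zero_mul]
  · intro h; exact absurd (Finset.mem_univ _) h

theorem emb_transvection (p : Fin k → Fin n) (x y : Fin k) (c : K) :
    emb p (transvection x y c) = transvection (p x) (p y) c := by
  unfold emb transvection
  rw [Matrix.mul_add, Matrix.add_mul, Matrix.mul_one, emb_single]
  abel

theorem emb_apply_not_range (p : Fin k → Fin n) (M : Matrix (Fin k) (Fin k) K) (i j : Fin n)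
    (hi : ∀ x, p x ≠ i) : emb p M i j = (1 : Matrix (Fin n) (Fin n) K) i j := by
  have h0 : ∀ x, pM K p i x = 0 := fun x => by
    rw [pM_apply, if_neg (hi x)]
  have h1 : (pM K p * (pM K p)ᵀ) i j = 0 := by
    rw [Matrix.mul_apply]
    exact Finset.sum_eq_zero (fun x _ => by rw [h0, zero_mul])
  have h2 : (pM K p * M * (pM K p)ᵀ) i j = 0 := by
    rw [Matrix.mul_assoc, Matrix.mul_apply]
    exact Finset.sum_eq_zero (fun x _ => by rw [h0, zero_mul])
  unfold emb
  rw [Matrix.add_apply, Matrix.sub_apply, h1, h2, sub_zero, add_zero]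

theorem emb_apply_range {p : Fin k → Fin n} (hp : Function.Injective p)
    (M : Matrix (Fin k) (Fin k) K) (x : Fin k) (j : Fin n) :
    emb p M (p x) j = ∑ y, if p y = j then M x y else 0 := by
  have h1 : ∀ N : Matrix (Fin k) (Fin n) K, (pM K p * N) (p x) j = N x j := by
    intro N
    rw [Matrix.mul_apply, Finset.sum_eq_single x]
    · rw [pM_apply, if_pos rfl, one_mul]
    · intro w _ hw
      rw [pM_apply, if_neg (fun e => hw (hp e)), zero_mul]
    · intro h; exact absurd (Finset.mem_univ _) h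
  unfold emb
  rw [Matrix.add_apply, Matrix.sub_apply, Matrix.mul_assoc, h1, h1, Matrix.mul_apply]
  simp only [Matrix.transpose_apply, pM_apply, Matrix.one_apply, mul_ite, mul_one, mul_zero]
  rw [sub_self, zero_add]

theorem emb_diagonal {p : Fin k → Fin n} (hp : Function.Injective p) (d : Fin k → K) :
    emb p (diagonal d) = diagonal (Function.extend p d 1) := by
  ext i j
  by_cases hi : ∃ x, p x = i
  · obtain ⟨x, rfl⟩ := hi
    rw [emb_apply_range hp, Matrix.diagonal_apply, hp.extend_apply]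
    by_cases hj : p x = j
    · rw [if_pos hj, Finset.sum_eq_single x]
      · rw [if_pos hj, Matrix.diagonal_apply_eq]
      · intro y _ hy
        rw [Matrix.diagonal_apply_ne _ (Ne.symm hy)]
        simp
      · intro h; exact absurd (Finset.mem_univ _) h
    · rw [if_neg hj]
      apply Finset.sum_eq_zero
      intro y _
      by_cases hy : p y = j
      · rw [if_pos hy, Matrix.diagonal_apply_ne]
        intro e; rw [e] at hj; exact hj hy
      · rw [if_neg hy]
  · have hi' : ∀ x, p x ≠ i := fun x e => hi ⟨x, e⟩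
    rw [emb_apply_not_range p _ i j hi', Matrix.one_apply, Matrix.diagonal_apply,
      Function.extend_apply' _ _ _ hi, Pi.one_apply]

theorem inj2 {a b : Fin n} (h1 : a ≠ b) : Function.Injective ![a, b] := by
  intro x y h
  fin_cases x <;> fin_cases y <;> simp_all

theorem inj3 {a b c : Fin n} (h1 : a ≠ b) (h2 : a ≠ c) (h3 : b ≠ c) :
    Function.Injective ![a, b, c] := by
  have h1' := h1.symm
  have h2' := h2.symm
  have h3' := h3.symm
  intro x y h
  fin_cases x <;> fin_cases y <;> simp_all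

theorem inj4 {a b c d : Fin n} (h1 : a ≠ b) (h2 : a ≠ c) (h3 : a ≠ d) (h4 : b ≠ c) (h5 : b ≠ d)
    (h6 : c ≠ d) : Function.Injective ![a, b, c, d] := by
  have h1' := h1.symm
  have h2' := h2.symm
  have h3' := h3.symm
  have h4' := h4.symm
  have h5' := h5.symm
  have h6' := h6.symm
  intro x y h
  fin_cases x <;> fin_cases y <;> simp_all

theorem inj5 {a b c d e : Fin n} (h1 : a ≠ b) (h2 : a ≠ c) (h3 : a ≠ d) (h4 : a ≠ e)
    (h5 : b ≠ c) (h6 : b ≠ d) (h7 : b ≠ e) (h8 : c ≠ d) (h9 : c ≠ e) (h10 : d ≠ e) :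
    Function.Injective ![a, b, c, d, e] := by
  have h1' := h1.symm
  have h2' := h2.symm
  have h3' := h3.symm
  have h4' := h4.symm
  have h5' := h5.symm
  have h6' := h6.symm
  have h7' := h7.symm
  have h8' := h8.symm
  have h9' := h9.symm
  have h10' := h10.symm
  intro x y h
  fin_cases x <;> fin_cases y <;> simp_all

/-- The anti-involution `A ↦ W σ(A)ᵀ W` (`W` the reversal matrix). -/
def th (σ : K →+* K) (A : Matrix (Fin n) (Fin n) K) : Matrix (Fin n) (Fin n) K :=
  fun i j => σ (A j.rev i.rev)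

theorem th_apply (σ : K →+* K) (A : Matrix (Fin n) (Fin n) K) (i j : Fin n) :
    th σ A i j = σ (A j.rev i.rev) := rfl

theorem th_mul (σ : K →+* K) (A B : Matrix (Fin n) (Fin n) K) :
    th σ (A * B) = th σ B * th σ A := by
  ext i j
  rw [th_apply, Matrix.mul_apply, Matrix.mul_apply, map_sum, ← Equiv.sum_comp Fin.revPerm]
  apply Finset.sum_congr rfl
  intro x _
  rw [map_mul, th_apply, th_apply, Fin.revPerm_apply, mul_comm]

theorem th_one (σ : K →+* K) : th σ (1 : Matrix (Fin n) (Fin n) K) = 1 := by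
  ext i j
  rw [th_apply, Matrix.one_apply, Matrix.one_apply]
  by_cases h : i = j
  · rw [if_pos h, if_pos (by rw [h]), map_one]
  · rw [if_neg h, if_neg (fun e => h (Fin.rev_injective e).symm), map_zero]

theorem th_add (σ : K →+* K) (A B : Matrix (Fin n) (Fin n) K) :
    th σ (A + B) = th σ A + th σ B := by
  ext i j
  rw [th_apply, Matrix.add_apply, Matrix.add_apply, map_add, th_apply, th_apply]

theorem th_single (σ : K →+* K) (a b : Fin n) (t : K) :
    th σ (single a b t) = single b.rev a.rev (σ t) := by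
  ext i j
  rw [th_apply, Matrix.single_apply, Matrix.single_apply]
  by_cases h : a = j.rev ∧ b = i.rev
  · rw [if_pos h, if_pos ⟨by rw [h.2, Fin.rev_rev], by rw [h.1, Fin.rev_rev]⟩]
  · rw [if_neg h, if_neg, map_zero]
    rintro ⟨h1, h2⟩
    exact h ⟨by rw [← h2, Fin.rev_rev], by rw [← h1, Fin.rev_rev]⟩

theorem th_transvection (σ : K →+* K) (a b : Fin n) (t : K) :
    th σ (transvection a b t) = transvection b.rev a.rev (σ t) := by
  unfold transvection
  rw [th_add, th_one, th_single]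

theorem det_th (σ : K →+* K) (A : Matrix (Fin n) (Fin n) K) : (th σ A).det = σ A.det := by
  have h : th σ A = ((σ.mapMatrix A)ᵀ).submatrix Fin.revPerm Fin.revPerm := by
    ext i j; rfl
  rw [h, Matrix.det_submatrix_equiv_self, Matrix.det_transpose, ← RingHom.map_det]

/-- The anti-automorphism of `SL_n` induced by `th`. -/
def thS (σ : K →+* K) (A : SpecialLinearGroup (Fin n) K) : SpecialLinearGroup (Fin n) K :=
  ⟨th σ A.1, by rw [det_th, A.2, map_one]⟩

theorem thS_val (σ : K →+* K) (A : SpecialLinearGroup (Fin n) K) : (thS σ A).1 = th σ A.1 := rfl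

theorem thS_mul (σ : K →+* K) (A B : SpecialLinearGroup (Fin n) K) :
    thS σ (A * B) = thS σ B * thS σ A := Subtype.ext (th_mul σ A.1 B.1)

theorem thS_one (σ : K →+* K) : thS σ (1 : SpecialLinearGroup (Fin n) K) = 1 :=
  Subtype.ext (th_one σ)

/-- The special unitary group of the anti-diagonal Hermitian form. -/
def gJ (n : ℕ) (σ : K →+* K) : Subgroup (SpecialLinearGroup (Fin n) K) where
  carrier := {A | A * thS σ A = 1}
  mul_mem' := by
    intro A B hA hB
    show A * B * thS σ (A * B) = 1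
    rw [thS_mul, mul_assoc, ← mul_assoc B, show B * thS σ B = 1 from hB, one_mul]
    exact hA
  one_mem' := by
    show (1 : SpecialLinearGroup (Fin n) K) * thS σ 1 = 1
    rw [thS_one, one_mul]
  inv_mem' := by
    intro A hA
    show A⁻¹ * thS σ A⁻¹ = 1
    have h1 : thS σ A = A⁻¹ := eq_inv_of_mul_eq_one_right hA
    have h2 : thS σ A⁻¹ * thS σ A = 1 := by rw [← thS_mul, mul_inv_cancel, thS_one]
    rw [h1] at h2
    have h3 : thS σ A⁻¹ = A := mul_inv_eq_one.1 h2
    rw [h3, inv_mul_cancel]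

theorem mem_gJ {σ : K →+* K} {A : SpecialLinearGroup (Fin n) K} :
    A ∈ gJ n σ ↔ thS σ A = A⁻¹ :=
  ⟨fun h => eq_inv_of_mul_eq_one_right h, fun h => by
    show A * thS σ A = 1
    rw [h, mul_inv_cancel]⟩

theorem mem_gJ_of_val {σ : K →+* K} {A : SpecialLinearGroup (Fin n) K}
    (h : A.1 * th σ A.1 = 1) : A ∈ gJ n σ := Subtype.ext h

theorem gJ_inv_apply {σ : K →+* K} {A : SpecialLinearGroup (Fin n) K} (hA : A ∈ gJ n σ)
    (i j : Fin n) : (A⁻¹).1 i j = σ (A.1 j.rev i.rev) := by
  rw [← mem_gJ.1 hA]; rfl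

theorem mul_single_apply' (A : Matrix (Fin n) (Fin n) K) (x y : Fin n) (t : K) (i k : Fin n) :
    (A * single x y t) i k = if k = y then A i x * t else 0 := by
  split_ifs with h
  · subst h; exact Matrix.mul_single_apply_same t x k i A
  · exact Matrix.mul_single_apply_of_ne t x y i k h A

theorem single_mul_apply' (A : Matrix (Fin n) (Fin n) K) (x y : Fin n) (t : K) (i k : Fin n) :
    (single x y t * A) i k = if i = x then t * A y k else 0 := by
  split_ifs with h
  · subst h; exact Matrix.single_mul_apply_same t i y k A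
  · exact Matrix.single_mul_apply_of_ne t x y i k h A

theorem rne {a b : Fin n} (h : a ≠ b) : b.rev ≠ a.rev :=
  fun e => h (Fin.rev_injective e).symm

theorem sm_sJ_mem (t T : K) :
    transvection (0 : Fin 4) 1 t * transvection 2 3 (-T) * transvection 0 1 (-t) *
      transvection 2 3 T = 1 := by
  ext i j
  fin_cases i <;> fin_cases j <;> simp [mtv] <;>
    simp [transvection, Matrix.one_apply, Matrix.single_apply]

theorem sm_mJ_mem (t T s S : K) (h : s + S + t * T = 0) :
    transvection (1 : Fin 3) 2 (-T) * transvection 0 1 t * transvection 0 2 s *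
      transvection 0 2 S * transvection 1 2 T * transvection 0 1 (-t) = 1 := by
  ext i j
  fin_cases i <;> fin_cases j <;> simp [mtv] <;>
    simp [transvection, Matrix.one_apply, Matrix.single_apply] <;> linear_combination h

/-- Short root elements. -/
def sJ (σ : K →+* K) (a b : Fin n) (hab : a ≠ b) (t : K) : SpecialLinearGroup (Fin n) K :=
  tv a b hab t * tv b.rev a.rev (rne hab) (-σ t)

theorem sJ_val (σ : K →+* K) (a b : Fin n) (hab : a ≠ b) (t : K) :
    (sJ σ a b hab t).1 = transvection a b t * transvection b.rev a.rev (-σ t) := rfl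

theorem sJ_val' (σ : K →+* K) {a b : Fin n} (hab : a ≠ b) (hb : b ≠ b.rev) (t : K) :
    (sJ σ a b hab t).1 = 1 + single a b t + single b.rev a.rev (-σ t) := by
  rw [sJ_val]
  unfold transvection
  rw [Matrix.add_mul, Matrix.one_mul, Matrix.mul_add, Matrix.mul_one,
    single_mul_single_of_ne _ _ _ _ hb, add_zero]
  abel

theorem sJ_mem_gJ {σ : K →+* K} (hσ : ∀ t, σ (σ t) = t) {a b : Fin n} (hab : a ≠ b)
    (ha : a ≠ a.rev) (hb : b ≠ b.rev) (hab' : a ≠ b.rev) (t : K) : sJ σ a b hab t ∈ gJ n σ := by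
  apply mem_gJ_of_val
  rw [sJ_val, th_mul, th_transvection, th_transvection, Fin.rev_rev, Fin.rev_rev, map_neg, hσ,
    ← Matrix.mul_assoc]
  have hp : Function.Injective ![a, b, b.rev, a.rev] :=
    inj4 hab hab' ha hb (fun e => hab' (by rw [e, Fin.rev_rev])) (rne hab)
  have key := congrArg (emb ![a, b, b.rev, a.rev]) (sm_sJ_mem t (σ t))
  simp only [emb_mul hp, emb_transvection, emb_one] at key
  exact key

theorem tv_rev_mem_gJ {σ : K →+* K} {a : Fin n} (ha : a ≠ a.rev) {r : K} (hr : σ r = -r) :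
    tv a a.rev ha r ∈ gJ n σ := by
  apply mem_gJ_of_val
  rw [tv_val, th_transvection, Fin.rev_rev, hr]
  have h := congrArg Subtype.val (tv_mul a a.rev ha r (-r))
  rw [add_neg_cancel, tv_zero] at h
  exact h

/-- Root elements through a middle index `j` (`j.rev = j`). -/
def mJ (σ : K →+* K) (a j : Fin n) (h1 : a ≠ j) (h2 : j ≠ a.rev) (h3 : a ≠ a.rev) (t s : K) :
    SpecialLinearGroup (Fin n) K :=
  tv j a.rev h2 (-σ t) * tv a j h1 t * tv a a.rev h3 s

theorem mJ_val (σ : K →+* K) (a j : Fin n) (h1 : a ≠ j) (h2 : j ≠ a.rev) (h3 : a ≠ a.rev)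
    (t s : K) : (mJ σ a j h1 h2 h3 t s).1 =
      transvection j a.rev (-σ t) * transvection a j t * transvection a a.rev s := rfl

theorem mJ_val' (σ : K →+* K) (a j : Fin n) (h1 : a ≠ j) (h2 : j ≠ a.rev) (h3 : a ≠ a.rev)
    (t s : K) : (mJ σ a j h1 h2 h3 t s).1 =
      1 + single a j t + single j a.rev (-σ t) + single a a.rev s := by
  rw [mJ_val]
  unfold transvection
  simp only [Matrix.add_mul, Matrix.mul_add, Matrix.one_mul, Matrix.mul_one,
    single_mul_single_of_ne _ _ _ _ h3.symm, single_mul_single_of_ne _ _ _ _ h1.symm, add_zero,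
    Matrix.zero_mul]
  abel

theorem mJ_mem_gJ {σ : K →+* K} (hσ : ∀ t, σ (σ t) = t) {a j : Fin n} (h1 : a ≠ j)
    (h2 : j ≠ a.rev) (h3 : a ≠ a.rev) (hj : j.rev = j) {t s : K}
    (hs : s + σ s + t * σ t = 0) : mJ σ a j h1 h2 h3 t s ∈ gJ n σ := by
  apply mem_gJ_of_val
  rw [mJ_val, th_mul, th_mul, th_transvection, th_transvection, th_transvection, Fin.rev_rev, hj,
    map_neg, hσ]
  simp only [← Matrix.mul_assoc]
  have hp : Function.Injective ![a, j, a.rev] := inj3 h1 h3 h2
  have key := congrArg (emb ![a, j, a.rev]) (sm_mJ_mem t (σ t) s (σ s) hs)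
  simp only [emb_mul hp, emb_transvection, emb_one] at key
  exact key

/-- Data on the field automorphism. -/
structure UD (σ : K →+* K) : Prop where
  inv : ∀ t, σ (σ t) = t
  nid : ∃ b, σ b ≠ b
  norm : ∀ s, σ s = s → ∃ a, a * σ a = s

theorem UD.eps {σ : K →+* K} (h : UD σ) : ∃ ε : K, ε ≠ 0 ∧ σ ε = -ε := by
  obtain ⟨b, hb⟩ := h.nid
  refine ⟨b - σ b, fun e => hb (sub_eq_zero.1 e).symm, ?_⟩
  rw [map_sub, h.inv]; ring

theorem UD.tr {σ : K →+* K} (h : UD σ) (s : K) (hs : σ s = s) : ∃ r : K, r + σ r = s := by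
  obtain ⟨b, hb⟩ := h.nid
  have hne : b - σ b ≠ 0 := fun e => hb (sub_eq_zero.1 e).symm
  refine ⟨b / (b - σ b) * s, ?_⟩
  rw [map_mul, map_div₀, map_sub, h.inv, hs]
  have hne' : σ b - b ≠ 0 := fun e => hb (sub_eq_zero.1 e)
  field_simp
  ring

theorem un_two_le_q [Fintype K] {q : ℕ} (hF : Fintype.card K = q ^ 2) : 2 ≤ q := by
  have h1 : 1 < Fintype.card K := Fintype.one_lt_card
  rw [hF] at h1
  by_contra hlt
  push Not at hlt
  interval_cases q <;> simp at h1

theorem un_card_units [Fintype K] {q : ℕ} (hF : Fintype.card K = q ^ 2) :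
    Nat.card Kˣ = (q - 1) * (q + 1) := by
  have hq := un_two_le_q hF
  rw [Nat.card_units, Nat.card_eq_fintype_card, hF]
  obtain ⟨j, rfl⟩ : ∃ j, q = j + 1 := ⟨q - 1, by omega⟩
  apply Nat.sub_eq_of_eq_add
  rw [Nat.add_sub_cancel]; ring

theorem un_exists_sigma [Fintype K] {q : ℕ} (hF : Fintype.card K = q ^ 2) :
    ∃ σ : K →+* K, (∀ t, σ t = t ^ q) ∧ ∀ t, σ (σ t) = t := by
  obtain ⟨p, hp⟩ := CharP.exists K
  obtain ⟨m, hpk, hcard⟩ := FiniteField.card K p
  have : Fact p.Prime := ⟨hpk⟩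
  have : ExpChar K p := ExpChar.prime hpk
  have hdvd : q ∣ p ^ (m : ℕ) := by rw [← hcard, hF]; exact dvd_pow_self q two_ne_zero
  obtain ⟨k, -, hqk⟩ := (Nat.dvd_prime_pow hpk).mp hdvd
  refine ⟨iterateFrobenius K p k, fun t => ?_, fun t => ?_⟩
  · rw [iterateFrobenius_def, hqk]
  · rw [iterateFrobenius_def, iterateFrobenius_def, ← hqk, ← pow_mul, ← pow_two, ← hF]
    exact FiniteField.pow_card t

theorem un_gen [Fintype K] {q : ℕ} (hF : Fintype.card K = q ^ 2) :
    ∃ g : Kˣ, orderOf g = (q - 1) * (q + 1) ∧ ∀ y : Kˣ, ∃ i : ℕ, g ^ i = y := by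
  obtain ⟨g, hg⟩ := IsCyclic.exists_monoid_generator (α := Kˣ)
  have hgz : ∀ y : Kˣ, y ∈ Subgroup.zpowers g := by
    intro y
    obtain ⟨n, hn⟩ := (Submonoid.mem_powers_iff _ _).mp (hg y)
    exact Subgroup.mem_zpowers_iff.mpr ⟨(n : ℤ), by rw [zpow_natCast]; exact hn⟩
  refine ⟨g, ?_, fun y => (Submonoid.mem_powers_iff _ _).mp (hg y)⟩
  rw [← un_card_units hF]; exact orderOf_eq_card_of_forall_mem_zpowers hgz

theorem un_exists_norm [Fintype K] {σ : K →+* K} {q : ℕ} (hF : Fintype.card K = q ^ 2)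
    (hσ : ∀ t, σ t = t ^ q) (s : K) (hs : σ s = s) : ∃ a : K, a * σ a = s := by
  by_cases hs0 : s = 0
  · exact ⟨0, by rw [hs0, zero_mul]⟩
  have hq := un_two_le_q hF
  obtain ⟨g, hgo, hg⟩ := un_gen hF
  obtain ⟨i, hi⟩ := hg (Units.mk0 s hs0)
  have hu : (Units.mk0 s hs0) ^ (q - 1) = 1 := by
    apply Units.ext
    rw [Units.val_pow_eq_pow_val, Units.val_mk0, Units.val_one]
    have : s ^ (q - 1) * s = s := by
      rw [← pow_succ, Nat.sub_add_cancel (by omega), ← hσ, hs]
    exact mul_right_cancel₀ hs0 (this.trans (one_mul s).symm)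
  rw [← hi, ← pow_mul] at hu
  have hdvd : (q - 1) * (q + 1) ∣ i * (q - 1) := hgo ▸ orderOf_dvd_of_pow_eq_one hu
  have hdvd' : q + 1 ∣ i := by
    apply Nat.dvd_of_mul_dvd_mul_left (show 0 < q - 1 by omega)
    rwa [mul_comm (q - 1) i]
  obtain ⟨j, rfl⟩ := hdvd'
  refine ⟨((g ^ j : Kˣ) : K), ?_⟩
  rw [hσ, ← pow_succ', ← Units.val_pow_eq_pow_val, ← pow_mul, mul_comm j, hi, Units.val_mk0]

theorem un_exists_not_fixed [Fintype K] {σ : K →+* K} {q : ℕ} (hF : Fintype.card K = q ^ 2)
    (hσ : ∀ t, σ t = t ^ q) : ∃ b : K, σ b ≠ b := by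
  have hq := un_two_le_q hF
  obtain ⟨g, hgo, -⟩ := un_gen hF
  refine ⟨(g : K), fun h => ?_⟩
  rw [hσ] at h
  have h1 : g ^ (q - 1) = 1 := by
    apply Units.ext
    rw [Units.val_pow_eq_pow_val, Units.val_one]
    have h2 : (g : K) ^ (q - 1) * g = g := by
      rw [← pow_succ, Nat.sub_add_cancel (by omega)]; exact h
    exact mul_right_cancel₀ g.ne_zero (h2.trans (one_mul _).symm)
  have h3 := orderOf_dvd_of_pow_eq_one h1
  rw [hgo] at h3
  have h4 := Nat.le_of_dvd (by omega) h3
  have h5 : (q - 1) * 2 ≤ (q - 1) * (q + 1) := Nat.mul_le_mul_left _ (by omega)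
  exact absurd (le_trans h5 h4) (by omega)

theorem UD.of_card [Fintype K] {q : ℕ} (hF : Fintype.card K = q ^ 2) :
    ∃ σ : K →+* K, (∀ t, σ t = t ^ q) ∧ UD σ := by
  obtain ⟨σ, h1, h2⟩ := un_exists_sigma hF
  exact ⟨σ, h1, h2, un_exists_not_fixed hF h1, un_exists_norm hF h1⟩

end Un1

end Cfsg.Agent.Helper25
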