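import Mathlib
import Cfsg.Agent.Helper25.Un1

set_option autoImplicit false

namespace Cfsg.Agent.Helper25

open Matrix

section Un2

variable {n : ℕ} {K : Type*} [Field K]

/-- The unitriangular elements of `gJ`. -/
def uJ (n : ℕ) (σ : K →+* K) [Finite K] : Subgroup (SpecialLinearGroup (Fin n) K) :=
  uniSub n K ⊓ gJ n σ

theorem mem_uJ [Finite K] {σ : K →+* K} {u : SpecialLinearGroup (Fin n) K} :
    u ∈ uJ n σ ↔ UT u.1 ∧ u ∈ gJ n σ := Iff.rfl

theorem tvr_mem_uJ [Finite K] {σ : K →+* K} {a : Fin n} (ha : a < a.rev) {r : K}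
    (hr : σ r = -r) : tv a a.rev (ne_of_lt ha) r ∈ uJ n σ :=
  ⟨ut_transvection ha r, tv_rev_mem_gJ _ hr⟩

theorem sJ_mem_uJ [Finite K] {σ : K →+* K} (hσ : ∀ t, σ (σ t) = t) {a b : Fin n} (hab : a < b)
    (ha : a ≠ a.rev) (hb : b ≠ b.rev) (hab' : a ≠ b.rev) (t : K) :
    sJ σ a b (ne_of_lt hab) t ∈ uJ n σ :=
  ⟨ut_mul (ut_transvection hab t) (ut_transvection (Fin.rev_lt_rev.2 hab) _),
    sJ_mem_gJ hσ _ ha hb hab' t⟩

theorem mJ_mem_uJ [Finite K] {σ : K →+* K} (hσ : ∀ t, σ (σ t) = t) {a j : Fin n} (h1 : a ≠ j)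
    (h2 : j ≠ a.rev) (h3 : a ≠ a.rev) (haj : a < j) (hj : j.rev = j) {t s : K}
    (hs : s + σ s + t * σ t = 0) : mJ σ a j h1 h2 h3 t s ∈ uJ n σ := by
  have hja : j < a.rev := by
    have h := Fin.rev_lt_rev.2 haj
    rwa [hj] at h
  exact ⟨ut_mul (ut_mul (ut_transvection hja _) (ut_transvection haj t))
    (ut_transvection (lt_trans haj hja) s), mJ_mem_gJ hσ h1 h2 h3 hj hs⟩

theorem norm_entry [Finite K] {A u : SpecialLinearGroup (Fin n) K}
    (hu : A * u * A⁻¹ ∈ uniSub n K) (i : Fin n)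
    (hrows : ∀ k, i < k → ∀ j, j < k → A.1 k j = 0) : (A.1 * u.1) i i = A.1 i i := by
  obtain ⟨v, hv⟩ : ∃ v, v = A * u * A⁻¹ := ⟨_, rfl⟩
  rw [← hv] at hu
  have hu' : UT v.1 := hu
  have e : v * A = A * u := by rw [hv]; group
  have e1 : (v.1 * A.1) i i = (A.1 * u.1) i i :=
    congrFun (congrFun (congrArg Subtype.val e) i) i
  rw [← e1, Matrix.mul_apply, Finset.sum_eq_single i]
  · rw [hu'.2, one_mul]
  · intro k _ hk
    rcases lt_or_gt_of_ne hk with h1 | h1
    · rw [hu'.1 i k h1, zero_mul]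
    · rw [hrows k h1 i h1, mul_zero]
  · intro h1; exact absurd (Finset.mem_univ i) h1

/-- Elements conjugating `uJ` into the unitriangular group are upper triangular. -/
theorem gJ_upper_of_norm [Finite K] {σ : K →+* K} (h : UD σ)
    {A : SpecialLinearGroup (Fin n) K} (hA : ∀ u ∈ uJ n σ, A * u * A⁻¹ ∈ uniSub n K) :
    ∀ i j : Fin n, j < i → A.1 i j = 0 := by
  obtain ⟨ε, hε0, hε⟩ := h.eps
  obtain ⟨s, hs⟩ := h.tr (-1) (by rw [map_neg, map_one])
  have hs' : s + σ s + 1 * σ 1 = 0 := by rw [hs, map_one]; ring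
  have key : ∀ d : ℕ, ∀ i : Fin n, n ≤ (i : ℕ) + d → ∀ b : Fin n, b < i → A.1 i b = 0 := by
    intro d
    induction d with
    | zero => intro i hi; exact absurd i.2 (by omega)
    | succ d ih =>
      intro i hi b hb
      have hrows : ∀ k, i < k → ∀ j, j < k → A.1 k j = 0 := fun k hk j hj =>
        ih k (by rw [Fin.lt_def] at hk; omega) j hj
      have c1 : ∀ x : Fin n, x < i → i = x.rev → A.1 i x = 0 := by
        intro x hx hix
        have hxx : x < x.rev := by rw [← hix]; exact hx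
        have h1 := norm_entry (hA _ (tvr_mem_uJ hxx hε)) i hrows
        rw [tv_val] at h1
        unfold transvection at h1
        rw [Matrix.mul_add, Matrix.mul_one, Matrix.add_apply, mul_single_apply', if_pos hix] at h1
        have h2 : A.1 i x * ε = 0 := by simpa using h1
        exact (mul_eq_zero.1 h2).resolve_right hε0
      by_cases h1 : i = b.rev
      · exact c1 b hb h1
      by_cases h2 : b = b.rev
      · have hib : i.rev < b := by
          have h := Fin.rev_lt_rev.2 hb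
          rwa [← h2] at h
        have h3 : A.1 i i.rev = 0 := c1 i.rev (lt_trans hib hb) (Fin.rev_rev i).symm
        have hm := norm_entry (hA _ (mJ_mem_uJ h.inv (ne_of_lt hib)
          (by rw [Fin.rev_rev]; exact ne_of_lt hb)
          (by rw [Fin.rev_rev]; exact ne_of_lt (lt_trans hib hb)) hib h2.symm hs')) i hrows
        rw [mJ_val'] at hm
        simp only [Matrix.mul_add, Matrix.mul_one, Matrix.add_apply, mul_single_apply',
          Fin.rev_rev] at hm
        simpa [ne_of_gt hb, h3] using hm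
      by_cases h3 : i = i.rev
      · have hib : i < b.rev := by
          have h := Fin.rev_lt_rev.2 hb
          rwa [← h3] at h
        have hm := norm_entry (hA _ (mJ_mem_uJ h.inv (ne_of_lt hb) (ne_of_lt hib) h2 hb
          h3.symm hs')) i hrows
        rw [mJ_val'] at hm
        simp only [Matrix.mul_add, Matrix.mul_one, Matrix.add_apply, mul_single_apply'] at hm
        simpa [h1] using hm
      · have hm := norm_entry (hA _ (sJ_mem_uJ h.inv hb h2 h3
          (fun e => h1 (by rw [e, Fin.rev_rev])) 1)) i hrows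
        rw [sJ_val' σ (ne_of_lt hb) h3] at hm
        simp only [Matrix.mul_add, Matrix.mul_one, Matrix.add_apply, mul_single_apply'] at hm
        simpa [h1] using hm
  intro i j hij
  exact key n i (by omega) j hij

/-- `uJ` as a subgroup of the group `gJ`. -/
def uX (n : ℕ) (σ : K →+* K) [Finite K] : Subgroup (↥(gJ n σ)) :=
  (uniSub n K).comap (gJ n σ).subtype

theorem mem_uX [Finite K] {σ : K →+* K} {g : ↥(gJ n σ)} : g ∈ uX n σ ↔ UT g.1.1 := Iff.rfl

theorem gJ_finite [Finite K] (σ : K →+* K) : Finite ↥(gJ n σ) := by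
  haveI := sl_finite (n := n) (K := K)
  infer_instance

theorem uX_isPGroup [Finite K] (σ : K →+* K) (p : ℕ) [Fact p.Prime] [CharP K p] :
    IsPGroup p (uX n σ) :=
  (uni_isPGroup (n := n) (K := K) p).comap_of_injective (gJ n σ).subtype Subtype.coe_injective

theorem uX_upper [Finite K] {σ : K →+* K} (h : UD σ) {g : ↥(gJ n σ)}
    (hg : g ∈ Subgroup.normalizer ((uX n σ : Subgroup ↥(gJ n σ)) : Set ↥(gJ n σ))) :
    ∀ i j : Fin n, j < i → g.1.1 i j = 0 := by
  apply gJ_upper_of_norm h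
  intro u hu
  have h1 := (Subgroup.mem_normalizer_iff.1 hg ⟨u, hu.2⟩).1
    (show (⟨u, hu.2⟩ : ↥(gJ n σ)) ∈ uX n σ from hu.1)
  exact h1

theorem uX_pElt_mem [Finite K] {σ : K →+* K} (h : UD σ) (p : ℕ) [Fact p.Prime] [CharP K p]
    {g : ↥(gJ n σ)}
    (hg : g ∈ Subgroup.normalizer ((uX n σ : Subgroup ↥(gJ n σ)) : Set ↥(gJ n σ))) {k : ℕ}
    (hk : g ^ p ^ k = 1) : g ∈ uX n σ := by
  show UT g.1.1
  apply ut_of_upper_pElt p (uX_upper h hg) (k := k)
  rw [← SubgroupClass.coe_pow, hk]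
  rfl

theorem uX_sylow [Finite K] {σ : K →+* K} (h : UD σ) (p : ℕ) [Fact p.Prime] [CharP K p] :
    ∃ P : Sylow p ↥(gJ n σ), (P : Subgroup ↥(gJ n σ)) = uX n σ := by
  haveI := gJ_finite (n := n) σ
  exact sylow_of_pElts (uX_isPGroup σ p) (fun g hg ⟨k, hk⟩ => uX_pElt_mem h p hg hk)

end Un2

end Cfsg.Agent.Helper25
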