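import Mathlib
import Cfsg.Agent.Helper25.Un2

set_option autoImplicit false

namespace Cfsg.Agent.Helper25

open Matrix

section Un3

variable {n : ℕ} {K : Type*} [Field K]

theorem comm_unit {g : Matrix (Fin n) (Fin n) K} {u v : Fin n}
    (h : Commute (single u v (1 : K)) g) :
    (∀ i, i ≠ u → g i u = 0) ∧ (∀ k, k ≠ v → g v k = 0) ∧ g u u = g v v := by
  have e : ∀ i k, (single u v (1 : K) * g) i k = (g * single u v (1 : K)) i k := fun i k => by
    rw [h.eq]
  refine ⟨fun i hi => ?_, fun k hk => ?_, ?_⟩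
  · have h1 := e i v
    rw [single_mul_apply', mul_single_apply', if_neg hi, if_pos rfl, mul_one] at h1
    exact h1.symm
  · have h1 := e u k
    rw [single_mul_apply', mul_single_apply', if_pos rfl, if_neg hk, one_mul] at h1
    exact h1
  · have h1 := e u v
    rw [single_mul_apply', mul_single_apply', if_pos rfl, if_pos rfl, one_mul, mul_one] at h1
    exact h1.symm

theorem comm_of_one_add {g X : Matrix (Fin n) (Fin n) K} (h : (1 + X) * g = g * (1 + X)) :
    Commute X g := by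
  rw [Matrix.add_mul, Matrix.mul_add, Matrix.one_mul, Matrix.mul_one] at h
  exact add_left_cancel h

theorem comm_single_scale {g : Matrix (Fin n) (Fin n) K} {x y : Fin n} {c : K} (hc : c ≠ 0)
    (h : Commute (single x y c) g) : Commute (single x y (1 : K)) g := by
  have e : single x y (1 : K) = c⁻¹ • single x y c := by
    rw [Matrix.smul_single, smul_eq_mul, inv_mul_cancel₀ hc]
  rw [e]
  exact h.smul_left c⁻¹

theorem comm_single_scale' {g : Matrix (Fin n) (Fin n) K} {x y : Fin n} (c : K)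
    (h : Commute (single x y (1 : K)) g) : Commute (single x y c) g := by
  have e : single x y c = c • single x y (1 : K) := by
    rw [Matrix.smul_single, smul_eq_mul, mul_one]
  rw [e]
  exact h.smul_left c

theorem comm_split {g E₁ E₂ : Matrix (Fin n) (Fin n) K} {b c : K} (hbc : b ≠ c)
    (h1 : Commute (E₁ - E₂) g) (h2 : Commute (b • E₁ - c • E₂) g) :
    Commute E₁ g ∧ Commute E₂ g := by
  have h3 : Commute ((b - c) • E₁) g := by
    have e : (b - c) • E₁ = (b • E₁ - c • E₂) - c • (E₁ - E₂) := by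
      rw [sub_smul, smul_sub]; abel
    rw [e]
    exact h2.sub_left (h1.smul_left c)
  have h4 : Commute E₁ g := by
    have e : E₁ = (b - c)⁻¹ • ((b - c) • E₁) := by rw [inv_smul_smul₀ (sub_ne_zero.2 hbc)]
    rw [e]
    exact h3.smul_left _
  refine ⟨h4, ?_⟩
  have e : E₂ = E₁ - (E₁ - E₂) := by abel
  rw [e]
  exact h4.sub_left h1

theorem comm_split' {σ : K →+* K} {b₀ : K} (hb₀ : σ b₀ ≠ b₀) {g : Matrix (Fin n) (Fin n) K}
    {x y z w : Fin n} (h1 : ∀ t : K, Commute (single x y t + single z w (-σ t)) g) :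
    Commute (single x y (1 : K)) g ∧ Commute (single z w (1 : K)) g := by
  apply comm_split (Ne.symm hb₀)
  · have h2 := h1 1
    rw [map_one] at h2
    rw [sub_eq_add_neg, Matrix.single_neg]
    exact h2
  · have h2 := h1 b₀
    have e : single x y b₀ + single z w (-σ b₀) =
        b₀ • single x y (1 : K) - σ b₀ • single z w (1 : K) := by
      rw [Matrix.smul_single, Matrix.smul_single, smul_eq_mul, smul_eq_mul, mul_one, mul_one,
        sub_eq_add_neg, Matrix.single_neg]
    rw [← e]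
    exact h2

theorem units_of_sJ {σ : K →+* K} {b₀ : K} (hb₀ : σ b₀ ≠ b₀)
    {g : SpecialLinearGroup (Fin n) K} {x y : Fin n} (hxy : x ≠ y) (hy : y ≠ y.rev)
    (h : ∀ t : K, sJ σ x y hxy t * g = g * sJ σ x y hxy t) :
    Commute (single x y (1 : K)) g.1 ∧ Commute (single y.rev x.rev (1 : K)) g.1 := by
  apply comm_split' hb₀
  intro t
  apply comm_of_one_add
  have h2 := congrArg Subtype.val (h t)
  rw [← add_assoc, ← sJ_val' σ hxy hy]
  exact h2

theorem units_of_mJ {σ : K →+* K} (hσ : UD σ) {g : SpecialLinearGroup (Fin n) K} {x j : Fin n}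
    (h1 : x ≠ j) (h2 : j ≠ x.rev) (h3 : x ≠ x.rev)
    (hE : Commute (single x x.rev (1 : K)) g.1)
    (h : ∀ t s : K, s + σ s + t * σ t = 0 →
      mJ σ x j h1 h2 h3 t s * g = g * mJ σ x j h1 h2 h3 t s) :
    Commute (single x j (1 : K)) g.1 ∧ Commute (single j x.rev (1 : K)) g.1 := by
  obtain ⟨b₀, hb₀⟩ := hσ.nid
  apply comm_split' hb₀
  intro t
  obtain ⟨r, hr⟩ := hσ.tr (-(t * σ t)) (by rw [map_neg, map_mul, hσ.inv]; ring)
  have hs : r + σ r + t * σ t = 0 := by rw [hr]; ring
  have h4 : Commute (single x j t + single j x.rev (-σ t) + single x x.rev r) g.1 := by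
    apply comm_of_one_add
    have h5 := congrArg Subtype.val (h t r hs)
    rw [← add_assoc, ← add_assoc, ← mJ_val' σ x j h1 h2 h3]
    exact h5
  have h6 : Commute (single x x.rev r) g.1 := comm_single_scale' r hE
  have e : single x j t + single j x.rev (-σ t) =
      (single x j t + single j x.rev (-σ t) + single x x.rev r) - single x x.rev r := by abel
  rw [e]
  exact h4.sub_left h6

/-- An element centralizing the root elements of `uJ` vanishing on an excluded set of
positions commutes with the matrix units at the other positions. -/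
theorem units_of_cent [Finite K] {σ : K →+* K} (hσ : UD σ) {g : SpecialLinearGroup (Fin n) K}
    (Ex : Fin n → Fin n → Prop) (hEx0 : ∀ p q, Ex p q → p ≠ q)
    (hEx1 : ∀ p q, Ex p q → Ex q.rev p.rev)
    (hEx2 : ∀ x j : Fin n, j.rev = j → Ex x x.rev → Ex x j)
    (hg : ∀ r ∈ uJ n σ, (∀ p q, Ex p q → r.1 p q = 0) → r * g = g * r) :
    ∀ u v : Fin n, u < v → ¬ Ex u v → Commute (single u v (1 : K)) g.1 := by
  obtain ⟨ε, hε0, hε⟩ := hσ.eps
  obtain ⟨b₀, hb₀⟩ := hσ.nid
  have long : ∀ x : Fin n, x < x.rev → ¬ Ex x x.rev → Commute (single x x.rev (1 : K)) g.1 := by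
    intro x hx hE
    apply comm_single_scale hε0
    apply comm_of_one_add
    refine congrArg Subtype.val (hg _ (tvr_mem_uJ hx hε) ?_)
    intro p q hpq
    rw [tv_val]
    unfold transvection
    rw [Matrix.add_apply, Matrix.one_apply_ne (hEx0 p q hpq), Matrix.single_apply, if_neg,
      add_zero]
    rintro ⟨rfl, rfl⟩
    exact hE hpq
  intro u v huv hE
  have hE' : ¬ Ex v.rev u.rev := by
    intro h1
    have h2 := hEx1 _ _ h1
    rw [Fin.rev_rev, Fin.rev_rev] at h2
    exact hE h2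
  by_cases c1 : v = u.rev
  · subst c1
    exact long u huv hE
  by_cases c2 : v = v.rev
  · have hvu : v < u.rev := by
      have h := Fin.rev_lt_rev.2 huv
      rwa [← c2] at h
    have huu : u < u.rev := lt_trans huv hvu
    have hEuu : ¬ Ex u u.rev := fun h1 => hE (hEx2 u v c2.symm h1)
    refine (units_of_mJ hσ (ne_of_lt huv) (ne_of_lt hvu) (ne_of_lt huu) (long u huu hEuu)
      (fun t s hs => hg _ (mJ_mem_uJ hσ.inv _ _ _ huv c2.symm hs) ?_)).1
    intro p q hpq
    rw [mJ_val']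
    simp only [Matrix.add_apply, Matrix.one_apply_ne (hEx0 p q hpq), Matrix.single_apply]
    rw [if_neg, if_neg, if_neg]
    · simp
    · rintro ⟨rfl, rfl⟩; exact hEuu hpq
    · rintro ⟨rfl, rfl⟩
      apply hE'
      rw [← c2]; exact hpq
    · rintro ⟨rfl, rfl⟩; exact hE hpq
  by_cases c3 : u = u.rev
  · obtain ⟨x, hx⟩ : ∃ x, x = v.rev := ⟨_, rfl⟩
    have hxv : x.rev = v := by rw [hx, Fin.rev_rev]
    have hxu : x < u := by
      have h := Fin.rev_lt_rev.2 huv
      rw [← c3, ← hx] at h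
      exact h
    have hxx : x < x.rev := by rw [hxv]; exact lt_trans hxu huv
    have hExu : ¬ Ex x u := by
      intro h1
      have h2 := hEx1 _ _ h1
      rw [hxv, ← c3] at h2
      exact hE h2
    have hExx : ¬ Ex x x.rev := fun h1 => hExu (hEx2 x u c3.symm h1)
    have h4 := (units_of_mJ hσ (ne_of_lt hxu) (by rw [hxv]; exact ne_of_lt huv) (ne_of_lt hxx)
      (long x hxx hExx)
      (fun t s hs => hg _ (mJ_mem_uJ hσ.inv _ _ _ hxu c3.symm hs) ?_)).2
    · rw [hxv] at h4; exact h4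
    intro p q hpq
    rw [mJ_val']
    simp only [Matrix.add_apply, Matrix.one_apply_ne (hEx0 p q hpq), Matrix.single_apply]
    rw [if_neg, if_neg, if_neg]
    · simp
    · rintro ⟨rfl, rfl⟩; exact hExx hpq
    · rintro ⟨rfl, rfl⟩
      rw [hxv] at hpq; exact hE hpq
    · rintro ⟨rfl, rfl⟩; exact hExu hpq
  · have huv' : u ≠ v.rev := fun e => c1 (by rw [e, Fin.rev_rev])
    refine (units_of_sJ hb₀ (ne_of_lt huv) c2
      (fun t => hg _ (sJ_mem_uJ hσ.inv huv c3 c2 huv' t) ?_)).1
    intro p q hpq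
    rw [sJ_val' σ (ne_of_lt huv) c2]
    simp only [Matrix.add_apply, Matrix.one_apply_ne (hEx0 p q hpq), Matrix.single_apply]
    rw [if_neg, if_neg]
    · simp
    · rintro ⟨rfl, rfl⟩; exact hE' hpq
    · rintro ⟨rfl, rfl⟩; exact hE hpq

theorem cent_tools {g : Matrix (Fin n) (Fin n) K} (Ex : Fin n → Fin n → Prop)
    (hU : ∀ u v : Fin n, u < v → ¬ Ex u v → Commute (single u v (1 : K)) g) (o o' : Fin n) :
    (∀ k, k < o' → ¬ Ex k o' → ∀ i, i ≠ k → g i k = 0) ∧
    (∀ i, o < i → ¬ Ex o i → ∀ k, k ≠ i → g i k = 0) ∧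
    (∀ k, k < o' → ¬ Ex k o' → g k k = g o' o') ∧
    (∀ i, o < i → ¬ Ex o i → g o o = g i i) :=
  ⟨fun k hk hE => (comm_unit (hU k o' hk hE)).1, fun i hi hE => (comm_unit (hU o i hi hE)).2.1,
    fun k hk hE => (comm_unit (hU k o' hk hE)).2.2, fun i hi hE => (comm_unit (hU o i hi hE)).2.2⟩

theorem tv_comm_of_unit {g : SpecialLinearGroup (Fin n) K} {j k : Fin n} (hjk : j ≠ k) (c : K)
    (h : Commute (single j k (1 : K)) g.1) : tv j k hjk c * g = g * tv j k hjk c := by
  apply Subtype.ext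
  show transvection j k c * g.1 = g.1 * transvection j k c
  unfold transvection
  rw [Matrix.add_mul, Matrix.mul_add, Matrix.one_mul, Matrix.mul_one,
    (comm_single_scale' c h).eq]

/-- The centre of `uJ` consists of long root elements. -/
theorem uJ_center [Finite K] {σ : K →+* K} (hσ : UD σ) (hn : 2 ≤ n)
    {z : SpecialLinearGroup (Fin n) K} (hz : UT z.1) (hc : ∀ r ∈ uJ n σ, r * z = z * r)
    (o l : Fin n) (ho : (o : ℕ) = 0) (hl : (l : ℕ) = n - 1) (hol : o ≠ l) :
    z = tv o l hol (z.1 o l) := by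
  have hU := units_of_cent hσ (g := z) (fun _ _ => False) (fun _ _ h => h.elim)
    (fun _ _ h => h.elim) (fun _ _ _ h => h.elim) (fun r hr _ => hc r hr)
  exact uni_center_eq hn hz (fun j k hjk => tv_comm_of_unit _ 1 (hU j k hjk (fun h => h)))
    o l ho hl hol

theorem tv_rev_gJ_coeff {σ : K →+* K} {a : Fin n} (ha : a ≠ a.rev) {c : K}
    (h : tv a a.rev ha c ∈ gJ n σ) : σ c = -c := by
  have h1 := congrArg Subtype.val (mem_gJ.1 h)
  rw [tv_inv] at h1
  have h2 := congrFun (congrFun h1 a) a.rev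
  rw [thS_val, tv_val, tv_val, th_transvection, Fin.rev_rev] at h2
  unfold transvection at h2
  rw [Matrix.add_apply, Matrix.add_apply, Matrix.one_apply_ne ha, Matrix.single_apply_same,
    Matrix.single_apply_same, zero_add, zero_add] at h2
  exact h2

/-- Central `p`-elements of `gJ` are trivial. -/
theorem gJ_center_pElt [Finite K] {σ : K →+* K} (hσ : UD σ) (hn : 2 ≤ n) (p : ℕ)
    [Fact p.Prime] [CharP K p] {z : ↥(gJ n σ)} (hz : z ∈ Subgroup.center ↥(gJ n σ)) {k : ℕ}
    (hk : z ^ p ^ k = 1) : z = 1 := by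
  have hzN : z ∈ Subgroup.normalizer ((uX n σ : Subgroup ↥(gJ n σ)) : Set ↥(gJ n σ)) := by
    rw [Subgroup.mem_normalizer_iff]
    intro h
    have h1 : z * h * z⁻¹ = h := by
      rw [← Subgroup.mem_center_iff.1 hz h, mul_inv_cancel_right]
    rw [h1]
  have hzU : UT z.1.1 := uX_pElt_mem hσ p hzN hk
  have hcomm : ∀ r : SpecialLinearGroup (Fin n) K, r ∈ gJ n σ → r * z.1 = z.1 * r := by
    intro r hr
    exact congrArg Subtype.val (Subgroup.mem_center_iff.1 hz ⟨r, hr⟩)
  obtain ⟨l, hl⟩ : ∃ l : Fin n, (l : ℕ) = n - 1 := ⟨⟨n - 1, by omega⟩, rfl⟩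
  have ho : ((l.rev : Fin n) : ℕ) = 0 := by rw [Fin.val_rev]; omega
  have hol : l.rev ≠ l := by
    intro e
    have := congrArg Fin.val e
    rw [ho] at this
    omega
  have h1 := uJ_center hσ hn hzU (fun r hr => hcomm r hr.2) l.rev l ho hl hol
  obtain ⟨ε, hε0, hε⟩ := hσ.eps
  have h2 := hcomm _ (tv_rev_mem_gJ hol.symm hε)
  have h3 : Commute (single l l.rev (1 : K)) z.1.1 := by
    apply comm_single_scale hε0
    apply comm_of_one_add
    exact congrArg Subtype.val h2
  have h4 : z.1.1 l.rev l = 0 := (comm_unit h3).1 l.rev hol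
  rw [h4, tv_zero] at h1
  exact Subtype.ext h1

/-- An upper triangular element of `gJ` with constant diagonal is a central multiple of a
unitriangular element. -/
theorem gJ_constdiag {σ : K →+* K} (hn : 0 < n) {g : ↥(gJ n σ)}
    (hup : ∀ i j : Fin n, j < i → g.1.1 i j = 0) (hdg : ∀ i j : Fin n, g.1.1 i i = g.1.1 j j) :
    ∃ r : ↥(gJ n σ), UT r.1.1 ∧ (∀ i j, g.1.1 i j = 0 → r.1.1 i j = 0) ∧
      QuotientGroup.mk' (Subgroup.center ↥(gJ n σ)) g =
        QuotientGroup.mk' (Subgroup.center ↥(gJ n σ)) r := by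
  obtain ⟨o, ho⟩ : ∃ o : Fin n, (o : ℕ) = 0 := ⟨⟨0, hn⟩, rfl⟩
  obtain ⟨c, hc⟩ : ∃ c, c = g.1.1 o o := ⟨_, rfl⟩
  have hcc : ∀ i, g.1.1 i i = c := fun i => by rw [hc]; exact hdg i _
  have hdet : c ^ n = 1 := by
    have h1 := g.1.2
    rw [Matrix.det_of_upperTriangular (fun i j h => hup i j h)] at h1
    simp_rw [hcc] at h1
    rw [Finset.prod_const, Finset.card_univ, Fintype.card_fin] at h1
    exact h1
  have hc0 : c ≠ 0 := by
    intro h0
    rw [h0, zero_pow (by omega)] at hdet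
    exact zero_ne_one hdet
  have hcσ : c * σ c = 1 := by
    have h1 : g.1 * thS σ g.1 = 1 := g.2
    have h2 : (g.1.1 * th σ g.1.1) o o = (1 : Matrix (Fin n) (Fin n) K) o o :=
      congrFun (congrFun (congrArg Subtype.val h1) o) o
    rw [Matrix.one_apply_eq] at h2
    have h3 : (g.1.1 * th σ g.1.1) o o = c * σ c := by
      rw [Matrix.mul_apply, Finset.sum_eq_single o]
      · rw [th_apply, hcc, hcc]
      · intro x _ hx
        rw [th_apply, hup o.rev x.rev, map_zero, mul_zero]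
        rw [Fin.rev_lt_rev]
        rw [Fin.lt_def, ho]
        have : (x : ℕ) ≠ 0 := fun e => hx (Fin.ext (by rw [e, ho]))
        omega
      · intro h; exact absurd (Finset.mem_univ _) h
    rw [← h3]
    exact h2
  obtain ⟨z, hz⟩ : ∃ z : SpecialLinearGroup (Fin n) K, z.1 = diagonal (fun _ => c) := by
    refine ⟨⟨diagonal (fun _ => c), ?_⟩, rfl⟩
    rw [Matrix.det_diagonal, Finset.prod_const, Finset.card_univ, Fintype.card_fin]
    exact hdet
  have hzc : z ∈ Subgroup.center (SpecialLinearGroup (Fin n) K) := by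
    rw [Matrix.SpecialLinearGroup.mem_center_iff]
    refine ⟨c, ?_, ?_⟩
    · rw [Fintype.card_fin]; exact hdet
    · rw [hz, Matrix.scalar_apply]
  have hzJ : z ∈ gJ n σ := by
    apply mem_gJ_of_val
    ext i j
    rw [hz, Matrix.diagonal_mul, th_apply, Matrix.diagonal_apply, Matrix.one_apply]
    by_cases hij : i = j
    · rw [if_pos hij, if_pos (by rw [hij]), hcσ]
    · rw [if_neg hij, if_neg (fun e => hij (Fin.rev_injective e).symm), map_zero, mul_zero]
  have hzX : (⟨z, hzJ⟩ : ↥(gJ n σ)) ∈ Subgroup.center ↥(gJ n σ) := by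
    rw [Subgroup.mem_center_iff]
    intro h
    exact Subtype.ext (Subgroup.mem_center_iff.1 hzc h.1)
  obtain ⟨r, hr⟩ : ∃ r : ↥(gJ n σ), r = (⟨z, hzJ⟩ : ↥(gJ n σ))⁻¹ * g := ⟨_, rfl⟩
  have e : (⟨z, hzJ⟩ : ↥(gJ n σ)) * r = g := by rw [hr]; group
  have e1 : ∀ i j, c * r.1.1 i j = g.1.1 i j := by
    intro i j
    have h2 : (z.1 * r.1.1) i j = g.1.1 i j :=
      congrFun (congrFun (congrArg (fun x : ↥(gJ n σ) => x.1.1) e) i) j
    rw [hz, Matrix.diagonal_mul] at h2
    exact h2
  refine ⟨r, ⟨fun i j hij => ?_, fun i => ?_⟩, fun i j h0 => ?_, ?_⟩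
  · have h3 := e1 i j
    rw [hup i j hij] at h3
    exact (mul_eq_zero.1 h3).resolve_left hc0
  · have h3 := e1 i i
    rw [hcc i] at h3
    exact mul_left_cancel₀ hc0 (by rw [h3, mul_one])
  · have h3 := e1 i j
    rw [h0] at h3
    exact (mul_eq_zero.1 h3).resolve_left hc0
  · rw [hr]
    exact mk_center_mul (Subgroup.inv_mem _ hzX) g

end Un3

end Cfsg.Agent.Helper25
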