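import Mathlib
import Cfsg.Agent.Helper25.Un3

set_option autoImplicit false

namespace Cfsg.Agent.Helper25

open Matrix

section Un4

variable {n : ℕ} {K : Type*} [Field K]

theorem tv_mem_gJ' {σ : K →+* K} {a b : Fin n} (hab : a ≠ b) (hb : b = a.rev) {r : K}
    (hr : σ r = -r) : tv a b hab r ∈ gJ n σ := by
  subst hb
  exact tv_rev_mem_gJ hab hr

theorem gJ_adj0 [Finite K] {σ : K →+* K} {q : SpecialLinearGroup (Fin n) K} (hq : UT q.1)
    (hJ : q ∈ gJ n σ) {a b : Fin n} (hab : (b : ℕ) = a + 1) (h0 : q.1 a b = 0) :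
    q.1 b.rev a.rev = 0 := by
  have h1 := gJ_inv_apply hJ a b
  have h2 := ut_mul_adj hq (ut_inv hq) hab
  have h3 : q.1 * (q⁻¹).1 = 1 := congrArg Subtype.val (mul_inv_cancel q)
  rw [h3, Matrix.one_apply_ne (adj_ne hab), h0, zero_add, h1] at h2
  exact (map_eq_zero σ).1 h2.symm

/-- The radical subgroup of a minimal parabolic, inside `gJ`. -/
def rX (σ : K →+* K) [Finite K] (a b : Fin n) (hab : (b : ℕ) = a + 1) : Subgroup ↥(gJ n σ) :=
  (radSub K a b hab).comap (gJ n σ).subtype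

theorem uX_le_normalizer_rX [Finite K] (σ : K →+* K) {a b : Fin n} (hab : (b : ℕ) = a + 1) :
    uX n σ ≤ Subgroup.normalizer ((rX σ a b hab : Subgroup ↥(gJ n σ)) : Set ↥(gJ n σ)) :=
  (Subgroup.comap_mono (uni_le_normalizer_rad _ _ hab)).trans (Subgroup.le_normalizer_comap _)

/-- Excluded positions for a minimal parabolic of a short node. -/
def ExA (n a : ℕ) (p q : Fin n) : Prop :=
  ((p : ℕ) = a ∧ (q : ℕ) = a + 1) ∨ ((p : ℕ) + a + 2 = n ∧ (q : ℕ) + a + 1 = n)

theorem cent_rA_shape (hn : 4 ≤ n) {a : ℕ} (ha : 2 * a + 1 < n)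
    {g : Matrix (Fin n) (Fin n) K}
    (hU : ∀ u v : Fin n, u < v → ¬ ExA n a u v → Commute (single u v (1 : K)) g) :
    (∀ i k : Fin n, k < i → g i k = 0) ∧ (∀ i k : Fin n, g i i = g k k) ∧
      (∀ p q : Fin n, ExA n a p q → g p q = 0) := by
  obtain ⟨o, ho⟩ : ∃ o : Fin n, (o : ℕ) = 0 := ⟨⟨0, by omega⟩, rfl⟩
  obtain ⟨o', ho'⟩ : ∃ o' : Fin n, (o' : ℕ) = n - 1 := ⟨⟨n - 1, by omega⟩, rfl⟩
  obtain ⟨col, row, dg1, dg2⟩ := cent_tools (ExA n a) hU o o'
  refine ⟨?_, ?_, ?_⟩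
  · intro i k hki
    have hk := k.2
    have hi := i.2
    have hki' := hki
    rw [Fin.lt_def] at hki'
    by_cases hE : ExA n a k o'
    · apply row i (by rw [Fin.lt_def]; omega) ?_ k (ne_of_lt hki)
      unfold ExA at hE ⊢
      omega
    · exact col k (by rw [Fin.lt_def]; omega) hE i (ne_of_gt hki)
  · have key : ∀ k : Fin n, g k k = g o' o' := by
      intro k
      have hk := k.2
      by_cases hko : k = o'
      · rw [hko]
      have hko' : (k : ℕ) ≠ n - 1 := fun e => hko (Fin.ext (by rw [e, ho']))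
      by_cases hE : ExA n a k o'
      · rw [← dg2 k (by rw [Fin.lt_def]; unfold ExA at hE; omega)
          (by unfold ExA at hE ⊢; omega),
          dg1 o (by rw [Fin.lt_def]; omega) (by unfold ExA at hE ⊢; omega)]
      · exact dg1 k (by rw [Fin.lt_def]; omega) hE
    intro i k
    rw [key i, key k]
  · intro p q hE
    have hp := p.2
    have hq := q.2
    have hpq : p ≠ q := by
      intro e; rw [e] at hE; unfold ExA at hE; omega
    rcases hE with ⟨h1, h2⟩ | ⟨h1, h2⟩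
    · exact col q (by rw [Fin.lt_def]; omega) (by unfold ExA; omega) p hpq
    · exact row p (by rw [Fin.lt_def]; omega) (by unfold ExA; omega) q (Ne.symm hpq)

theorem rX_cent [Finite K] {σ : K →+* K} (hσ : UD σ) (hn : 4 ≤ n) {a b : Fin n}
    (hab : (b : ℕ) = a + 1) (ha : 2 * (a : ℕ) + 1 < n) :
    ∀ A ∈ Subgroup.centralizer ((rX σ a b hab : Subgroup ↥(gJ n σ)) : Set ↥(gJ n σ)),
      QuotientGroup.mk' (Subgroup.center ↥(gJ n σ)) A ∈
        (rX σ a b hab).map (QuotientGroup.mk' (Subgroup.center ↥(gJ n σ))) := by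
  intro A hA
  have hg : ∀ r ∈ uJ n σ, (∀ p q, ExA n a p q → r.1 p q = 0) → r * A.1 = A.1 * r := by
    intro r hr h0
    have hmem : (⟨r, hr.2⟩ : ↥(gJ n σ)) ∈ rX σ a b hab := ⟨hr.1, h0 a b (Or.inl ⟨rfl, hab⟩)⟩
    exact congrArg Subtype.val (Subgroup.mem_centralizer_iff.1 hA _ hmem)
  have hU := units_of_cent hσ (g := A.1) (ExA n a)
    (by intro p q h e; rw [e] at h; unfold ExA at h; omega)
    (by
      intro p q h
      unfold ExA at h ⊢
      rw [Fin.val_rev, Fin.val_rev]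
      have := p.2
      have := q.2
      omega)
    (by
      intro x j hj h
      have hj' := congrArg Fin.val hj
      rw [Fin.val_rev] at hj'
      unfold ExA at h ⊢
      rw [Fin.val_rev] at h
      have := x.2
      have := j.2
      omega) hg
  obtain ⟨hup, hdg, hz⟩ := cent_rA_shape hn ha hU
  obtain ⟨r, hr1, hr2, hr3⟩ := gJ_constdiag (by omega) hup hdg
  rw [hr3]
  exact Subgroup.mem_map_of_mem _ ⟨hr1, hr2 a b (hz a b (Or.inl ⟨rfl, hab⟩))⟩

theorem sJl_mem_normalizer_rX [Finite K] {σ : K →+* K} {a b : Fin n}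
    (hab : (b : ℕ) = a + 1) (hb : 2 * (b : ℕ) + 1 < n) (t : K)
    (hN : sJ σ b a (adj_ne hab).symm t ∈ gJ n σ) :
    (⟨sJ σ b a (adj_ne hab).symm t, hN⟩ : ↥(gJ n σ)) ∈
      Subgroup.normalizer ((rX σ a b hab : Subgroup ↥(gJ n σ)) : Set ↥(gJ n σ)) := by
  have hba : b ≠ a := (adj_ne hab).symm
  have hbb : b ≠ b.rev := by
    intro e; have := congrArg Fin.val e; rw [Fin.val_rev] at this; omega
  have haa : a ≠ a.rev := by
    intro e; have := congrArg Fin.val e; rw [Fin.val_rev] at this; omega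
  have hab' : ((a.rev : Fin n) : ℕ) = b.rev + 1 := by rw [Fin.val_rev, Fin.val_rev]; omega
  haveI := gJ_finite (n := n) σ
  apply Cfsg.Agent.Helper9.mem_normalizer_of_conj_le
  intro q hq
  obtain ⟨hq1, hq2⟩ := hq
  have hq3 : q.1.1 b.rev a.rev = 0 := gJ_adj0 hq1 q.2 hab hq2
  show (sJ σ b a hba t * q.1 * (sJ σ b a hba t)⁻¹) ∈ radSub K a b hab
  have e : sJ σ b a hba t * q.1 * (sJ σ b a hba t)⁻¹ =
      tv b a hba t * (tv a.rev b.rev (rne hba) (-σ t) * q.1 *
        (tv a.rev b.rev (rne hba) (-σ t))⁻¹) * (tv b a hba t)⁻¹ := by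
    unfold sJ; group
  rw [e]
  have h1 : tv a.rev b.rev (rne hba) (-σ t) * q.1 * (tv a.rev b.rev (rne hba) (-σ t))⁻¹ ∈
      radSub K b.rev a.rev hab' :=
    (Subgroup.mem_normalizer_iff.1 (tvl_mem_normalizer_rad b.rev a.rev hab' (-σ t)) q.1).1
      ⟨hq1, hq3⟩
  have h2 : tv a.rev b.rev (rne hba) (-σ t) * q.1 * (tv a.rev b.rev (rne hba) (-σ t))⁻¹ ∈
      radSub K a b hab := by
    refine ⟨h1.1, ?_⟩
    rw [tv_inv]
    show (transvection a.rev b.rev (-σ t) * q.1.1 * transvection a.rev b.rev (-(-σ t))) a b = 0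
    rw [mtv, if_neg hbb, tvm, if_neg haa]
    exact hq2
  exact (Subgroup.mem_normalizer_iff.1 (tvl_mem_normalizer_rad a b hab t) _).1 h2

/-- Minimal parabolics of the short nodes give good radical subgroups. -/
theorem goodRX_rX_short [Finite K] {σ : K →+* K} (hσ : UD σ) (hn : 4 ≤ n) {a b : Fin n}
    (hab : (b : ℕ) = a + 1) (hb : 2 * (b : ℕ) + 1 < n) :
    GoodRX (QuotientGroup.mk' (Subgroup.center ↥(gJ n σ))) (uX n σ) (rX σ a b hab) := by
  have hba : b ≠ a := (adj_ne hab).symm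
  have hbb : b ≠ b.rev := by
    intro e; have := congrArg Fin.val e; rw [Fin.val_rev] at this; omega
  have haa : a ≠ a.rev := by
    intro e; have := congrArg Fin.val e; rw [Fin.val_rev] at this; omega
  have hba' : b ≠ a.rev := by
    intro e; have := congrArg Fin.val e; rw [Fin.val_rev] at this; omega
  have hab2 : a ≠ b.rev := by
    intro e; have := congrArg Fin.val e; rw [Fin.val_rev] at this; omega
  have hN : sJ σ b a hba 1 ∈ gJ n σ := sJ_mem_gJ hσ.inv hba hbb haa hba' 1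
  refine ⟨fun g hg => hg.1, uX_le_normalizer_rX σ hab, rX_cent hσ hn hab (by omega),
    ⟨sJ σ b a hba 1, hN⟩, sJl_mem_normalizer_rX hab hb 1 hN, ?_⟩
  · intro s hs hv
    refine ⟨hv, ?_⟩
    obtain ⟨v, hv'⟩ : ∃ v, v = sJ σ b a hba 1 * s.1 * (sJ σ b a hba 1)⁻¹ := ⟨_, rfl⟩
    have hvU : UT v.1 := by rw [hv']; exact hv
    have hsU : UT s.1.1 := hs
    have e : v * sJ σ b a hba 1 = sJ σ b a hba 1 * s.1 := by rw [hv']; group
    have e1 : (v.1 * (sJ σ b a hba 1).1) a a = ((sJ σ b a hba 1).1 * s.1.1) a a :=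
      congrFun (congrFun (congrArg Subtype.val e) a) a
    rw [sJ_val' σ hba haa] at e1
    simp only [Matrix.mul_add, Matrix.add_mul, Matrix.mul_one, Matrix.one_mul, Matrix.add_apply,
      mul_single_apply', single_mul_apply'] at e1
    have key : v.1 a b = 0 := by
      simpa [hvU.2, hsU.2, hab2, hba.symm, haa] using e1
    rw [hv'] at key
    exact key

/-- The minimal parabolic of the long node (even dimension) gives a good radical subgroup. -/
theorem goodRX_rX_long [Finite K] {σ : K →+* K} (hσ : UD σ) (hn : 4 ≤ n) {a : Fin n}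
    (hab : ((a.rev : Fin n) : ℕ) = a + 1) :
    GoodRX (QuotientGroup.mk' (Subgroup.center ↥(gJ n σ))) (uX n σ) (rX σ a a.rev hab) := by
  obtain ⟨ε, hε0, hε⟩ := hσ.eps
  have hne : a.rev ≠ a := (adj_ne hab).symm
  have hN : tv a.rev a hne ε ∈ gJ n σ := tv_mem_gJ' hne (Fin.rev_rev a).symm hε
  have ha2 : 2 * (a : ℕ) + 1 < n := by rw [Fin.val_rev] at hab; omega
  refine ⟨fun g hg => hg.1, uX_le_normalizer_rX σ hab, rX_cent hσ hn hab ha2,
    ⟨tv a.rev a hne ε, hN⟩, ?_, ?_⟩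
  · exact Subgroup.le_normalizer_comap (gJ n σ).subtype (tvl_mem_normalizer_rad a a.rev hab ε)
  · intro s hs hv
    refine ⟨hv, ?_⟩
    obtain ⟨v, hv'⟩ : ∃ v, v = tv a.rev a hne ε * s.1 * (tv a.rev a hne ε)⁻¹ := ⟨_, rfl⟩
    have hvU : UT v.1 := by rw [hv']; exact hv
    have hsU : UT s.1.1 := hs
    have e : v * tv a.rev a hne ε = tv a.rev a hne ε * s.1 := by rw [hv']; group
    have e1 : (v.1 * (transvection a.rev a ε)) a a = ((transvection a.rev a ε) * s.1.1) a a :=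
      congrFun (congrFun (congrArg Subtype.val e) a) a
    rw [mtv, if_pos rfl, tvm, if_neg hne.symm, hvU.2, hsU.2] at e1
    have key : v.1 a a.rev = 0 := by
      have h1 : ε * v.1 a a.rev = 0 := by simpa using e1
      exact (mul_eq_zero.1 h1).resolve_left hε0
    rw [hv'] at key
    exact key

end Un4

end Cfsg.Agent.Helper25
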