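import Mathlib
import Cfsg.Agent.Helper25.Un4

set_option autoImplicit false

namespace Cfsg.Agent.Helper25

open Matrix

section Un5

variable {n : ℕ} {K : Type*} [Field K]

theorem ut_mul_adj2 {A B : Matrix (Fin n) (Fin n) K} (hA : UT A) (hB : UT B) {a b c : Fin n}
    (hab : (b : ℕ) = a + 1) (hbc : (c : ℕ) = b + 1) :
    (A * B) a c = A a c + A a b * B b c + B a c := by
  have hab' : a ≠ b := adj_ne hab
  have hbc' : b ≠ c := adj_ne hbc
  have hac' : a ≠ c := by intro h; rw [h] at hab; omega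
  rw [Matrix.mul_apply, ← Finset.sum_subset (Finset.subset_univ ({a, b, c} : Finset (Fin n)))]
  · rw [Finset.sum_insert (by simp [hab', hac']), Finset.sum_insert (by simp [hbc']),
      Finset.sum_singleton, hA.2, hB.2]
    ring
  · intro k _ hk
    simp only [Finset.mem_insert, Finset.mem_singleton, not_or] at hk
    obtain ⟨h1, h2, h3⟩ := hk
    by_cases h4 : k < a
    · rw [hA.1 a k h4, zero_mul]
    · have h5 : c < k := by
        rw [Fin.lt_def] at h4 ⊢
        have h6 : (k : ℕ) ≠ a := fun h => h1 (Fin.ext h)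
        have h7 : (k : ℕ) ≠ b := fun h => h2 (Fin.ext h)
        have h8 : (k : ℕ) ≠ c := fun h => h3 (Fin.ext h)
        omega
      rw [hB.1 k c h5, mul_zero]

/-- Unitriangular matrices with vanishing `3 × 3` block at three consecutive indices. -/
def tSub (K : Type*) [Field K] [Finite K] {n : ℕ} (a b c : Fin n) (hab : (b : ℕ) = a + 1)
    (hbc : (c : ℕ) = b + 1) : Subgroup (SpecialLinearGroup (Fin n) K) where
  carrier := {u | u ∈ radSub K a b hab ∧ u ∈ radSub K b c hbc ∧ u.1 a c = 0}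
  mul_mem' := by
    rintro x y ⟨hx1, hx2, hx3⟩ ⟨hy1, hy2, hy3⟩
    refine ⟨mul_mem hx1 hy1, mul_mem hx2 hy2, ?_⟩
    show (x.1 * y.1) a c = 0
    rw [ut_mul_adj2 hx1.1 hy1.1 hab hbc, hx3, hy3, hx1.2, zero_mul, add_zero, add_zero]
  one_mem' := ⟨one_mem _, one_mem _, Matrix.one_apply_ne (by intro h; rw [h] at hab; omega)⟩
  inv_mem' := by
    rintro x ⟨hx1, hx2, hx3⟩
    refine ⟨inv_mem hx1, inv_mem hx2, ?_⟩
    have hi := inv_mem hx1
    have h1 := ut_mul_adj2 hx1.1 hi.1 hab hbc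
    have h2 : x.1 * (x⁻¹).1 = 1 := congrArg Subtype.val (mul_inv_cancel x)
    rw [h2, Matrix.one_apply_ne (by intro h; rw [h] at hab; omega), hx3, hx1.2, zero_mul,
      zero_add, zero_add] at h1
    exact h1.symm

theorem uni_le_normalizer_tSub [Finite K] (a b c : Fin n) (hab : (b : ℕ) = a + 1)
    (hbc : (c : ℕ) = b + 1) :
    uniSub n K ≤ Subgroup.normalizer
      ((tSub K a b c hab hbc : Subgroup (SpecialLinearGroup (Fin n) K)) :
        Set (SpecialLinearGroup (Fin n) K)) := by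
  haveI : Finite (SpecialLinearGroup (Fin n) K) := sl_finite
  intro u hu
  apply Cfsg.Agent.Helper9.mem_normalizer_of_conj_le
  rintro r ⟨hr1, hr2, hr3⟩
  have h1 := (Subgroup.mem_normalizer_iff.1 (uni_le_normalizer_rad a b hab hu) r).1 hr1
  have h2 := (Subgroup.mem_normalizer_iff.1 (uni_le_normalizer_rad b c hbc hu) r).1 hr2
  refine ⟨h1, h2, ?_⟩
  obtain ⟨v, hv⟩ : ∃ v, v = u * r * u⁻¹ := ⟨_, rfl⟩
  rw [← hv] at h1 h2 ⊢
  have e : v * u = u * r := by rw [hv]; group
  have e1 : (v.1 * u.1) a c = (u.1 * r.1) a c :=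
    congrFun (congrFun (congrArg Subtype.val e) a) c
  have hu' : UT u.1 := hu
  rw [ut_mul_adj2 h1.1 hu' hab hbc, ut_mul_adj2 hu' hr1.1 hab hbc, h1.2, hr2.2, hr3] at e1
  simpa using e1

theorem tvl_ba_norm_tSub [Finite K] (a b c : Fin n) (hab : (b : ℕ) = a + 1)
    (hbc : (c : ℕ) = b + 1) (t : K) :
    tv b a (adj_ne hab).symm t ∈ Subgroup.normalizer
      ((tSub K a b c hab hbc : Subgroup (SpecialLinearGroup (Fin n) K)) :
        Set (SpecialLinearGroup (Fin n) K)) := by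
  haveI : Finite (SpecialLinearGroup (Fin n) K) := sl_finite
  have hac : a ≠ c := by intro h; rw [h] at hab; omega
  apply Cfsg.Agent.Helper9.mem_normalizer_of_conj_le
  rintro r ⟨hr1, hr2, hr3⟩
  have h1 := (Subgroup.mem_normalizer_iff.1 (tvl_mem_normalizer_rad a b hab t) r).1 hr1
  refine ⟨h1, ⟨h1.1, ?_⟩, ?_⟩
  · rw [tv_inv]
    show (transvection b a t * r.1 * transvection b a (-t)) b c = 0
    rw [mtv, if_neg hac.symm, tvm, if_pos rfl, hr2.2, hr3, mul_zero, add_zero]
  · rw [tv_inv]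
    show (transvection b a t * r.1 * transvection b a (-t)) a c = 0
    rw [mtv, if_neg hac.symm, tvm, if_neg (adj_ne hab)]
    exact hr3

theorem tvl_cb_norm_tSub [Finite K] (a b c : Fin n) (hab : (b : ℕ) = a + 1)
    (hbc : (c : ℕ) = b + 1) (t : K) :
    tv c b (adj_ne hbc).symm t ∈ Subgroup.normalizer
      ((tSub K a b c hab hbc : Subgroup (SpecialLinearGroup (Fin n) K)) :
        Set (SpecialLinearGroup (Fin n) K)) := by
  haveI : Finite (SpecialLinearGroup (Fin n) K) := sl_finite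
  have hac : a ≠ c := by intro h; rw [h] at hab; omega
  apply Cfsg.Agent.Helper9.mem_normalizer_of_conj_le
  rintro r ⟨hr1, hr2, hr3⟩
  have h2 := (Subgroup.mem_normalizer_iff.1 (tvl_mem_normalizer_rad b c hbc t) r).1 hr2
  refine ⟨⟨h2.1, ?_⟩, h2, ?_⟩
  · rw [tv_inv]
    show (transvection c b t * r.1 * transvection c b (-t)) a b = 0
    rw [mtv, if_pos rfl, tvm, tvm, if_neg hac, if_neg hac, hr1.2, hr3, mul_zero, add_zero]
  · rw [tv_inv]
    show (transvection c b t * r.1 * transvection c b (-t)) a c = 0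
    rw [mtv, if_neg (adj_ne hbc).symm, tvm, if_neg hac]
    exact hr3

theorem tvl_ca_norm_tSub [Finite K] (a b c : Fin n) (hab : (b : ℕ) = a + 1)
    (hbc : (c : ℕ) = b + 1) (hca : c ≠ a) (t : K) :
    tv c a hca t ∈ Subgroup.normalizer
      ((tSub K a b c hab hbc : Subgroup (SpecialLinearGroup (Fin n) K)) :
        Set (SpecialLinearGroup (Fin n) K)) := by
  have h1 := tvl_ba_norm_tSub a b c hab hbc t
  have h2 := tvl_cb_norm_tSub a b c hab hbc (1 : K)
  have e : tv c a hca t = (tv b a (adj_ne hab).symm t)⁻¹ *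
      (tv c b (adj_ne hbc).symm 1 * tv b a (adj_ne hab).symm t *
        (tv c b (adj_ne hbc).symm 1)⁻¹) := by
    rw [tv_conj₁ (adj_ne hbc).symm (adj_ne hab).symm hca 1 t, one_mul, inv_mul_cancel_left]
  rw [e]
  exact mul_mem (inv_mem h1) (mul_mem (mul_mem h2 h1) (inv_mem h2))

/-- The radical subgroup of the last minimal parabolic (odd dimension), inside `gJ`. -/
def tX (σ : K →+* K) [Finite K] (a j : Fin n) (hab : (j : ℕ) = a + 1)
    (hbc : ((a.rev : Fin n) : ℕ) = j + 1) : Subgroup ↥(gJ n σ) :=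
  (tSub K a j a.rev hab hbc).comap (gJ n σ).subtype

/-- Excluded positions for the last minimal parabolic (odd dimension). -/
def ExT (n l : ℕ) (p q : Fin n) : Prop :=
  ((p : ℕ) = l ∧ (q : ℕ) = l + 1) ∨ ((p : ℕ) = l + 1 ∧ (q : ℕ) = l + 2) ∨
    ((p : ℕ) = l ∧ (q : ℕ) = l + 2)

theorem cent_T_shape {l : ℕ} (hl : 1 ≤ l) (hn : n = 2 * l + 3)
    {g : Matrix (Fin n) (Fin n) K}
    (hU : ∀ u v : Fin n, u < v → ¬ ExT n l u v → Commute (single u v (1 : K)) g) :
    (∀ i k : Fin n, k < i → g i k = 0) ∧ (∀ i k : Fin n, g i i = g k k) ∧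
      (∀ p q : Fin n, ExT n l p q → g p q = 0) := by
  obtain ⟨o, ho⟩ : ∃ o : Fin n, (o : ℕ) = 0 := ⟨⟨0, by omega⟩, rfl⟩
  obtain ⟨o', ho'⟩ : ∃ o' : Fin n, (o' : ℕ) = n - 1 := ⟨⟨n - 1, by omega⟩, rfl⟩
  obtain ⟨col, -, dg1, -⟩ := cent_tools (ExT n l) hU o o'
  have hE : ∀ k : Fin n, ¬ ExT n l k o' := by
    intro k; unfold ExT; omega
  refine ⟨?_, ?_, ?_⟩
  · intro i k hki
    have hi := i.2
    have hki' := hki
    rw [Fin.lt_def] at hki'
    exact col k (by rw [Fin.lt_def]; omega) (hE k) i (ne_of_gt hki)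
  · have key : ∀ k : Fin n, g k k = g o' o' := by
      intro k
      have hk := k.2
      by_cases hko : k = o'
      · rw [hko]
      have hko' : (k : ℕ) ≠ n - 1 := fun e => hko (Fin.ext (by rw [e, ho']))
      exact dg1 k (by rw [Fin.lt_def]; omega) (hE k)
    intro i k
    rw [key i, key k]
  · intro p q hEx
    have hpq : p ≠ q := by
      intro e; rw [e] at hEx; unfold ExT at hEx; omega
    exact col q (by rw [Fin.lt_def]; unfold ExT at hEx; omega) (hE q) p hpq

/-- The last minimal parabolic (odd dimension) gives a good radical subgroup. -/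
theorem goodRX_tX [Finite K] {σ : K →+* K} (hσ : UD σ) {a j : Fin n} (ha : 1 ≤ (a : ℕ))
    (hab : (j : ℕ) = a + 1) (hbc : ((a.rev : Fin n) : ℕ) = j + 1) :
    GoodRX (QuotientGroup.mk' (Subgroup.center ↥(gJ n σ))) (uX n σ) (tX σ a j hab hbc) := by
  obtain ⟨ε, hε0, hε⟩ := hσ.eps
  have hn : n = 2 * (a : ℕ) + 3 := by rw [Fin.val_rev] at hbc; omega
  have hne : a.rev ≠ a := by
    intro e; have := congrArg Fin.val e; rw [Fin.val_rev] at this; omega
  have hja : j ≠ a := (adj_ne hab).symm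
  have hjc : j ≠ a.rev := adj_ne hbc
  have haj : a < j := adj_lt hab
  have hjc' : j < a.rev := adj_lt hbc
  have hN : tv a.rev a hne ε ∈ gJ n σ := tv_mem_gJ' hne (Fin.rev_rev a).symm hε
  refine ⟨fun g hg => hg.1.1,
    (Subgroup.comap_mono (uni_le_normalizer_tSub a j a.rev hab hbc)).trans
      (Subgroup.le_normalizer_comap _), ?_, ⟨tv a.rev a hne ε, hN⟩, ?_, ?_⟩
  · intro A hA
    have hg : ∀ r ∈ uJ n σ, (∀ p q, ExT n a p q → r.1 p q = 0) → r * A.1 = A.1 * r := by
      intro r hr h0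
      have hmem : (⟨r, hr.2⟩ : ↥(gJ n σ)) ∈ tX σ a j hab hbc :=
        ⟨⟨hr.1, h0 a j (Or.inl ⟨rfl, hab⟩)⟩,
          ⟨hr.1, h0 j a.rev (Or.inr (Or.inl ⟨hab, by rw [hbc, hab]⟩))⟩,
          h0 a a.rev (Or.inr (Or.inr ⟨rfl, by rw [hbc, hab]⟩))⟩
      exact congrArg Subtype.val (Subgroup.mem_centralizer_iff.1 hA _ hmem)
    have hU := units_of_cent hσ (g := A.1) (ExT n a)
      (by intro p q h e; rw [e] at h; unfold ExT at h; omega)
      (by
        intro p q h
        unfold ExT at h ⊢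
        rw [Fin.val_rev, Fin.val_rev]
        have := p.2
        have := q.2
        omega)
      (by
        intro x y hy h
        have hy' := congrArg Fin.val hy
        rw [Fin.val_rev] at hy'
        unfold ExT at h ⊢
        rw [Fin.val_rev] at h
        have := x.2
        have := y.2
        omega) hg
    obtain ⟨hup, hdg, hz⟩ := cent_T_shape ha hn hU
    obtain ⟨r, hr1, hr2, hr3⟩ := gJ_constdiag (by omega) hup hdg
    rw [hr3]
    exact Subgroup.mem_map_of_mem _
      ⟨⟨hr1, hr2 a j (hz a j (Or.inl ⟨rfl, hab⟩))⟩,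
        ⟨hr1, hr2 j a.rev (hz j a.rev (Or.inr (Or.inl ⟨hab, by rw [hbc, hab]⟩)))⟩,
        hr2 a a.rev (hz a a.rev (Or.inr (Or.inr ⟨rfl, by rw [hbc, hab]⟩)))⟩
  · exact Subgroup.le_normalizer_comap (gJ n σ).subtype
      (tvl_ca_norm_tSub a j a.rev hab hbc hne ε)
  · intro s hs hv
    obtain ⟨v, hv'⟩ : ∃ v, v = tv a.rev a hne ε * s.1 * (tv a.rev a hne ε)⁻¹ := ⟨_, rfl⟩
    have hvU : UT v.1 := by rw [hv']; exact hv
    have hsU : UT s.1.1 := hs
    have e : v * tv a.rev a hne ε = tv a.rev a hne ε * s.1 := by rw [hv']; group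
    have e' : (tv a.rev a hne ε)⁻¹ * v = s.1 * (tv a.rev a hne ε)⁻¹ := by rw [hv']; group
    rw [tv_inv] at e'
    have k1 : v.1 a a.rev = 0 := by
      have e1 : (v.1 * (transvection a.rev a ε)) a a = ((transvection a.rev a ε) * s.1.1) a a :=
        congrFun (congrFun (congrArg Subtype.val e) a) a
      rw [mtv, if_pos rfl, tvm, if_neg hne.symm, hvU.2, hsU.2] at e1
      have h1 : ε * v.1 a a.rev = 0 := by simpa using e1
      exact (mul_eq_zero.1 h1).resolve_left hε0
    have k2 : v.1 j a.rev = 0 := by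
      have e1 : (v.1 * (transvection a.rev a ε)) j a = ((transvection a.rev a ε) * s.1.1) j a :=
        congrFun (congrFun (congrArg Subtype.val e) j) a
      rw [mtv, if_pos rfl, tvm, if_neg hjc, hvU.1 j a haj, hsU.1 j a haj] at e1
      have h1 : ε * v.1 j a.rev = 0 := by simpa using e1
      exact (mul_eq_zero.1 h1).resolve_left hε0
    have k3 : v.1 a j = 0 := by
      have e1 : ((transvection a.rev a (-ε)) * v.1) a.rev j =
          (s.1.1 * (transvection a.rev a (-ε))) a.rev j :=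
        congrFun (congrFun (congrArg Subtype.val e') a.rev) j
      rw [tvm, if_pos rfl, mtv, if_neg hja, hvU.1 a.rev j hjc', hsU.1 a.rev j hjc'] at e1
      have h1 : ε * v.1 a j = 0 := by simpa using e1
      exact (mul_eq_zero.1 h1).resolve_left hε0
    rw [hv'] at k1 k2 k3
    exact ⟨⟨hv, k3⟩, ⟨hv, k2⟩, k1⟩

end Un5

end Cfsg.Agent.Helper25
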