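import Mathlib
import Cfsg.Agent.Helper25.Un5

set_option autoImplicit false

namespace Cfsg.Agent.Helper25

open Matrix

section Un6

variable {n : ℕ} {K : Type*} [Field K]

theorem sm_hSJ (l m : K) (hl : l ≠ 0) (hm : m ≠ 0) :
    transvection (0 : Fin 4) 1 (l - 1) * transvection 2 3 (-(m - 1)) *
      (transvection 1 0 1 * transvection 3 2 (-1)) *
      (transvection 0 1 (l⁻¹ - 1) * transvection 2 3 (-(m⁻¹ - 1))) *
      (transvection 1 0 (-l) * transvection 3 2 (-(-m))) = diagonal ![l, l⁻¹, m, m⁻¹] := by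
  simp only [← Matrix.mul_assoc]
  ext i j
  fin_cases i <;> fin_cases j <;> simp [mtv] <;>
    simp [transvection, Matrix.one_apply, Matrix.single_apply] <;>
    first | ring1 | (field_simp; ring1) | (simp [hl, hm]; field_simp; ring1) | (simp [hl, hm]; done)

theorem sm_hdE (c e : K) (hc : c ≠ 0) (he : e ≠ 0) :
    transvection (0 : Fin 2) 1 (e * (c - 1)) * transvection 1 0 e⁻¹ *
      transvection 0 1 (e * (c⁻¹ - 1)) * transvection 1 0 (-(e⁻¹ * c)) = diagonal ![c, c⁻¹] := by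
  ext i j
  fin_cases i <;> fin_cases j <;> simp [mtv] <;>
    simp [transvection, Matrix.one_apply, Matrix.single_apply] <;>
    first | ring1 | (field_simp; ring1) | (simp [hc, he]; field_simp; ring1) | (simp [hc, he]; done)

theorem sm_EJ (t T s S e : K) (hs : s ≠ 0) (hS : S ≠ 0) (he : e ≠ 0) (h : s + S + t * T = 0) :
    transvection (1 : Fin 3) 0 (T / s) * transvection 2 1 (-(t / S)) * transvection 2 0 (1 / S) *
      (transvection 1 2 (-T) * transvection 0 1 t * transvection 0 2 s) *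
      (transvection 1 0 (T / S) * transvection 2 1 (-(t / s)) * transvection 2 0 (1 / S)) *
      (transvection 2 0 (1 / e) * transvection 0 2 (-e) * transvection 2 0 (1 / e)) =
    diagonal ![s / e, -S / s, -e / S] := by
  simp only [← Matrix.mul_assoc]
  ext i j
  fin_cases i <;> fin_cases j <;> simp [mtv] <;>
    simp [transvection, Matrix.one_apply, Matrix.single_apply] <;> field_simp <;>
    first | ring1 | linear_combination h | linear_combination (-e) * h |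
      linear_combination (-(T * e)) * h | linear_combination S * h | linear_combination (-t) * h

theorem sm_yL_mem (t T s S : K) (h : s + S + t * T = 0) :
    transvection (1 : Fin 3) 0 t * transvection 2 1 (-T) * transvection 2 0 s *
      transvection 2 0 S * transvection 1 0 (-t) * transvection 2 1 T = 1 := by
  ext i j
  fin_cases i <;> fin_cases j <;> simp [mtv] <;>
    simp [transvection, Matrix.one_apply, Matrix.single_apply] <;> linear_combination h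

theorem ne_of_val_ne {x y : Fin n} (h : (x : ℕ) ≠ y) : x ≠ y := fun e => h (congrArg Fin.val e)

theorem ext_of_ne {k : ℕ} (p : Fin k → Fin n) (v : Fin k → K) (i : Fin n) (h : ∀ x, p x ≠ i) :
    Function.extend p v 1 i = 1 := by
  rw [Function.extend_apply' _ _ _ (fun ⟨x, hx⟩ => h x hx)]
  rfl

theorem ext2_of_ne {a b i : Fin n} (v : Fin 2 → K) (h1 : a ≠ i) (h2 : b ≠ i) :
    Function.extend ![a, b] v 1 i = 1 := by
  apply ext_of_ne
  intro x
  fin_cases x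
  · exact h1
  · exact h2

theorem ext3_of_ne {a b c i : Fin n} (v : Fin 3 → K) (h1 : a ≠ i) (h2 : b ≠ i) (h3 : c ≠ i) :
    Function.extend ![a, b, c] v 1 i = 1 := by
  apply ext_of_ne
  intro x
  fin_cases x
  · exact h1
  · exact h2
  · exact h3

theorem ext4_of_ne {a b c d i : Fin n} (v : Fin 4 → K) (h1 : a ≠ i) (h2 : b ≠ i) (h3 : c ≠ i)
    (h4 : d ≠ i) : Function.extend ![a, b, c, d] v 1 i = 1 := by
  apply ext_of_ne
  intro x
  fin_cases x
  · exact h1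
  · exact h2
  · exact h3
  · exact h4

theorem diag_mem_normalizer_uX [Finite K] {σ : K →+* K} {y : ↥(gJ n σ)} {D : Fin n → K}
    (hD : y.1.1 = diagonal D) :
    y ∈ Subgroup.normalizer ((uX n σ : Subgroup ↥(gJ n σ)) : Set ↥(gJ n σ)) := by
  haveI := gJ_finite (n := n) σ
  have hD0 : ∀ j, D j ≠ 0 := by
    intro j h0
    have h1 := y.1.2
    rw [hD, Matrix.det_diagonal, Finset.prod_eq_zero (Finset.mem_univ j) h0] at h1
    exact zero_ne_one h1
  apply Cfsg.Agent.Helper9.mem_normalizer_of_conj_le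
  intro u hu
  obtain ⟨v, hv⟩ : ∃ v, v = y * u * y⁻¹ := ⟨_, rfl⟩
  rw [← hv]
  have e : v * y = y * u := by rw [hv]; group
  have e1 : v.1.1 * y.1.1 = y.1.1 * u.1.1 := congrArg (fun x : ↥(gJ n σ) => x.1.1) e
  rw [hD] at e1
  exact ut_of_diag_conj hD0 hu e1

/-- The generators allowed in the criterion. -/
def GoodY (p n : ℕ) (σ : K →+* K) [Finite K] : Set ↥(gJ n σ) :=
  {y | y ∈ Subgroup.normalizer ((uX n σ : Subgroup ↥(gJ n σ)) : Set ↥(gJ n σ)) ∧
    (y ∈ uX n σ ∨ QuotientGroup.mk' (Subgroup.center ↥(gJ n σ)) y = 1 ∨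
      ∃ R : Subgroup ↥(gJ n σ),
        GoodRX (QuotientGroup.mk' (Subgroup.center ↥(gJ n σ))) (uX n σ) R ∧
        y ∈ Subgroup.closure {g : ↥(gJ n σ) | g ∈ Subgroup.normalizer (R : Set ↥(gJ n σ)) ∧
          ∃ k : ℕ, orderOf g = p ^ k})}

theorem goodY_of_closure [Finite K] {σ : K →+* K} {p : ℕ} {y : ↥(gJ n σ)} {D : Fin n → K}
    (hD : y.1.1 = diagonal D) {R : Subgroup ↥(gJ n σ)}
    (hR : GoodRX (QuotientGroup.mk' (Subgroup.center ↥(gJ n σ))) (uX n σ) R)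
    (hy : y ∈ Subgroup.closure {g : ↥(gJ n σ) | g ∈ Subgroup.normalizer (R : Set ↥(gJ n σ)) ∧
      ∃ k : ℕ, orderOf g = p ^ k}) : y ∈ GoodY p n σ :=
  ⟨diag_mem_normalizer_uX hD, Or.inr (Or.inr ⟨R, hR, hy⟩)⟩

theorem gJ_pElt (p : ℕ) [Fact p.Prime] {σ : K →+* K} {g : SpecialLinearGroup (Fin n) K}
    (hg : g ∈ gJ n σ) (h : g ^ p = 1) : ∃ k : ℕ, orderOf (⟨g, hg⟩ : ↥(gJ n σ)) = p ^ k :=
  pElt_of_pow p (Subtype.ext (by rw [SubgroupClass.coe_pow]; exact h))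

theorem gJ_pElt' (p : ℕ) [hp : Fact p.Prime] {σ : K →+* K} {g : SpecialLinearGroup (Fin n) K}
    (hg : g ∈ gJ n σ) {k : ℕ} (h : g ^ p ^ k = 1) :
    ∃ m : ℕ, orderOf (⟨g, hg⟩ : ↥(gJ n σ)) = p ^ m := by
  have h1 : (⟨g, hg⟩ : ↥(gJ n σ)) ^ p ^ k = 1 :=
    Subtype.ext (by rw [SubgroupClass.coe_pow]; exact h)
  obtain ⟨m, -, hm⟩ := (Nat.dvd_prime_pow hp.out).1 (orderOf_dvd_of_pow_eq_one h1)
  exact ⟨m, hm⟩

theorem uX_elt_good [Finite K] {σ : K →+* K} (p : ℕ) [Fact p.Prime] [CharP K p]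
    {R : Subgroup ↥(gJ n σ)} (hR : uX n σ ≤ Subgroup.normalizer (R : Set ↥(gJ n σ)))
    {y : ↥(gJ n σ)} (hy : y ∈ uX n σ) :
    y ∈ Subgroup.closure {g : ↥(gJ n σ) | g ∈ Subgroup.normalizer (R : Set ↥(gJ n σ)) ∧
      ∃ k : ℕ, orderOf g = p ^ k} := by
  apply Subgroup.subset_closure
  refine ⟨hR hy, ?_⟩
  obtain ⟨k, hk⟩ := (IsPGroup.iff_orderOf.1 (uX_isPGroup (n := n) σ p)) ⟨_, hy⟩
  exact ⟨k, (Subgroup.orderOf_mk y hy).symm.trans hk⟩

theorem sJ_pow_char (σ : K →+* K) (p : ℕ) [CharP K p] {a b : Fin n} (hab : a ≠ b)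
    (ha : a ≠ a.rev) (hb : b ≠ b.rev) (t : K) : (sJ σ a b hab t) ^ p = 1 := by
  have hc : Commute (tv a b hab t) (tv b.rev a.rev (rne hab) (-σ t)) := by
    apply Subtype.ext
    show transvection a b t * transvection b.rev a.rev (-σ t) =
      transvection b.rev a.rev (-σ t) * transvection a b t
    unfold transvection
    simp only [Matrix.add_mul, Matrix.mul_add, Matrix.one_mul, Matrix.mul_one,
      single_mul_single_of_ne _ _ _ _ hb, single_mul_single_of_ne _ _ _ _ ha.symm, add_zero]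
    abel
  unfold sJ
  rw [hc.mul_pow, tv_pow_char p, tv_pow_char p, one_mul]

/-- Torus elements attached to the short nodes. -/
def hSJ (σ : K →+* K) (a b : Fin n) (hab : a ≠ b) (l : K) : SpecialLinearGroup (Fin n) K :=
  sJ σ a b hab (l - 1) * sJ σ b a hab.symm 1 * sJ σ a b hab (l⁻¹ - 1) * sJ σ b a hab.symm (-l)

theorem hSJ_val (σ : K →+* K) {a b : Fin n} (hab : a ≠ b) (ha : a ≠ a.rev) (hb : b ≠ b.rev)
    (hab' : a ≠ b.rev) {l : K} (hl : l ≠ 0) :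
    (hSJ σ a b hab l).1 =
      diagonal (Function.extend ![a, b, b.rev, a.rev] ![l, l⁻¹, σ l, (σ l)⁻¹] 1) := by
  have hp : Function.Injective ![a, b, b.rev, a.rev] :=
    inj4 hab hab' ha hb (fun e => hab' (by rw [e, Fin.rev_rev])) (rne hab)
  have key := congrArg (emb ![a, b, b.rev, a.rev]) (sm_hSJ l (σ l) hl ((map_ne_zero σ).2 hl))
  simp only [emb_mul hp, emb_transvection, emb_diagonal hp] at key
  rw [← key]
  show transvection a b (l - 1) * transvection b.rev a.rev (-σ (l - 1)) *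
      (transvection b a 1 * transvection a.rev b.rev (-σ 1)) *
      (transvection a b (l⁻¹ - 1) * transvection b.rev a.rev (-σ (l⁻¹ - 1))) *
      (transvection b a (-l) * transvection a.rev b.rev (-σ (-l))) = _
  rw [map_sub, map_one, map_sub, map_one, map_inv₀, map_neg]
  rfl

theorem hSJ_step [Finite K] {σ : K →+* K} (hσ : UD σ) (p : ℕ) [Fact p.Prime] [CharP K p]
    (hn : 4 ≤ n) {a b : Fin n} (hab : (b : ℕ) = a + 1) (hb : 2 * (b : ℕ) + 1 < n) {l : K}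
    (hl : l ≠ 0) :
    ∃ (y : ↥(gJ n σ)) (D : Fin n → K), y ∈ GoodY p n σ ∧ y.1.1 = diagonal D ∧ D a = l ∧
      ∀ i : Fin n, (i : ℕ) < a → D i = 1 := by
  have hbb : b ≠ b.rev := ne_of_val_ne (by rw [Fin.val_rev]; omega)
  have haa : a ≠ a.rev := ne_of_val_ne (by rw [Fin.val_rev]; omega)
  have hba' : b ≠ a.rev := ne_of_val_ne (by rw [Fin.val_rev]; omega)
  have hab2 : a ≠ b.rev := ne_of_val_ne (by rw [Fin.val_rev]; omega)
  have hu : ∀ t, sJ σ a b (adj_ne hab) t ∈ gJ n σ := fun t =>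
    sJ_mem_gJ hσ.inv _ haa hbb hab2 t
  have hl' : ∀ t, sJ σ b a (adj_ne hab).symm t ∈ gJ n σ := fun t =>
    sJ_mem_gJ hσ.inv _ hbb haa hba' t
  have hp : Function.Injective ![a, b, b.rev, a.rev] :=
    inj4 (adj_ne hab) hab2 haa hbb hba' (rne (adj_ne hab))
  have k1 : ∀ t, (⟨_, hu t⟩ : ↥(gJ n σ)) ∈ Subgroup.closure {g : ↥(gJ n σ) |
      g ∈ Subgroup.normalizer ((rX σ a b hab : Subgroup ↥(gJ n σ)) : Set ↥(gJ n σ)) ∧
        ∃ k : ℕ, orderOf g = p ^ k} := fun t =>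
    uX_elt_good p (uX_le_normalizer_rX σ hab)
      (sJ_mem_uJ hσ.inv (adj_lt hab) haa hbb hab2 t).1
  have k2 : ∀ t, (⟨_, hl' t⟩ : ↥(gJ n σ)) ∈ Subgroup.closure {g : ↥(gJ n σ) |
      g ∈ Subgroup.normalizer ((rX σ a b hab : Subgroup ↥(gJ n σ)) : Set ↥(gJ n σ)) ∧
        ∃ k : ℕ, orderOf g = p ^ k} := fun t =>
    Subgroup.subset_closure ⟨sJl_mem_normalizer_rX hab hb t _,
      gJ_pElt p _ (sJ_pow_char σ p _ hbb haa t)⟩
  obtain ⟨y, hy⟩ : ∃ y : ↥(gJ n σ),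
      y = (⟨_, hu (l - 1)⟩ : ↥(gJ n σ)) * ⟨_, hl' 1⟩ * ⟨_, hu (l⁻¹ - 1)⟩ * ⟨_, hl' (-l)⟩ :=
    ⟨_, rfl⟩
  have hy1 : y.1 = hSJ σ a b (adj_ne hab) l := by rw [hy]; rfl
  have hD : y.1.1 =
      diagonal (Function.extend ![a, b, b.rev, a.rev] ![l, l⁻¹, σ l, (σ l)⁻¹] 1) := by
    rw [hy1]; exact hSJ_val σ _ haa hbb hab2 hl
  have hcl : y ∈ Subgroup.closure {g : ↥(gJ n σ) |
      g ∈ Subgroup.normalizer ((rX σ a b hab : Subgroup ↥(gJ n σ)) : Set ↥(gJ n σ)) ∧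
        ∃ k : ℕ, orderOf g = p ^ k} := by
    rw [hy]
    exact mul_mem (mul_mem (mul_mem (k1 _) (k2 _)) (k1 _)) (k2 _)
  refine ⟨y, Function.extend ![a, b, b.rev, a.rev] ![l, l⁻¹, σ l, (σ l)⁻¹] 1,
    goodY_of_closure hD (goodRX_rX_short hσ hn hab hb) hcl, hD,
    hp.extend_apply _ _ (0 : Fin 4), ?_⟩
  intro i hi
  exact ext4_of_ne _ (ne_of_val_ne (by omega)) (ne_of_val_ne (by omega))
    (ne_of_val_ne (by rw [Fin.val_rev]; omega)) (ne_of_val_ne (by rw [Fin.val_rev]; omega))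

/-- Torus elements attached to the long node (even dimension). -/
def hdE (a b : Fin n) (hab : a ≠ b) (c e : K) : SpecialLinearGroup (Fin n) K :=
  tv a b hab (e * (c - 1)) * tv b a hab.symm e⁻¹ * tv a b hab (e * (c⁻¹ - 1)) *
    tv b a hab.symm (-(e⁻¹ * c))

theorem hdE_val {a b : Fin n} (hab : a ≠ b) {c e : K} (hc : c ≠ 0) (he : e ≠ 0) :
    (hdE a b hab c e).1 = diagonal (Function.extend ![a, b] ![c, c⁻¹] 1) := by
  have hp : Function.Injective ![a, b] := inj2 hab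
  have key := congrArg (emb ![a, b]) (sm_hdE c e hc he)
  simp only [emb_mul hp, emb_transvection, emb_diagonal hp] at key
  rw [← key]
  rfl

theorem hdE_step [Finite K] {σ : K →+* K} (hσ : UD σ) (p : ℕ) [Fact p.Prime] [CharP K p]
    (hn : 4 ≤ n) {a : Fin n} (hab : ((a.rev : Fin n) : ℕ) = a + 1) {c ε : K} (hc : c ≠ 0)
    (hcσ : σ c = c) (hε0 : ε ≠ 0) (hε : σ ε = -ε) :
    ∃ (y : ↥(gJ n σ)) (D : Fin n → K), y ∈ GoodY p n σ ∧ y.1.1 = diagonal D ∧ D a = c ∧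
      ∀ i : Fin n, (i : ℕ) < a → D i = 1 := by
  have hne : a ≠ a.rev := adj_ne hab
  have hu : ∀ r : K, σ r = -r → tv a a.rev hne r ∈ gJ n σ := fun r hr => tv_rev_mem_gJ hne hr
  have hl' : ∀ r : K, σ r = -r → tv a.rev a hne.symm r ∈ gJ n σ := fun r hr =>
    tv_mem_gJ' hne.symm (Fin.rev_rev a).symm hr
  have h1 : σ (ε * (c - 1)) = -(ε * (c - 1)) := by rw [map_mul, map_sub, map_one, hε, hcσ]; ring
  have h2 : σ ε⁻¹ = -ε⁻¹ := by rw [map_inv₀, hε, neg_inv]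
  have h3 : σ (ε * (c⁻¹ - 1)) = -(ε * (c⁻¹ - 1)) := by
    rw [map_mul, map_sub, map_one, map_inv₀, hε, hcσ]; ring
  have h4 : σ (-(ε⁻¹ * c)) = -(-(ε⁻¹ * c)) := by
    rw [map_neg, map_mul, h2, hcσ]; ring
  have k1 : ∀ (r : K) (hr : σ r = -r), (⟨_, hu r hr⟩ : ↥(gJ n σ)) ∈ Subgroup.closure
      {g : ↥(gJ n σ) |
      g ∈ Subgroup.normalizer ((rX σ a a.rev hab : Subgroup ↥(gJ n σ)) : Set ↥(gJ n σ)) ∧
        ∃ k : ℕ, orderOf g = p ^ k} := fun r hr =>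
    uX_elt_good p (uX_le_normalizer_rX σ hab) (ut_transvection (adj_lt hab) r)
  have k2 : ∀ (r : K) (hr : σ r = -r), (⟨_, hl' r hr⟩ : ↥(gJ n σ)) ∈ Subgroup.closure
      {g : ↥(gJ n σ) |
      g ∈ Subgroup.normalizer ((rX σ a a.rev hab : Subgroup ↥(gJ n σ)) : Set ↥(gJ n σ)) ∧
        ∃ k : ℕ, orderOf g = p ^ k} := fun r hr =>
    Subgroup.subset_closure
      ⟨Subgroup.le_normalizer_comap (gJ n σ).subtype (tvl_mem_normalizer_rad a a.rev hab r),
        gJ_pElt p _ (tv_pow_char p _ _ _ r)⟩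
  obtain ⟨y, hy⟩ : ∃ y : ↥(gJ n σ),
      y = (⟨_, hu _ h1⟩ : ↥(gJ n σ)) * ⟨_, hl' _ h2⟩ * ⟨_, hu _ h3⟩ * ⟨_, hl' _ h4⟩ := ⟨_, rfl⟩
  have hy1 : y.1 = hdE a a.rev hne c ε := by rw [hy]; rfl
  have hD : y.1.1 = diagonal (Function.extend ![a, a.rev] ![c, c⁻¹] 1) := by
    rw [hy1]; exact hdE_val hne hc hε0
  have hcl : y ∈ Subgroup.closure {g : ↥(gJ n σ) |
      g ∈ Subgroup.normalizer ((rX σ a a.rev hab : Subgroup ↥(gJ n σ)) : Set ↥(gJ n σ)) ∧
        ∃ k : ℕ, orderOf g = p ^ k} := by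
    rw [hy]
    exact mul_mem (mul_mem (mul_mem (k1 _ h1) (k2 _ h2)) (k1 _ h3)) (k2 _ h4)
  refine ⟨y, Function.extend ![a, a.rev] ![c, c⁻¹] 1,
    goodY_of_closure hD (goodRX_rX_long hσ hn hab) hcl, hD,
    (inj2 hne).extend_apply _ _ (0 : Fin 2), ?_⟩
  intro i hi
  exact ext2_of_ne _ (ne_of_val_ne (by omega)) (ne_of_val_ne (by omega))

end Un6

end Cfsg.Agent.Helper25
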