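import Mathlib
import Cfsg.Agent.Helper25.Un6

set_option autoImplicit false

namespace Cfsg.Agent.Helper25

open Matrix

section Un7

variable {n : ℕ} {K : Type*} [Field K]

/-- Lower root elements through the middle index. -/
def yL (σ : K →+* K) (a j : Fin n) (h1 : j ≠ a) (h2 : a.rev ≠ j) (h3 : a.rev ≠ a) (t s : K) :
    SpecialLinearGroup (Fin n) K :=
  tv j a h1 t * tv a.rev j h2 (-σ t) * tv a.rev a h3 s

theorem yL_mem_gJ {σ : K →+* K} (hσ : ∀ t, σ (σ t) = t) {a j : Fin n} (h1 : j ≠ a)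
    (h2 : a.rev ≠ j) (h3 : a.rev ≠ a) (hj : j.rev = j) {t s : K}
    (hs : s + σ s + t * σ t = 0) : yL σ a j h1 h2 h3 t s ∈ gJ n σ := by
  apply mem_gJ_of_val
  show transvection j a t * transvection a.rev j (-σ t) * transvection a.rev a s *
    th σ (transvection j a t * transvection a.rev j (-σ t) * transvection a.rev a s) = 1
  rw [th_mul, th_mul, th_transvection, th_transvection, th_transvection, Fin.rev_rev, hj,
    map_neg, hσ]
  simp only [← Matrix.mul_assoc]
  have hp : Function.Injective ![a, j, a.rev] := inj3 h1.symm h3.symm h2.symm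
  have key := congrArg (emb ![a, j, a.rev]) (sm_yL_mem t (σ t) s (σ s) hs)
  simp only [emb_mul hp, emb_transvection, emb_one] at key
  exact key

theorem lower_pElt [Finite K] (p : ℕ) [Fact p.Prime] [CharP K p]
    {g u : SpecialLinearGroup (Fin n) K} (hu : UT u.1) (h : g.1ᵀ = u.1) :
    ∃ k : ℕ, g ^ p ^ k = 1 := by
  obtain ⟨k, hk⟩ := uni_pow_eq_one p (show u ∈ uniSub n K from hu)
  refine ⟨k, Subtype.ext ?_⟩
  have h1 : (u ^ p ^ k).1 = u.1 ^ p ^ k := Matrix.SpecialLinearGroup.coe_pow _ _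
  rw [hk] at h1
  have h2 : (g.1 ^ p ^ k)ᵀ = 1 := by
    rw [Matrix.transpose_pow, h, ← h1]; rfl
  have h3 : (g ^ p ^ k).1 = g.1 ^ p ^ k := Matrix.SpecialLinearGroup.coe_pow _ _
  rw [h3]
  have h4 := congrArg Matrix.transpose h2
  rw [Matrix.transpose_transpose, Matrix.transpose_one] at h4
  exact h4

theorem yL_good [Finite K] {σ : K →+* K} (p : ℕ) [Fact p.Prime] [CharP K p] {a j : Fin n}
    (hab : (j : ℕ) = a + 1) (hbc : ((a.rev : Fin n) : ℕ) = j + 1) (h1 : j ≠ a) (h2 : a.rev ≠ j)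
    (h3 : a.rev ≠ a) (t s : K) (hN : yL σ a j h1 h2 h3 t s ∈ gJ n σ) :
    (⟨yL σ a j h1 h2 h3 t s, hN⟩ : ↥(gJ n σ)) ∈ Subgroup.closure {g : ↥(gJ n σ) |
      g ∈ Subgroup.normalizer ((tX σ a j hab hbc : Subgroup ↥(gJ n σ)) : Set ↥(gJ n σ)) ∧
        ∃ k : ℕ, orderOf g = p ^ k} := by
  apply Subgroup.subset_closure
  have hnorm : yL σ a j h1 h2 h3 t s ∈ Subgroup.normalizer
      ((tSub K a j a.rev hab hbc : Subgroup (SpecialLinearGroup (Fin n) K)) :
        Set (SpecialLinearGroup (Fin n) K)) :=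
    mul_mem (mul_mem (tvl_ba_norm_tSub a j a.rev hab hbc t)
      (tvl_cb_norm_tSub a j a.rev hab hbc (-σ t))) (tvl_ca_norm_tSub a j a.rev hab hbc h3 s)
  refine ⟨Subgroup.le_normalizer_comap (gJ n σ).subtype hnorm, ?_⟩
  have hu : UT (tv a a.rev h3.symm s * tv j a.rev h2.symm (-σ t) * tv a j h1.symm t).1 :=
    ut_mul (ut_mul (ut_transvection (lt_trans (adj_lt hab) (adj_lt hbc)) s)
      (ut_transvection (adj_lt hbc) _)) (ut_transvection (adj_lt hab) t)
  obtain ⟨k, hk⟩ := lower_pElt p hu (g := yL σ a j h1 h2 h3 t s) (by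
    show (transvection j a t * transvection a.rev j (-σ t) * transvection a.rev a s)ᵀ =
      transvection a a.rev s * transvection j a.rev (-σ t) * transvection a j t
    rw [Matrix.transpose_mul, Matrix.transpose_mul, transvection_transpose',
      transvection_transpose', transvection_transpose', Matrix.mul_assoc])
  exact gJ_pElt' p hN hk

/-- Torus elements attached to the last node (odd dimension). -/
def EJ (σ : K →+* K) (a j : Fin n) (h1 : a ≠ j) (h2 : j ≠ a.rev) (h3 : a ≠ a.rev) (t s e : K) :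
    SpecialLinearGroup (Fin n) K :=
  yL σ a j h1.symm h2.symm h3.symm (σ t / s) (1 / σ s) * mJ σ a j h1 h2 h3 t s *
    yL σ a j h1.symm h2.symm h3.symm (σ t / σ s) (1 / σ s) *
    (tv a.rev a h3.symm (1 / e) * tv a a.rev h3 (-e) * tv a.rev a h3.symm (1 / e))

theorem EJ_val {σ : K →+* K} (hσ : ∀ t, σ (σ t) = t) {a j : Fin n} (h1 : a ≠ j)
    (h2 : j ≠ a.rev) (h3 : a ≠ a.rev) {t s e : K} (hs : s ≠ 0) (he : e ≠ 0)
    (h : s + σ s + t * σ t = 0) :
    (EJ σ a j h1 h2 h3 t s e).1 =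
      diagonal (Function.extend ![a, j, a.rev] ![s / e, -σ s / s, -e / σ s] 1) := by
  have hp : Function.Injective ![a, j, a.rev] := inj3 h1 h3 h2
  have key := congrArg (emb ![a, j, a.rev])
    (sm_EJ t (σ t) s (σ s) e hs ((map_ne_zero σ).2 hs) he h)
  simp only [emb_mul hp, emb_transvection, emb_diagonal hp] at key
  rw [← key]
  show transvection j a (σ t / s) * transvection a.rev j (-σ (σ t / s)) *
        transvection a.rev a (1 / σ s) *
      (transvection j a.rev (-σ t) * transvection a j t * transvection a a.rev s) *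
      (transvection j a (σ t / σ s) * transvection a.rev j (-σ (σ t / σ s)) *
        transvection a.rev a (1 / σ s)) *
      (transvection a.rev a (1 / e) * transvection a a.rev (-e) * transvection a.rev a (1 / e)) =
      _
  rw [map_div₀, map_div₀, hσ, hσ]
  rfl

theorem EJ_step [Finite K] {σ : K →+* K} (hσ : UD σ) (p : ℕ) [Fact p.Prime] [CharP K p]
    {a j : Fin n} (ha : 1 ≤ (a : ℕ)) (hab : (j : ℕ) = a + 1)
    (hbc : ((a.rev : Fin n) : ℕ) = j + 1) {t s ε : K} (hs : s ≠ 0) (hε0 : ε ≠ 0)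
    (hε : σ ε = -ε) (h : s + σ s + t * σ t = 0) :
    ∃ (y : ↥(gJ n σ)) (D : Fin n → K), y ∈ GoodY p n σ ∧ y.1.1 = diagonal D ∧ D a = s / ε ∧
      ∀ i : Fin n, (i : ℕ) < a → D i = 1 := by
  have h1 : a ≠ j := adj_ne hab
  have h2 : j ≠ a.rev := adj_ne hbc
  have hlt : a < a.rev := lt_trans (adj_lt hab) (adj_lt hbc)
  have h3 : a ≠ a.rev := ne_of_lt hlt
  have hj : j.rev = j := by
    apply Fin.ext
    rw [Fin.val_rev]
    rw [Fin.val_rev] at hbc
    omega
  have hσs : σ s ≠ 0 := (map_ne_zero σ).2 hs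
  have hy1 : (1 / σ s) + σ (1 / σ s) + (σ t / s) * σ (σ t / s) = 0 := by
    rw [map_div₀, map_div₀, map_one, hσ.inv, hσ.inv]
    field_simp
    linear_combination h
  have hy3 : (1 / σ s) + σ (1 / σ s) + (σ t / σ s) * σ (σ t / σ s) = 0 := by
    rw [map_div₀, map_div₀, map_one, hσ.inv, hσ.inv]
    field_simp
    linear_combination h
  have m1 := yL_mem_gJ hσ.inv h1.symm h2.symm h3.symm hj hy1
  have m2 := mJ_mem_uJ hσ.inv h1 h2 h3 (adj_lt hab) hj h
  have m3 := yL_mem_gJ hσ.inv h1.symm h2.symm h3.symm hj hy3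
  have m4 : tv a.rev a h3.symm (1 / ε) ∈ gJ n σ :=
    tv_mem_gJ' _ (Fin.rev_rev a).symm (by rw [map_div₀, map_one, hε, div_neg])
  have m5 : tv a a.rev h3 (-ε) ∈ uJ n σ := tvr_mem_uJ hlt (by rw [map_neg, hε])
  have hS : uX n σ ≤ Subgroup.normalizer
      ((tX σ a j hab hbc : Subgroup ↥(gJ n σ)) : Set ↥(gJ n σ)) :=
    (Subgroup.comap_mono (uni_le_normalizer_tSub a j a.rev hab hbc)).trans
      (Subgroup.le_normalizer_comap _)
  obtain ⟨y, hy⟩ : ∃ y : ↥(gJ n σ),
      y = (⟨_, m1⟩ : ↥(gJ n σ)) * ⟨_, m2.2⟩ * ⟨_, m3⟩ * (⟨_, m4⟩ * ⟨_, m5.2⟩ * ⟨_, m4⟩) :=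
    ⟨_, rfl⟩
  have hyv : y.1 = EJ σ a j h1 h2 h3 t s ε := by rw [hy]; rfl
  have hD : y.1.1 =
      diagonal (Function.extend ![a, j, a.rev] ![s / ε, -σ s / s, -ε / σ s] 1) := by
    rw [hyv]; exact EJ_val hσ.inv h1 h2 h3 hs hε0 h
  have k4 : (⟨_, m4⟩ : ↥(gJ n σ)) ∈ Subgroup.closure {g : ↥(gJ n σ) |
      g ∈ Subgroup.normalizer ((tX σ a j hab hbc : Subgroup ↥(gJ n σ)) : Set ↥(gJ n σ)) ∧
        ∃ k : ℕ, orderOf g = p ^ k} :=
    Subgroup.subset_closure
      ⟨Subgroup.le_normalizer_comap (gJ n σ).subtype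
        (tvl_ca_norm_tSub a j a.rev hab hbc h3.symm (1 / ε)),
        gJ_pElt p _ (tv_pow_char p _ _ _ _)⟩
  have hcl : y ∈ Subgroup.closure {g : ↥(gJ n σ) |
      g ∈ Subgroup.normalizer ((tX σ a j hab hbc : Subgroup ↥(gJ n σ)) : Set ↥(gJ n σ)) ∧
        ∃ k : ℕ, orderOf g = p ^ k} := by
    rw [hy]
    exact mul_mem (mul_mem (mul_mem (yL_good p hab hbc _ _ _ _ _ m1)
      (uX_elt_good p hS (show (⟨_, m2.2⟩ : ↥(gJ n σ)) ∈ uX n σ from m2.1)))
      (yL_good p hab hbc _ _ _ _ _ m3))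
      (mul_mem (mul_mem k4 (uX_elt_good p hS (show (⟨_, m5.2⟩ : ↥(gJ n σ)) ∈ uX n σ from m5.1)))
        k4)
  refine ⟨y, Function.extend ![a, j, a.rev] ![s / ε, -σ s / s, -ε / σ s] 1,
    goodY_of_closure hD (goodRX_tX hσ ha hab hbc) hcl, hD,
    (inj3 h1 h3 h2).extend_apply _ _ (0 : Fin 3), ?_⟩
  intro i hi
  exact ext3_of_ne _ (ne_of_val_ne (by omega)) (ne_of_val_ne (by omega))
    (ne_of_val_ne (by omega))

theorem gJ_upper_diag {σ : K →+* K} {g : SpecialLinearGroup (Fin n) K} (hg : g ∈ gJ n σ)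
    (hup : ∀ i j : Fin n, j < i → g.1 i j = 0) (i : Fin n) :
    g.1 i i * σ (g.1 i.rev i.rev) = 1 := by
  have h1 : g * thS σ g = 1 := hg
  have h2 : (g.1 * th σ g.1) i i = (1 : Matrix (Fin n) (Fin n) K) i i :=
    congrFun (congrFun (congrArg Subtype.val h1) i) i
  rw [Matrix.one_apply_eq, Matrix.mul_apply, Finset.sum_eq_single i] at h2
  · exact h2
  · intro x _ hx
    rcases lt_or_gt_of_ne hx with h3 | h3
    · rw [hup i x h3, zero_mul]
    · rw [th_apply, hup i.rev x.rev (Fin.rev_lt_rev.2 h3), map_zero, mul_zero]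
  · intro h; exact absurd (Finset.mem_univ _) h

/-- The normalizer of `uX` is generated by the allowed generators. -/
theorem normalizer_le_closure [Finite K] {σ : K →+* K} (hσ : UD σ) (p : ℕ) [Fact p.Prime]
    [CharP K p] (hn : 4 ≤ n) :
    Subgroup.normalizer ((uX n σ : Subgroup ↥(gJ n σ)) : Set ↥(gJ n σ)) ≤
      Subgroup.closure (GoodY p n σ) := by
  obtain ⟨ε, hε0, hε⟩ := hσ.eps
  have key : ∀ d k : ℕ, k + d = n / 2 → ∀ g : ↥(gJ n σ),
      (∀ i j : Fin n, j < i → g.1.1 i j = 0) →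
      (∀ i : Fin n, (i : ℕ) < k → g.1.1 i i = 1) → g ∈ Subgroup.closure (GoodY p n σ) := by
    intro d
    induction d with
    | zero =>
      intro k hk g hup hdg
      apply Subgroup.subset_closure
      have hrel := gJ_upper_diag g.2 hup
      have hd2 : ∀ i : Fin n, ((i.rev : Fin n) : ℕ) < k → g.1.1 i i = 1 := by
        intro i hi
        have h1 := hrel i
        rw [hdg i.rev hi, map_one, mul_one] at h1
        exact h1
      have hUT : UT g.1.1 := by
        refine ⟨hup, fun i => ?_⟩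
        by_cases h1 : (i : ℕ) < k
        · exact hdg i h1
        by_cases h2 : ((i.rev : Fin n) : ℕ) < k
        · exact hd2 i h2
        have hdet : ∏ x, g.1.1 x x = 1 := by
          have h3 := g.1.2
          rw [Matrix.det_of_upperTriangular (fun i j h => hup i j h)] at h3
          exact h3
        rw [Fintype.prod_eq_single i] at hdet
        · exact hdet
        · intro x hx
          have hx' : (x : ℕ) ≠ i := fun e => hx (Fin.ext e)
          by_cases h4 : (x : ℕ) < k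
          · exact hdg x h4
          · apply hd2 x
            rw [Fin.val_rev] at h2 ⊢
            have := x.2
            have := i.2
            omega
      exact ⟨Subgroup.le_normalizer (show g ∈ uX n σ from hUT), Or.inl hUT⟩
    | succ d ih =>
      intro k hk g hup hdg
      have hk2 : k < n / 2 := by omega
      obtain ⟨a, ha⟩ : ∃ a : Fin n, (a : ℕ) = k := ⟨⟨k, by omega⟩, rfl⟩
      have hrel := gJ_upper_diag g.2 hup
      obtain ⟨c₀, hc₀⟩ : ∃ c₀, c₀ = g.1.1 a a := ⟨_, rfl⟩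
      have hc0 : c₀ ≠ 0 := by
        intro h0
        have h1 := hrel a
        rw [← hc₀, h0, zero_mul] at h1
        exact zero_ne_one h1
      have step : ∀ (y : ↥(gJ n σ)) (D : Fin n → K), y ∈ GoodY p n σ → y.1.1 = diagonal D →
          D a = c₀⁻¹ → (∀ i : Fin n, (i : ℕ) < a → D i = 1) →
          g ∈ Subgroup.closure (GoodY p n σ) := by
        intro y D hy hD hDa hDi
        have h1 : g * y ∈ Subgroup.closure (GoodY p n σ) := by
          apply ih (k + 1) (by omega)
          · intro i j hij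
            show (g.1.1 * y.1.1) i j = 0
            rw [hD, Matrix.mul_diagonal, hup i j hij, zero_mul]
          · intro i hi
            show (g.1.1 * y.1.1) i i = 1
            rw [hD, Matrix.mul_diagonal]
            by_cases hia : i = a
            · rw [hia, hDa, ← hc₀, mul_inv_cancel₀ hc0]
            · have hi' : (i : ℕ) < k := by
                have : (i : ℕ) ≠ k := fun e => hia (Fin.ext (by rw [e, ha]))
                omega
              rw [hDi i (by omega), hdg i hi', mul_one]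
        have h2 := Subgroup.mul_mem _ h1 (Subgroup.inv_mem _ (Subgroup.subset_closure hy))
        rwa [mul_inv_cancel_right] at h2
      rcases (by omega : 2 * k + 3 < n ∨ n = 2 * k + 2 ∨ n = 2 * k + 3) with hc | hc | hc
      · obtain ⟨b, hb⟩ : ∃ b : Fin n, (b : ℕ) = k + 1 := ⟨⟨k + 1, by omega⟩, rfl⟩
        have hab : (b : ℕ) = a + 1 := by omega
        obtain ⟨y, D, hy1, hy2, hy3, hy4⟩ :=
          hSJ_step hσ p hn hab (by omega) (inv_ne_zero hc0)
        exact step y D hy1 hy2 hy3 hy4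
      · have hab : ((a.rev : Fin n) : ℕ) = a + 1 := by rw [Fin.val_rev]; omega
        have hne : a ≠ a.rev := adj_ne hab
        have hdet : g.1.1 a a * g.1.1 a.rev a.rev = 1 := by
          have h3 := g.1.2
          rw [Matrix.det_of_upperTriangular (fun i j h => hup i j h),
            Fintype.prod_eq_mul a a.rev hne] at h3
          · exact h3
          · rintro x ⟨hx1, hx2⟩
            have hx1' : (x : ℕ) ≠ a := fun e => hx1 (Fin.ext e)
            have hx2' : (x : ℕ) ≠ a.rev := fun e => hx2 (Fin.ext e)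
            by_cases h4 : (x : ℕ) < k
            · exact hdg x h4
            · have h5 := hrel x
              rw [hdg x.rev (by rw [Fin.val_rev]; have := x.2; omega), map_one, mul_one] at h5
              exact h5
        have h6 := hrel a
        rw [← hc₀] at hdet h6
        have h7 : g.1.1 a.rev a.rev = c₀⁻¹ := eq_inv_of_mul_eq_one_right hdet
        rw [h7] at h6
        have h8 : σ c₀⁻¹ = c₀⁻¹ := by
          have h9 : c₀ * σ c₀⁻¹ = c₀ * c₀⁻¹ := by rw [h6, mul_inv_cancel₀ hc0]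
          exact mul_left_cancel₀ hc0 h9
        obtain ⟨y, D, hy1, hy2, hy3, hy4⟩ :=
          hdE_step hσ p hn hab (inv_ne_zero hc0) h8 hε0 hε
        exact step y D hy1 hy2 hy3 hy4
      · obtain ⟨j, hj⟩ : ∃ j : Fin n, (j : ℕ) = k + 1 := ⟨⟨k + 1, by omega⟩, rfl⟩
        have hab : (j : ℕ) = a + 1 := by omega
        have hbc : ((a.rev : Fin n) : ℕ) = j + 1 := by rw [Fin.val_rev]; omega
        obtain ⟨s, hs⟩ : ∃ s, s = ε * c₀⁻¹ := ⟨_, rfl⟩
        have hs0 : s ≠ 0 := by rw [hs]; exact mul_ne_zero hε0 (inv_ne_zero hc0)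
        obtain ⟨t, ht⟩ := hσ.norm (-(s + σ s)) (by rw [map_neg, map_add, hσ.inv]; ring)
        have hrel2 : s + σ s + t * σ t = 0 := by rw [ht]; ring
        obtain ⟨y, D, hy1, hy2, hy3, hy4⟩ :=
          EJ_step hσ p (by omega) hab hbc hs0 hε0 hε hrel2
        refine step y D hy1 hy2 ?_ hy4
        rw [hy3, hs, mul_div_cancel_left₀ _ hε0]
  intro g hg
  exact key (n / 2) 0 (by omega) g (uX_upper hσ hg) (fun i hi => absurd hi (by omega))

end Un7

end Cfsg.Agent.Helper25
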