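import Mathlib
import Cfsg.Agent.Helper25.Un7

set_option autoImplicit false

namespace Cfsg.Agent.Helper25

open Matrix

section Un8

variable {n : ℕ} {K : Type*} [Field K]

theorem col_triv [Finite K] {σ : K →+* K} {u : SpecialLinearGroup (Fin n) K}
    (hu : u ∈ uJ n σ) {i : Fin n} (hrow : ∀ x, x ≠ i → u.1 i x = 0) :
    ∀ w, w ≠ i.rev → u.1 w i.rev = 0 := by
  intro w hw
  have h1 : (u.1 * (u⁻¹).1) i w.rev = (u⁻¹).1 i w.rev := by
    rw [Matrix.mul_apply, Finset.sum_eq_single i]
    · rw [hu.1.2, one_mul]
    · intro x _ hx
      rw [hrow x hx, zero_mul]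
    · intro h; exact absurd (Finset.mem_univ _) h
  have h2 : u.1 * (u⁻¹).1 = 1 := congrArg Subtype.val (mul_inv_cancel u)
  have hne : i ≠ w.rev := fun e => hw (by rw [e, Fin.rev_rev])
  rw [h2, Matrix.one_apply_ne hne, gJ_inv_apply hu.2, Fin.rev_rev] at h1
  exact (map_eq_zero σ).1 h1.symm

/-- `uJ` is generated by the root elements. -/
theorem uJ_le_of_root [Finite K] {σ : K →+* K} (hσ : UD σ)
    (H : Subgroup (SpecialLinearGroup (Fin n) K))
    (hl : ∀ (a : Fin n) (ha : a < a.rev) (r : K), σ r = -r → tv a a.rev (ne_of_lt ha) r ∈ H)
    (hs : ∀ (a b : Fin n) (hab : a < b), b < a.rev → b ≠ b.rev → ∀ t : K,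
      sJ σ a b (ne_of_lt hab) t ∈ H)
    (hm : ∀ (a j : Fin n) (h1 : a ≠ j) (h2 : j ≠ a.rev) (h3 : a ≠ a.rev), a < j → j.rev = j →
      ∀ t s : K, s + σ s + t * σ t = 0 → mJ σ a j h1 h2 h3 t s ∈ H) :
    uJ n σ ≤ H := by
  have key : ∀ d k : ℕ, k + d = n / 2 → ∀ u ∈ uJ n σ,
      (∀ i : Fin n, (i : ℕ) < k → ∀ x, x ≠ i → u.1 i x = 0) → u ∈ H := by
    intro d
    induction d with
    | zero =>
      intro k hk u hu hrow
      have hu1 : u = 1 := by
        apply Subtype.ext
        ext x y
        show u.1 x y = (1 : Matrix (Fin n) (Fin n) K) x y
        by_cases hxy : x = y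
        · rw [hxy, hu.1.2, Matrix.one_apply_eq]
        · rw [Matrix.one_apply_ne hxy]
          by_cases h1 : (x : ℕ) < k
          · exact hrow x h1 y (Ne.symm hxy)
          by_cases h2 : ((y.rev : Fin n) : ℕ) < k
          · have h3 := col_triv hu (hrow y.rev h2) x (by rw [Fin.rev_rev]; exact hxy)
            rw [Fin.rev_rev] at h3
            exact h3
          · apply hu.1.1
            rw [Fin.lt_def]
            rw [Fin.val_rev] at h2
            have := x.2
            have := y.2
            have : (x : ℕ) ≠ y := fun e => hxy (Fin.ext e)
            omega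
      rw [hu1]
      exact one_mem H
    | succ d ih =>
      intro k hk u hu hrow
      have hk2 : k < n / 2 := by omega
      obtain ⟨a, ha⟩ : ∃ a : Fin n, (a : ℕ) = k := ⟨⟨k, by omega⟩, rfl⟩
      have haa : a < a.rev := by rw [Fin.lt_def, Fin.val_rev]; omega
      have inner : ∀ e : ℕ, ∀ u ∈ uJ n σ,
          (∀ i : Fin n, (i : ℕ) < k → ∀ x, x ≠ i → u.1 i x = 0) →
          (∀ x : Fin n, a < x → (x : ℕ) + e < (a.rev : Fin n) → u.1 a x = 0) → u ∈ H := by
        intro e
        induction e with
        | zero =>
          intro u hu hrow hcl
          have hcol : ∀ x : Fin n, a.rev < x → u.1 a x = 0 := by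
            intro x hx
            have h1 : ((x.rev : Fin n) : ℕ) < k := by
              rw [Fin.val_rev]
              rw [Fin.lt_def, Fin.val_rev] at hx
              have := x.2
              omega
            have h3 := col_triv hu (hrow x.rev h1) a
              (by rw [Fin.rev_rev]; exact ne_of_lt (lt_trans haa hx))
            rw [Fin.rev_rev] at h3
            exact h3
          have hrowa : ∀ x : Fin n, x ≠ a → x ≠ a.rev → u.1 a x = 0 := by
            intro x h1 h2
            rcases lt_or_gt_of_ne h1 with h3 | h3
            · exact hu.1.1 a x h3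
            · rcases lt_or_gt_of_ne h2 with h4 | h4
              · exact hcl x h3 (by rw [Fin.lt_def] at h4; omega)
              · exact hcol x h4
          obtain ⟨c, hc⟩ : ∃ c, c = u.1 a a.rev := ⟨_, rfl⟩
          have hcσ : σ c = -c := by
            have h1 : u * thS σ u = 1 := hu.2
            have h2 : (u.1 * th σ u.1) a a.rev = (1 : Matrix (Fin n) (Fin n) K) a a.rev :=
              congrFun (congrFun (congrArg Subtype.val h1) a) a.rev
            rw [Matrix.one_apply_ne (ne_of_lt haa), Matrix.mul_apply,
              Finset.sum_eq_add a a.rev (ne_of_lt haa)] at h2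
            · simp only [th_apply, Fin.rev_rev] at h2
              rw [hu.1.2, ← hc, map_one, one_mul, mul_one] at h2
              exact eq_neg_of_add_eq_zero_left h2
            · intro x _ hx
              rw [hrowa x hx.1 hx.2, zero_mul]
            · intro h; exact absurd (Finset.mem_univ _) h
            · intro h; exact absurd (Finset.mem_univ _) h
          have hcσ' : σ (-c) = -(-c) := by rw [map_neg, hcσ]
          have hu' : u * tv a a.rev (ne_of_lt haa) (-c) ∈ uJ n σ :=
            mul_mem hu (tvr_mem_uJ haa hcσ')
          have h1 : u * tv a a.rev (ne_of_lt haa) (-c) ∈ H := by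
            apply ih (k + 1) (by omega) _ hu'
            intro i hi x hxi
            show (u.1 * transvection a a.rev (-c)) i x = 0
            rw [mtv]
            by_cases hia : i = a
            · rw [hia] at hxi ⊢
              by_cases hx : x = a.rev
              · rw [if_pos hx, ← hc, hu.1.2]; ring
              · rw [if_neg hx]; exact hrowa x hxi hx
            · have hi' : (i : ℕ) < k := by
                have : (i : ℕ) ≠ k := fun e => hia (Fin.ext (by rw [e, ha]))
                omega
              by_cases hx : x = a.rev
              · rw [if_pos hx, hrow i hi' a.rev (ne_of_val_ne (by rw [Fin.val_rev]; omega)),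
                  hrow i hi' a (ne_of_val_ne (by omega))]
                ring
              · rw [if_neg hx]; exact hrow i hi' x hxi
          have h2 := H.mul_mem h1 (H.inv_mem (hl a haa (-c) hcσ'))
          rwa [mul_inv_cancel_right] at h2
        | succ e ihe =>
          intro u hu hrow hcl
          by_cases hx : ∃ x₀ : Fin n, a < x₀ ∧ (x₀ : ℕ) + e + 1 = (a.rev : Fin n)
          · obtain ⟨x₀, hx1, hx2⟩ := hx
            obtain ⟨c, hc⟩ : ∃ c, c = u.1 a x₀ := ⟨_, rfl⟩
            have hx3 : x₀ < a.rev := by rw [Fin.lt_def]; omega
            have hx1' := hx1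
            rw [Fin.lt_def] at hx1'
            by_cases hmid : x₀ = x₀.rev
            · obtain ⟨s, hs⟩ := hσ.tr (-((-c) * σ (-c)))
                (by rw [map_neg, map_mul, hσ.inv]; ring)
              have hs' : s + σ s + (-c) * σ (-c) = 0 := by rw [hs]; ring
              have hr := mJ_mem_uJ hσ.inv (ne_of_lt hx1) (ne_of_lt hx3) (ne_of_lt haa) hx1
                hmid.symm hs'
              have h1 : u * mJ σ a x₀ (ne_of_lt hx1) (ne_of_lt hx3) (ne_of_lt haa) (-c) s ∈ H := by
                apply ihe _ (mul_mem hu hr)
                · intro i hi x hxi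
                  show (u.1 * (mJ σ a x₀ (ne_of_lt hx1) (ne_of_lt hx3) (ne_of_lt haa)
                    (-c) s).1) i x = 0
                  rw [mJ_val']
                  simp only [Matrix.mul_add, Matrix.mul_one, Matrix.add_apply, mul_single_apply']
                  simp [hrow i hi x hxi, hrow i hi a (ne_of_val_ne (by omega)),
                    hrow i hi x₀ (ne_of_val_ne (by omega))]
                · intro x hax hxe
                  show (u.1 * (mJ σ a x₀ (ne_of_lt hx1) (ne_of_lt hx3) (ne_of_lt haa)
                    (-c) s).1) a x = 0
                  rw [mJ_val']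
                  simp only [Matrix.mul_add, Matrix.mul_one, Matrix.add_apply, mul_single_apply']
                  have hxa : x ≠ a.rev := ne_of_val_ne (by omega)
                  rw [if_neg hxa, if_neg hxa, add_zero, add_zero]
                  by_cases hxx : x = x₀
                  · rw [if_pos hxx, hxx, ← hc, hu.1.2]; ring
                  · rw [if_neg hxx, add_zero]
                    apply hcl x hax
                    have : (x : ℕ) ≠ x₀ := fun e => hxx (Fin.ext e)
                    omega
              have h2 := H.mul_mem h1
                (H.inv_mem (hm a x₀ (ne_of_lt hx1) (ne_of_lt hx3) (ne_of_lt haa) hx1 hmid.symm (-c) s hs'))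
              rwa [mul_inv_cancel_right] at h2
            · have hax' : a ≠ x₀.rev := by
                apply ne_of_val_ne
                rw [Fin.val_rev]
                rw [Fin.lt_def, Fin.val_rev] at hx3
                have := x₀.2
                omega
              have hr := sJ_mem_uJ hσ.inv hx1 (ne_of_lt haa) hmid hax' (-c)
              have h1 : u * sJ σ a x₀ (ne_of_lt hx1) (-c) ∈ H := by
                apply ihe _ (mul_mem hu hr)
                · intro i hi x hxi
                  show (u.1 * (sJ σ a x₀ (ne_of_lt hx1) (-c)).1) i x = 0
                  rw [sJ_val' σ (ne_of_lt hx1) hmid]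
                  simp only [Matrix.mul_add, Matrix.mul_one, Matrix.add_apply, mul_single_apply']
                  have h5 : x₀.rev ≠ i := by
                    apply ne_of_val_ne
                    rw [Fin.val_rev]
                    rw [Fin.lt_def, Fin.val_rev] at hx3
                    have := x₀.2
                    omega
                  simp [hrow i hi x hxi, hrow i hi a (ne_of_val_ne (by omega)),
                    hrow i hi x₀.rev h5]
                · intro x hax hxe
                  show (u.1 * (sJ σ a x₀ (ne_of_lt hx1) (-c)).1) a x = 0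
                  rw [sJ_val' σ (ne_of_lt hx1) hmid]
                  simp only [Matrix.mul_add, Matrix.mul_one, Matrix.add_apply, mul_single_apply']
                  have hxa : x ≠ a.rev := ne_of_val_ne (by omega)
                  rw [if_neg hxa, add_zero]
                  by_cases hxx : x = x₀
                  · rw [if_pos hxx, hxx, ← hc, hu.1.2]; ring
                  · rw [if_neg hxx, add_zero]
                    apply hcl x hax
                    have : (x : ℕ) ≠ x₀ := fun e => hxx (Fin.ext e)
                    omega
              have h2 := H.mul_mem h1 (H.inv_mem (hs a x₀ hx1 hx3 hmid (-c)))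
              rwa [mul_inv_cancel_right] at h2
          · apply ihe u hu hrow
            intro x hax hxe
            apply hcl x hax
            have : (x : ℕ) + e + 1 ≠ (a.rev : Fin n) := fun h => hx ⟨x, hax, h⟩
            omega
      exact inner n u hu hrow (fun x _ hx => absurd hx (by have := (a.rev).2; omega))
  intro u hu
  exact key (n / 2) 0 (by omega) u hu (fun i hi => absurd hi (by omega))

end Un8

end Cfsg.Agent.Helper25
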