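import Mathlib
import Cfsg.Agent.Helper25.Un8
import Cfsg.Agent.S0065

set_option autoImplicit false

namespace Cfsg.Agent.Helper25

open Matrix

section Un9

variable {n : ℕ} {K : Type*} [Field K]

theorem sm_ii (c : K) :
    (transvection (0 : Fin 4) 1 (-1 : K) : Matrix (Fin 4) (Fin 4) K) *
      transvection (2 : Fin 4) 3 (1 : K) *
      (transvection (1 : Fin 4) 0 (1 : K) * transvection (3 : Fin 4) 2 (-1 : K)) *
      transvection (0 : Fin 4) 3 c =
    transvection (1 : Fin 4) 2 c * (transvection (0 : Fin 4) 1 (-1 : K) *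
      transvection (2 : Fin 4) 3 (1 : K) *
      (transvection (1 : Fin 4) 0 (1 : K) * transvection (3 : Fin 4) 2 (-1 : K))) := by
  simp only [← Matrix.mul_assoc]
  ext i j
  fin_cases i <;> fin_cases j <;> simp [mtv] <;>
    simp [transvection, Matrix.one_apply, Matrix.single_apply]

theorem sm_iii (m M r : K) :
    (transvection (1 : Fin 4) 0 m : Matrix (Fin 4) (Fin 4) K) *
      transvection (3 : Fin 4) 2 (-M) * transvection (0 : Fin 4) 3 r =
    transvection (0 : Fin 4) 3 r * transvection (1 : Fin 4) 2 (m * M * r) *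
      (transvection (0 : Fin 4) 2 (r * M) * transvection (1 : Fin 4) 3 (r * m)) *
      (transvection (1 : Fin 4) 0 m * transvection (3 : Fin 4) 2 (-M)) := by
  simp only [← Matrix.mul_assoc]
  ext i j
  fin_cases i <;> fin_cases j <;> simp [mtv] <;>
    simp [transvection, Matrix.one_apply, Matrix.single_apply] <;> ring1

theorem sm_iv (e t T : K) :
    (transvection (2 : Fin 4) 1 e : Matrix (Fin 4) (Fin 4) K) *
      (transvection (0 : Fin 4) 2 t * transvection (1 : Fin 4) 3 (-T)) =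
    transvection (0 : Fin 4) 1 (-(e * t)) * transvection (2 : Fin 4) 3 (-(e * T)) *
      (transvection (0 : Fin 4) 2 t * transvection (1 : Fin 4) 3 (-T)) *
      transvection (0 : Fin 4) 3 (-(e * t * T)) *
      transvection (2 : Fin 4) 1 e := by
  simp only [← Matrix.mul_assoc]
  ext i j
  fin_cases i <;> fin_cases j <;> simp [mtv] <;>
    simp [transvection, Matrix.one_apply, Matrix.single_apply] <;> ring1

theorem sm_v1 (u U w W : K) (h : w + W + u * U = 0) :
    (transvection (0 : Fin 5) 1 (1 : K) : Matrix (Fin 5) (Fin 5) K) *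
      transvection (3 : Fin 5) 4 (-1 : K) *
      (transvection (2 : Fin 5) 3 (-U) * transvection (1 : Fin 5) 2 u *
        transvection (1 : Fin 5) 3 w) =
    transvection (2 : Fin 5) 3 (-U) * transvection (1 : Fin 5) 2 u *
        transvection (1 : Fin 5) 3 w *
      (transvection (2 : Fin 5) 4 (-U) * transvection (0 : Fin 5) 2 u *
        transvection (0 : Fin 5) 4 w) *
      (transvection (0 : Fin 5) 3 w * transvection (1 : Fin 5) 4 (-W)) *
      (transvection (0 : Fin 5) 1 (1 : K) * transvection (3 : Fin 5) 4 (-1 : K)) := by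
  simp only [← Matrix.mul_assoc]
  ext i j
  fin_cases i <;> fin_cases j <;> simp [mtv] <;>
    simp [transvection, Matrix.one_apply, Matrix.single_apply] <;>
    first | ring1 | linear_combination h | linear_combination (-1 : K) * h |
      linear_combination u * h | linear_combination (-u) * h | linear_combination U * h |
      linear_combination (-U) * h

theorem sm_v2 (u U w W : K) (h : w + W + u * U = 0) :
    (transvection (1 : Fin 5) 0 (1 : K) : Matrix (Fin 5) (Fin 5) K) *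
      transvection (4 : Fin 5) 3 (-1 : K) *
      (transvection (2 : Fin 5) 4 (-U) * transvection (0 : Fin 5) 2 u *
        transvection (0 : Fin 5) 4 w) =
    transvection (2 : Fin 5) 4 (-U) * transvection (0 : Fin 5) 2 u *
        transvection (0 : Fin 5) 4 w *
      (transvection (2 : Fin 5) 3 (-U) * transvection (1 : Fin 5) 2 u *
        transvection (1 : Fin 5) 3 w) *
      (transvection (0 : Fin 5) 3 (-W) * transvection (1 : Fin 5) 4 w) *
      (transvection (1 : Fin 5) 0 (1 : K) * transvection (4 : Fin 5) 3 (-1 : K)) := by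
  simp only [← Matrix.mul_assoc]
  ext i j
  fin_cases i <;> fin_cases j <;> simp [mtv] <;>
    simp [transvection, Matrix.one_apply, Matrix.single_apply] <;>
    first | ring1 | linear_combination h | linear_combination (-1 : K) * h |
      linear_combination u * h | linear_combination (-u) * h | linear_combination U * h |
      linear_combination (-U) * h

theorem hSJ_mem_gJ {σ : K →+* K} (hσ : ∀ t, σ (σ t) = t) {a b : Fin n} (hab : a ≠ b)
    (ha : a ≠ a.rev) (hb : b ≠ b.rev) (hab' : a ≠ b.rev) (l : K) : hSJ σ a b hab l ∈ gJ n σ := by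
  have hba' : b ≠ a.rev := fun e => hab' (by rw [e, Fin.rev_rev])
  unfold hSJ
  exact mul_mem (mul_mem (mul_mem (sJ_mem_gJ hσ _ ha hb hab' _) (sJ_mem_gJ hσ _ hb ha hba' _))
    (sJ_mem_gJ hσ _ ha hb hab' _)) (sJ_mem_gJ hσ _ hb ha hba' _)

theorem diag_conj_tv {h : SpecialLinearGroup (Fin n) K} {D : Fin n → K} (hD : h.1 = diagonal D)
    {a b : Fin n} (hab : a ≠ b) (hb : D b ≠ 0) (c : K) :
    h * tv a b hab c * h⁻¹ = tv a b hab (D a * c * (D b)⁻¹) := by
  rw [mul_inv_eq_iff_eq_mul]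
  apply Subtype.ext
  show h.1 * transvection a b c = transvection a b (D a * c * (D b)⁻¹) * h.1
  rw [hD]
  unfold transvection
  rw [Matrix.mul_add, Matrix.add_mul, Matrix.mul_one, Matrix.one_mul]
  congr 1
  ext i j
  rw [Matrix.diagonal_mul, Matrix.mul_diagonal, Matrix.single_apply, Matrix.single_apply]
  by_cases hij : a = i ∧ b = j
  · obtain ⟨rfl, rfl⟩ := hij
    simp only [and_self, if_true]
    field_simp
  · rw [if_neg hij, if_neg hij, mul_zero, zero_mul]

theorem closed_step {σ : K →+* K} {T : Subgroup (SpecialLinearGroup (Fin n) K)}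
    (hcl : ∀ t ∈ T, ∀ g ∈ gJ n σ, UT (g * t * g⁻¹).1 → g * t * g⁻¹ ∈ T)
    {t g r : SpecialLinearGroup (Fin n) K} (ht : t ∈ T) (hg : g ∈ gJ n σ) (e : g * t = r * g)
    (hr : UT r.1) : r ∈ T := by
  have h1 : g * t * g⁻¹ = r := by rw [e, mul_inv_cancel_right]
  rw [← h1]
  exact hcl t ht g hg (by rw [h1]; exact hr)

theorem cl_i {σ : K →+* K} (hσ : UD σ) (hn : 4 ≤ n)
    {T : Subgroup (SpecialLinearGroup (Fin n) K)}
    (hcl : ∀ t ∈ T, ∀ g ∈ gJ n σ, UT (g * t * g⁻¹).1 → g * t * g⁻¹ ∈ T)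
    {o : Fin n} (ho : (o : ℕ) = 0) (hoo : o ≠ o.rev) {c : K} (hc0 : c ≠ 0) (hc : σ c = -c)
    (hcT : tv o o.rev hoo c ∈ T) (r : K) (hr : σ r = -r) : tv o o.rev hoo r ∈ T := by
  by_cases hr0 : r = 0
  · rw [hr0, tv_zero]; exact one_mem _
  have hf : σ (r / c) = r / c := by rw [map_div₀, hr, hc, neg_div_neg_eq]
  obtain ⟨l, hl⟩ := hσ.norm _ hf
  have hl0 : l ≠ 0 := by
    rintro rfl
    rw [zero_mul] at hl
    exact (div_ne_zero hr0 hc0) hl.symm
  obtain ⟨o1, ho1⟩ : ∃ o1 : Fin n, (o1 : ℕ) = 1 := ⟨⟨1, by omega⟩, rfl⟩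
  have h1 : o ≠ o1 := ne_of_val_ne (by omega)
  have h2 : o1 ≠ o1.rev := ne_of_val_ne (by rw [Fin.val_rev]; omega)
  have h3 : o ≠ o1.rev := ne_of_val_ne (by rw [Fin.val_rev]; omega)
  have hp : Function.Injective ![o, o1, o1.rev, o.rev] :=
    inj4 h1 h3 hoo h2 (fun e => h3 (by rw [e, Fin.rev_rev])) (rne h1)
  have hD := hSJ_val σ h1 hoo h2 h3 hl0
  have hDo : Function.extend ![o, o1, o1.rev, o.rev] ![l, l⁻¹, σ l, (σ l)⁻¹] 1 o = l :=
    hp.extend_apply _ _ (0 : Fin 4)
  have hDr : Function.extend ![o, o1, o1.rev, o.rev] ![l, l⁻¹, σ l, (σ l)⁻¹] 1 o.rev =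
      (σ l)⁻¹ := hp.extend_apply _ _ (3 : Fin 4)
  have e := diag_conj_tv hD hoo (by rw [hDr]; exact inv_ne_zero ((map_ne_zero σ).2 hl0)) c
  rw [hDo, hDr, inv_inv] at e
  have e2 : l * c * σ l = r := by
    rw [mul_right_comm, hl]; field_simp
  rw [e2] at e
  rw [← e]
  exact hcl _ hcT _ (hSJ_mem_gJ hσ.inv h1 hoo h2 h3 l)
    (by rw [e]; exact ut_transvection (by rw [Fin.lt_def, Fin.val_rev]; omega) r)

theorem cl_ii {σ : K →+* K} (hσ : ∀ t, σ (σ t) = t)
    {T : Subgroup (SpecialLinearGroup (Fin n) K)}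
    (hcl : ∀ t ∈ T, ∀ g ∈ gJ n σ, UT (g * t * g⁻¹).1 → g * t * g⁻¹ ∈ T)
    {o a : Fin n} (hoa : o < a) (ha : a < a.rev) (hoo : o ≠ o.rev) {c : K}
    (hcT : tv o o.rev hoo c ∈ T) : tv a a.rev (ne_of_lt ha) c ∈ T := by
  have h1 : o ≠ a := ne_of_lt hoa
  have haa : a ≠ a.rev := ne_of_lt ha
  have h3 : o ≠ a.rev := ne_of_lt (lt_trans hoa ha)
  have h4 : a ≠ o.rev := fun e => h3 (by rw [e, Fin.rev_rev])
  have hp : Function.Injective ![o, a, a.rev, o.rev] := inj4 h1 h3 hoo haa h4 (rne h1)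
  have key := congrArg (emb ![o, a, a.rev, o.rev]) (sm_ii c)
  simp only [emb_mul hp, emb_transvection] at key
  apply closed_step hcl hcT (g := sJ σ o a h1 (-1) * sJ σ a o h1.symm 1)
    (mul_mem (sJ_mem_gJ hσ h1 hoo haa h3 _) (sJ_mem_gJ hσ h1.symm haa hoo h4 _)) ?_
    (ut_transvection ha c)
  apply Subtype.ext
  show transvection o a (-1) * transvection a.rev o.rev (-σ (-1)) *
      (transvection a o 1 * transvection o.rev a.rev (-σ 1)) * transvection o o.rev c =
    transvection a a.rev c * (transvection o a (-1) * transvection a.rev o.rev (-σ (-1)) *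
      (transvection a o 1 * transvection o.rev a.rev (-σ 1)))
  rw [map_neg, map_one, neg_neg]
  exact key

theorem cl_iii {σ : K →+* K} (hσ : ∀ t, σ (σ t) = t)
    {T : Subgroup (SpecialLinearGroup (Fin n) K)}
    (hcl : ∀ t ∈ T, ∀ g ∈ gJ n σ, UT (g * t * g⁻¹).1 → g * t * g⁻¹ ∈ T)
    (hL : ∀ (a : Fin n) (ha : a < a.rev) (r : K), σ r = -r → tv a a.rev (ne_of_lt ha) r ∈ T)
    {ε : K} (hε0 : ε ≠ 0) (hε : σ ε = -ε) {a c : Fin n} (hac : a < c) (hc : c < c.rev)
    (h3 : a ≠ c.rev) (hcar : c ≠ a.rev) (t : K) :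
    tv a c.rev h3 t * tv c a.rev hcar (-σ t) ∈ T := by
  have hca : c.rev < a.rev := Fin.rev_lt_rev.2 hac
  have ha : a < a.rev := lt_trans hac (lt_trans hc hca)
  have h1 : a ≠ c := ne_of_lt hac
  have hcc : c ≠ c.rev := ne_of_lt hc
  have haa : a ≠ a.rev := ne_of_lt ha
  have hp : Function.Injective ![a, c, c.rev, a.rev] := inj4 h1 h3 haa hcc hcar (rne h1)
  obtain ⟨μ, hμ⟩ : ∃ μ, μ = σ (t / ε) := ⟨_, rfl⟩
  have hμ1 : ε * σ μ = t := by rw [hμ, hσ]; field_simp
  have hμ2 : ε * μ = -σ t := by rw [hμ, map_div₀, hε]; field_simp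
  have key := congrArg (emb ![a, c, c.rev, a.rev]) (sm_iii μ (σ μ) ε)
  simp only [emb_mul hp, emb_transvection] at key
  have hr : tv a a.rev haa ε * tv c c.rev hcc (μ * σ μ * ε) *
      (tv a c.rev h3 (ε * σ μ) * tv c a.rev hcar (ε * μ)) ∈ T := by
    apply closed_step hcl (hL a ha ε hε) (sJ_mem_gJ hσ h1.symm hcc haa hcar μ) ?_
      (ut_mul (ut_mul (ut_transvection ha _) (ut_transvection hc _))
        (ut_mul (ut_transvection (lt_trans hac hc) _) (ut_transvection (lt_trans hc hca) _)))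
    apply Subtype.ext
    exact key
  have h5 : tv a a.rev haa ε * tv c c.rev hcc (μ * σ μ * ε) ∈ T :=
    mul_mem (hL a ha ε hε) (hL c hc _ (by rw [map_mul, map_mul, hσ, hε]; ring))
  have h6 := (Subgroup.mul_mem_cancel_left T h5).1 hr
  rw [hμ1, hμ2] at h6
  exact h6

theorem cl_iv {σ : K →+* K} (hσ : ∀ t, σ (σ t) = t)
    {T : Subgroup (SpecialLinearGroup (Fin n) K)}
    (hcl : ∀ t ∈ T, ∀ g ∈ gJ n σ, UT (g * t * g⁻¹).1 → g * t * g⁻¹ ∈ T)
    (hL : ∀ (a : Fin n) (ha : a < a.rev) (r : K), σ r = -r → tv a a.rev (ne_of_lt ha) r ∈ T)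
    {ε : K} (hε0 : ε ≠ 0) (hε : σ ε = -ε) {a c : Fin n} (hac : a < c) (hc : c < c.rev)
    (t : K) : sJ σ a c (ne_of_lt hac) t ∈ T := by
  have hca : c.rev < a.rev := Fin.rev_lt_rev.2 hac
  have ha : a < a.rev := lt_trans hac (lt_trans hc hca)
  have h1 : a ≠ c := ne_of_lt hac
  have h3 : a ≠ c.rev := ne_of_lt (lt_trans hac hc)
  have hcc : c ≠ c.rev := ne_of_lt hc
  have haa : a ≠ a.rev := ne_of_lt ha
  have hcar : c ≠ a.rev := ne_of_lt (lt_trans hc hca)
  have hp : Function.Injective ![a, c, c.rev, a.rev] := inj4 h1 h3 haa hcc hcar (rne h1)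
  obtain ⟨s, hs⟩ : ∃ s, s = -t / ε := ⟨_, rfl⟩
  have hs1 : -(ε * s) = t := by rw [hs]; field_simp
  have hs2 : -σ (-(ε * s)) = -(ε * σ s) := by rw [map_neg, map_mul, hε]; ring
  have hS2 := cl_iii hσ hcl hL hε0 hε hac hc h3 hcar s
  have key := congrArg (emb ![a, c, c.rev, a.rev]) (sm_iv ε s (σ s))
  simp only [emb_mul hp, emb_transvection] at key
  have hr : sJ σ a c h1 (-(ε * s)) * (tv a c.rev h3 s * tv c a.rev hcar (-σ s)) *
      tv a a.rev haa (-(ε * s * σ s)) ∈ T := by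
    apply closed_step hcl hS2 (tv_mem_gJ' hcc.symm (Fin.rev_rev c).symm hε) ?_
      (ut_mul (ut_mul (ut_mul (ut_transvection hac _) (ut_transvection hca _))
        (ut_mul (ut_transvection (lt_trans hac hc) _) (ut_transvection (lt_trans hc hca) _)))
        (ut_transvection ha _))
    apply Subtype.ext
    show transvection c.rev c ε * (transvection a c.rev s * transvection c a.rev (-σ s)) =
      transvection a c (-(ε * s)) * transvection c.rev a.rev (-σ (-(ε * s))) *
        (transvection a c.rev s * transvection c a.rev (-σ s)) *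
        transvection a a.rev (-(ε * s * σ s)) * transvection c.rev c ε
    rw [hs2]
    exact key
  have h5 : tv a a.rev haa (-(ε * s * σ s)) ∈ T :=
    hL a ha _ (by rw [map_neg, map_mul, map_mul, hσ, hε]; ring)
  have h6 := (Subgroup.mul_mem_cancel_right T hS2).1 ((Subgroup.mul_mem_cancel_right T h5).1 hr)
  rw [hs1] at h6
  exact h6

theorem cl_v1 {σ : K →+* K} (hσ : ∀ t, σ (σ t) = t)
    {T : Subgroup (SpecialLinearGroup (Fin n) K)}
    (hcl : ∀ t ∈ T, ∀ g ∈ gJ n σ, UT (g * t * g⁻¹).1 → g * t * g⁻¹ ∈ T)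
    {o b j : Fin n} (hob : o < b) (hbj : b < j) (hj : j.rev = j)
    (hx : sJ σ o b (ne_of_lt hob) 1 ∈ T)
    (h3 : o ≠ b.rev) (hbor : b ≠ o.rev)
    (hS2 : ∀ t, tv o b.rev h3 t * tv b o.rev hbor (-σ t) ∈ T)
    (k1 : o ≠ j) (k2 : j ≠ o.rev) (k3 : o ≠ o.rev)
    {u w : K} (hs : w + σ w + u * σ u = 0) : mJ σ o j k1 k2 k3 u w ∈ T := by
  have hjv : n = 2 * (j : ℕ) + 1 := by
    have := congrArg Fin.val hj
    rw [Fin.val_rev] at this
    omega
  have hobv : (o : ℕ) < b := hob
  have hbjv : (b : ℕ) < j := hbj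
  have h1 : o ≠ b := ne_of_lt hob
  have hbb : b ≠ b.rev := ne_of_val_ne (by rw [Fin.val_rev]; omega)
  have m1 : b ≠ j := ne_of_lt hbj
  have m2 : j ≠ b.rev := ne_of_val_ne (by rw [Fin.val_rev]; omega)
  have hp : Function.Injective ![o, b, j, b.rev, o.rev] :=
    inj5 h1 k1 h3 k3 m1 hbb hbor m2 k2 (rne h1)
  have key := congrArg (emb ![o, b, j, b.rev, o.rev]) (sm_v1 u (σ u) w (σ w) hs)
  simp only [emb_mul hp, emb_transvection] at key
  have l1 : o < j := lt_trans hob hbj
  have l2 : j < o.rev := by rw [Fin.lt_def, Fin.val_rev]; omega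
  have l3 : o < o.rev := lt_trans l1 l2
  have l4 : o < b.rev := by rw [Fin.lt_def, Fin.val_rev]; omega
  have l5 : b < o.rev := by rw [Fin.lt_def, Fin.val_rev]; omega
  have l6 : b.rev < o.rev := Fin.rev_lt_rev.2 hob
  have hr : mJ σ o j k1 k2 k3 u w * (tv o b.rev h3 w * tv b o.rev hbor (-σ w)) *
      sJ σ o b h1 1 ∈ T := by
    apply closed_step hcl hx (g := (mJ σ b j m1 m2 hbb u w)⁻¹)
      (inv_mem (mJ_mem_gJ hσ m1 m2 hbb hj hs)) ?_
      (ut_mul (ut_mul (ut_mul (ut_mul (ut_transvection l2 _) (ut_transvection l1 _))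
        (ut_transvection l3 _)) (ut_mul (ut_transvection l4 _) (ut_transvection l5 _)))
        (ut_mul (ut_transvection hob _) (ut_transvection l6 _)))
    rw [inv_mul_eq_iff_eq_mul, ← mul_assoc, eq_mul_inv_iff_mul_eq]
    apply Subtype.ext
    show transvection o b 1 * transvection b.rev o.rev (-σ 1) *
        (transvection j b.rev (-σ u) * transvection b j u * transvection b b.rev w) =
      transvection j b.rev (-σ u) * transvection b j u * transvection b b.rev w *
        (transvection j o.rev (-σ u) * transvection o j u * transvection o o.rev w *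
          (transvection o b.rev w * transvection b o.rev (-σ w)) *
          (transvection o b 1 * transvection b.rev o.rev (-σ 1)))
    rw [map_one]
    simp only [← Matrix.mul_assoc] at key ⊢
    exact key
  exact (Subgroup.mul_mem_cancel_right T (hS2 w)).1 ((Subgroup.mul_mem_cancel_right T hx).1 hr)

theorem cl_v2 {σ : K →+* K} (hσ : ∀ t, σ (σ t) = t)
    {T : Subgroup (SpecialLinearGroup (Fin n) K)}
    (hcl : ∀ t ∈ T, ∀ g ∈ gJ n σ, UT (g * t * g⁻¹).1 → g * t * g⁻¹ ∈ T)
    {o b j : Fin n} (hob : o < b) (hbj : b < j) (hj : j.rev = j)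
    (h3 : o ≠ b.rev) (hbor : b ≠ o.rev)
    (hS2 : ∀ t, tv o b.rev h3 t * tv b o.rev hbor (-σ t) ∈ T)
    (k1 : o ≠ j) (k2 : j ≠ o.rev) (k3 : o ≠ o.rev)
    {u w : K} (hs : w + σ w + u * σ u = 0) (hM : mJ σ o j k1 k2 k3 u w ∈ T)
    (m1 : b ≠ j) (m2 : j ≠ b.rev) (hbb : b ≠ b.rev) : mJ σ b j m1 m2 hbb u w ∈ T := by
  have hjv : n = 2 * (j : ℕ) + 1 := by
    have := congrArg Fin.val hj
    rw [Fin.val_rev] at this
    omega
  have hobv : (o : ℕ) < b := hob
  have hbjv : (b : ℕ) < j := hbj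
  have h1 : o ≠ b := ne_of_lt hob
  have hp : Function.Injective ![o, b, j, b.rev, o.rev] :=
    inj5 h1 k1 h3 k3 m1 hbb hbor m2 k2 (rne h1)
  have key := congrArg (emb ![o, b, j, b.rev, o.rev]) (sm_v2 u (σ u) w (σ w) hs)
  simp only [emb_mul hp, emb_transvection] at key
  have l1 : o < j := lt_trans hob hbj
  have l2 : j < o.rev := by rw [Fin.lt_def, Fin.val_rev]; omega
  have l3 : o < o.rev := lt_trans l1 l2
  have l4 : o < b.rev := by rw [Fin.lt_def, Fin.val_rev]; omega
  have l5 : b < o.rev := by rw [Fin.lt_def, Fin.val_rev]; omega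
  have l7 : j < b.rev := by rw [Fin.lt_def, Fin.val_rev]; omega
  have l8 : b < b.rev := lt_trans hbj l7
  have hr : mJ σ o j k1 k2 k3 u w * mJ σ b j m1 m2 hbb u w *
      (tv o b.rev h3 (-σ w) * tv b o.rev hbor w) ∈ T := by
    apply closed_step hcl hM (g := sJ σ b o h1.symm 1)
      (sJ_mem_gJ hσ h1.symm hbb k3 hbor 1) ?_
      (ut_mul (ut_mul (ut_mul (ut_mul (ut_transvection l2 _) (ut_transvection l1 _))
        (ut_transvection l3 _)) (ut_mul (ut_mul (ut_transvection l7 _) (ut_transvection hbj _))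
        (ut_transvection l8 _))) (ut_mul (ut_transvection l4 _) (ut_transvection l5 _)))
    apply Subtype.ext
    show transvection b o 1 * transvection o.rev b.rev (-σ 1) *
        (transvection j o.rev (-σ u) * transvection o j u * transvection o o.rev w) =
      transvection j o.rev (-σ u) * transvection o j u * transvection o o.rev w *
        (transvection j b.rev (-σ u) * transvection b j u * transvection b b.rev w) *
          (transvection o b.rev (-σ w) * transvection b o.rev w) *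
          (transvection b o 1 * transvection o.rev b.rev (-σ 1))
    rw [map_one]
    exact key
  have h5 := hS2 (-σ w)
  rw [map_neg, hσ, neg_neg] at h5
  exact (Subgroup.mul_mem_cancel_left T hM).1 ((Subgroup.mul_mem_cancel_right T h5).1 hr)

/-- `uJ` has no proper nontrivial strongly closed subgroups. -/
theorem uJ_closed [Finite K] {σ : K →+* K} (hσ : UD σ) (p : ℕ) [Fact p.Prime] [CharP K p]
    (hn : 4 ≤ n) (T : Subgroup (SpecialLinearGroup (Fin n) K)) (hT : T ≤ uJ n σ) (hT1 : T ≠ ⊥)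
    (hcl : ∀ t ∈ T, ∀ g ∈ gJ n σ, UT (g * t * g⁻¹).1 → g * t * g⁻¹ ∈ T) : T = uJ n σ := by
  haveI : Finite (SpecialLinearGroup (Fin n) K) := sl_finite
  have hUp : IsPGroup p (uJ n σ) := (uni_isPGroup p).to_le inf_le_left
  haveI hnil : Group.IsNilpotent (uJ n σ) := hUp.isNilpotent
  haveI hnorm : (T.subgroupOf (uJ n σ)).Normal := by
    constructor
    intro t ht g
    rw [Subgroup.mem_subgroupOf] at ht ⊢
    exact hcl _ ht g g.2.2 (mul_mem (mul_mem g.2 t.2) (inv_mem g.2)).1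
  have hne : T.subgroupOf (uJ n σ) ≠ ⊥ := by
    intro h
    apply hT1
    rw [Subgroup.subgroupOf_eq_bot] at h
    exact (disjoint_self).1 (h.mono_right hT)
  have h1 := Cfsg.Agent.S0065.result (T.subgroupOf (uJ n σ)) hne
  obtain ⟨⟨z, hz⟩, hz1⟩ := (Subgroup.ne_bot_iff_exists_ne_one).1 h1
  obtain ⟨hzT, hzC⟩ := hz
  have hzT : z ∈ T.subgroupOf (uJ n σ) := hzT
  have hzC : z ∈ Subgroup.center (uJ n σ) := hzC
  rw [Subgroup.mem_subgroupOf] at hzT
  have hzU : (z : SpecialLinearGroup (Fin n) K) ∈ uJ n σ := z.2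
  have hzne : (z : SpecialLinearGroup (Fin n) K) ≠ 1 := by
    intro h
    apply hz1
    apply Subtype.ext
    apply Subtype.ext
    exact h
  have hcomm : ∀ u ∈ uJ n σ, u * (z : SpecialLinearGroup (Fin n) K) =
      (z : SpecialLinearGroup (Fin n) K) * u := by
    intro u hu
    have h2 := Subgroup.mem_center_iff.1 hzC ⟨u, hu⟩
    exact congrArg Subtype.val h2
  obtain ⟨o, ho⟩ : ∃ o : Fin n, (o : ℕ) = 0 := ⟨⟨0, by omega⟩, rfl⟩
  have hoo : o ≠ o.rev := ne_of_val_ne (by rw [Fin.val_rev]; omega)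
  have hzeq := uJ_center hσ (by omega) hzU.1 hcomm o o.rev ho (by rw [Fin.val_rev]; omega) hoo
  obtain ⟨c, hc⟩ : ∃ c, c = (z : SpecialLinearGroup (Fin n) K).1 o o.rev := ⟨_, rfl⟩
  rw [← hc] at hzeq
  have hc0 : c ≠ 0 := by
    rintro rfl
    rw [tv_zero] at hzeq
    exact hzne hzeq
  have hcσ : σ c = -c := tv_rev_gJ_coeff hoo (by rw [← hzeq]; exact hzU.2)
  have hcT : tv o o.rev hoo c ∈ T := by rw [← hzeq]; exact hzT
  obtain ⟨ε, hε0, hε⟩ := hσ.eps
  have hLo := cl_i hσ hn hcl ho hoo hc0 hcσ hcT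
  have hL : ∀ (a : Fin n) (ha : a < a.rev) (r : K), σ r = -r →
      tv a a.rev (ne_of_lt ha) r ∈ T := by
    intro a ha r hr
    by_cases hao : a = o
    · subst hao
      exact hLo r hr
    · have hoa : o < a := by
        rw [Fin.lt_def, ho]
        exact Nat.pos_of_ne_zero (fun h => hao (Fin.ext (h.trans ho.symm)))
      exact cl_ii hσ.inv hcl hoa ha hoo (hLo r hr)
  have hS : ∀ (a b : Fin n) (hab : a < b), b < a.rev → b ≠ b.rev → ∀ t : K,
      sJ σ a b (ne_of_lt hab) t ∈ T := by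
    intro a b hab hba hbb t
    rcases lt_or_gt_of_ne hbb with hlt | hgt
    · exact cl_iv hσ.inv hcl hL hε0 hε hab hlt t
    · have hac : a < b.rev := by
        have := Fin.rev_lt_rev.2 hba
        rwa [Fin.rev_rev] at this
      have hc : b.rev < b.rev.rev := by rw [Fin.rev_rev]; exact hgt
      have h3 : a ≠ b.rev.rev := by rw [Fin.rev_rev]; exact ne_of_lt hab
      have hcar : b.rev ≠ a.rev := rne (ne_of_lt hab)
      have h6 := cl_iii hσ.inv hcl hL hε0 hε hac hc h3 hcar t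
      have h7 : sJ σ a b (ne_of_lt hab) t =
          tv a b.rev.rev h3 t * tv b.rev a.rev hcar (-σ t) := by
        apply Subtype.ext
        show transvection a b t * transvection b.rev a.rev (-σ t) =
          transvection a b.rev.rev t * transvection b.rev a.rev (-σ t)
        rw [Fin.rev_rev]
      rw [h7]
      exact h6
  apply le_antisymm hT
  apply uJ_le_of_root hσ T hL hS
  intro a j h1 h2 h3 haj hj t s hs
  have hjv : n = 2 * (j : ℕ) + 1 := by
    have := congrArg Fin.val hj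
    rw [Fin.val_rev] at this
    omega
  have hajv : (a : ℕ) < j := haj
  have hS2 : ∀ (b : Fin n), o < b → b < j → ∀ (h3 : o ≠ b.rev) (hbor : b ≠ o.rev) (t : K),
      tv o b.rev h3 t * tv b o.rev hbor (-σ t) ∈ T := by
    intro b hob hbj h3 hbor t
    have hobv : (o : ℕ) < b := hob
    have hbjv : (b : ℕ) < j := hbj
    exact cl_iii hσ.inv hcl hL hε0 hε hob (by rw [Fin.lt_def, Fin.val_rev]; omega) h3 hbor t
  have k1 : o ≠ j := ne_of_val_ne (by omega)
  have k2 : j ≠ o.rev := ne_of_val_ne (by rw [Fin.val_rev]; omega)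
  obtain ⟨o1, ho1⟩ : ∃ o1 : Fin n, (o1 : ℕ) = 1 := ⟨⟨1, by omega⟩, rfl⟩
  have hoo1 : o < o1 := by rw [Fin.lt_def]; omega
  have ho1j : o1 < j := by rw [Fin.lt_def]; omega
  have h31 : o ≠ o1.rev := ne_of_val_ne (by rw [Fin.val_rev]; omega)
  have h41 : o1 ≠ o.rev := ne_of_val_ne (by rw [Fin.val_rev]; omega)
  have hMo : mJ σ o j k1 k2 hoo t s ∈ T :=
    cl_v1 hσ.inv hcl hoo1 ho1j hj
      (hS o o1 hoo1 (by rw [Fin.lt_def, Fin.val_rev]; omega)
        (ne_of_val_ne (by rw [Fin.val_rev]; omega)) 1) h31 h41 (hS2 o1 hoo1 ho1j h31 h41)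
      k1 k2 hoo hs
  by_cases hao : a = o
  · subst hao
    exact hMo
  · have hoa : o < a := by
      rw [Fin.lt_def, ho]
      exact Nat.pos_of_ne_zero (fun h => hao (Fin.ext (h.trans ho.symm)))
    have hoav : (o : ℕ) < a := hoa
    have h3a : o ≠ a.rev := ne_of_val_ne (by rw [Fin.val_rev]; omega)
    have h4a : a ≠ o.rev := ne_of_val_ne (by rw [Fin.val_rev]; omega)
    exact cl_v2 hσ.inv hcl hoa haj hj h3a h4a (hS2 a hoa haj h3a h4a) k1 k2 hoo hs hMo h1 h2 h3

end Un9

end Cfsg.Agent.Helper25
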