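import Mathlib
import Cfsg.Agent.Helper25.Un9
import Cfsg.Agent.Helper25.Sp7
import Cfsg.Prelude.Def_Classical

set_option autoImplicit false

namespace Cfsg.Agent.Helper25

open Matrix

section Un10

variable {n : ℕ} {K : Type*} [Field K]

theorem uX_closed [Finite K] {σ : K →+* K} (hσ : UD σ) (p : ℕ) [Fact p.Prime] [CharP K p]
    (hn : 4 ≤ n) (T : Subgroup ↥(gJ n σ)) (hT : T ≤ uX n σ) (hT1 : T ≠ ⊥)
    (hcl : ∀ t ∈ T, ∀ g : ↥(gJ n σ), g * t * g⁻¹ ∈ uX n σ → g * t * g⁻¹ ∈ T) : T = uX n σ := by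
  have key := uJ_closed hσ p hn (T.map (gJ n σ).subtype) ?_ ?_ ?_
  · apply le_antisymm hT
    intro u hu
    have h1 : u.1 ∈ uJ n σ := mem_uJ.2 ⟨hu, u.2⟩
    rw [← key] at h1
    obtain ⟨t, ht, hte⟩ := h1
    have h2 : t = u := Subtype.ext hte
    rw [← h2]
    exact ht
  · rintro _ ⟨t, ht, rfl⟩
    exact mem_uJ.2 ⟨hT ht, t.2⟩
  · intro h
    exact hT1 ((Subgroup.map_eq_bot_iff_of_injective T (Subgroup.subtype_injective _)).1 h)
  · rintro _ ⟨t, ht, rfl⟩ g hg hUT
    exact ⟨⟨g, hg⟩ * t * ⟨g, hg⟩⁻¹, hcl t ht ⟨g, hg⟩ hUT, rfl⟩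

theorem simpleDataX_uX [Finite K] {σ : K →+* K} (hσ : UD σ) (p : ℕ) [Fact p.Prime] [CharP K p]
    (hn : 4 ≤ n) :
    SimpleDataX (QuotientGroup.mk' (Subgroup.center ↥(gJ n σ))) p (uX n σ) := by
  refine ⟨?_, uX_closed hσ p hn, GoodY p n σ, normalizer_le_closure hσ p hn, fun y hy => hy⟩
  intro h
  obtain ⟨ε, hε0, hε⟩ := hσ.eps
  obtain ⟨o, ho⟩ : ∃ o : Fin n, (o : ℕ) = 0 := ⟨⟨0, by omega⟩, rfl⟩
  have hoo : o < o.rev := by rw [Fin.lt_def, Fin.val_rev]; omega
  have h1 : (⟨tv o o.rev (ne_of_lt hoo) ε, tv_rev_mem_gJ _ hε⟩ : ↥(gJ n σ)) ∈ uX n σ :=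
    ut_transvection hoo ε
  rw [h, Subgroup.mem_bot] at h1
  have h2 : transvection o o.rev ε o o.rev = (1 : Matrix (Fin n) (Fin n) K) o o.rev :=
    congrArg (fun x : ↥(gJ n σ) => x.1.1 o o.rev) h1
  unfold transvection at h2
  rw [Matrix.add_apply, Matrix.one_apply_ne (ne_of_lt hoo), Matrix.single_apply_same,
    zero_add] at h2
  exact hε0 h2

theorem goodRX_of_ker {X G G' : Type*} [Group X] [Group G] [Group G'] {π : X →* G}
    {π' : X →* G'} (hk : ∀ x, π x = 1 → π' x = 1) {S R : Subgroup X} (h : GoodRX π S R) :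
    GoodRX π' S R := by
  obtain ⟨h1, h2, h3, h4⟩ := h
  refine ⟨h1, h2, ?_, h4⟩
  intro A hA
  obtain ⟨r, hr, hrA⟩ := h3 A hA
  refine ⟨r, hr, ?_⟩
  have h5 : π (r⁻¹ * A) = 1 := by rw [map_mul, map_inv, hrA, inv_mul_cancel]
  have h6 := hk _ h5
  rw [map_mul, map_inv, inv_mul_eq_one] at h6
  exact h6

theorem simpleDataX_of_ker {X G G' : Type*} [Group X] [Group G] [Group G'] {π : X →* G}
    {π' : X →* G'} (hk : ∀ x, π x = 1 → π' x = 1) {p : ℕ} {S : Subgroup X}
    (h : SimpleDataX π p S) : SimpleDataX π' p S := by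
  obtain ⟨h1, h2, Y, h3, h4⟩ := h
  refine ⟨h1, h2, Y, h3, ?_⟩
  intro y hy
  obtain ⟨h5, h6⟩ := h4 y hy
  refine ⟨h5, ?_⟩
  rcases h6 with h6 | h6 | ⟨R, hR, h6⟩
  · exact Or.inl h6
  · exact Or.inr (Or.inl (hk y h6))
  · exact Or.inr (Or.inr ⟨R, goodRX_of_ker hk hR, h6⟩)

/-- Conjugate transpose with respect to `σ`. -/
def hc (σ : K →+* K) (A : Matrix (Fin n) (Fin n) K) : Matrix (Fin n) (Fin n) K := (A.map σ)ᵀ

theorem hc_apply (σ : K →+* K) (A : Matrix (Fin n) (Fin n) K) (i j : Fin n) :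
    hc σ A i j = σ (A j i) := rfl

theorem hc_mul (σ : K →+* K) (A B : Matrix (Fin n) (Fin n) K) :
    hc σ (A * B) = hc σ B * hc σ A := by
  unfold hc
  rw [Matrix.map_mul, Matrix.transpose_mul]

theorem hc_one (σ : K →+* K) : hc σ (1 : Matrix (Fin n) (Fin n) K) = 1 := by
  unfold hc
  rw [Matrix.map_one σ (map_zero σ) (map_one σ), Matrix.transpose_one]

/-- The reversal matrix. -/
def wM (n : ℕ) (K : Type*) [Field K] : Matrix (Fin n) (Fin n) K :=
  fun i j => if j = i.rev then 1 else 0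

theorem wM_mul (M : Matrix (Fin n) (Fin n) K) (i j : Fin n) : (wM n K * M) i j = M i.rev j := by
  rw [Matrix.mul_apply, Finset.sum_eq_single i.rev]
  · unfold wM
    rw [if_pos rfl, one_mul]
  · intro k _ hk
    unfold wM
    rw [if_neg hk, zero_mul]
  · intro h
    exact absurd (Finset.mem_univ _) h

theorem mul_wM (M : Matrix (Fin n) (Fin n) K) (i j : Fin n) : (M * wM n K) i j = M i j.rev := by
  rw [Matrix.mul_apply, Finset.sum_eq_single j.rev]
  · unfold wM
    rw [if_pos (Fin.rev_rev j).symm, mul_one]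
  · intro k _ hk
    unfold wM
    rw [if_neg (fun e => hk (by rw [e, Fin.rev_rev])), mul_zero]
  · intro h
    exact absurd (Finset.mem_univ _) h

theorem wM_mul_self : wM n K * wM n K = 1 := by
  ext i j
  rw [wM_mul, Matrix.one_apply]
  unfold wM
  rw [Fin.rev_rev]
  by_cases h : i = j
  · rw [if_pos h.symm, if_pos h]
  · rw [if_neg (Ne.symm h), if_neg h]

theorem th_eq (σ : K →+* K) (A : Matrix (Fin n) (Fin n) K) :
    th σ A = wM n K * hc σ A * wM n K := by
  ext i j
  rw [mul_wM, wM_mul]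
  rfl

theorem gJ_iff_form {σ : K →+* K} (B : Matrix (Fin n) (Fin n) K) :
    B * th σ B = 1 ↔ hc σ B * wM n K * B = wM n K := by
  rw [th_eq, mul_eq_one_comm]
  constructor
  · intro h
    have h1 := congrArg (fun M => wM n K * M) h
    simp only [← Matrix.mul_assoc, wM_mul_self, Matrix.one_mul, Matrix.mul_one] at h1
    exact h1
  · intro h
    rw [Matrix.mul_assoc, Matrix.mul_assoc, ← Matrix.mul_assoc (hc σ B), h, wM_mul_self]

theorem conj_unitary_iff {σ : K →+* K} {C C' : Matrix (Fin n) (Fin n) K} (h1 : C * C' = 1)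
    (h2 : C' * C = 1) (hC : hc σ C * C = wM n K) (B : Matrix (Fin n) (Fin n) K) :
    hc σ (C * B * C') * (C * B * C') = 1 ↔ B * th σ B = 1 := by
  rw [gJ_iff_form]
  have e1 : hc σ C' * hc σ C = 1 := by rw [← hc_mul, h1, hc_one]
  have e2 : hc σ C * hc σ C' = 1 := by rw [← hc_mul, h2, hc_one]
  have e3 : hc σ (C * B * C') * (C * B * C') = hc σ C' * (hc σ B * wM n K * B) * C' := by
    rw [hc_mul, hc_mul, ← hC]
    simp only [Matrix.mul_assoc]
  rw [e3]
  constructor
  · intro h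
    have h3 := congrArg (fun M => hc σ C * M * C) h
    simp only [Matrix.mul_one] at h3
    have h4 : hc σ C * (hc σ C' * (hc σ B * wM n K * B) * C') * C = hc σ B * wM n K * B := by
      calc hc σ C * (hc σ C' * (hc σ B * wM n K * B) * C') * C
          = (hc σ C * hc σ C') * (hc σ B * wM n K * B) * (C' * C) := by
            simp only [Matrix.mul_assoc]
        _ = hc σ B * wM n K * B := by rw [e2, h2, Matrix.one_mul, Matrix.mul_one]
    rw [h4, hC] at h3
    exact h3
  · intro h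
    rw [h, ← hC]
    calc hc σ C' * (hc σ C * C) * C' = (hc σ C' * hc σ C) * (C * C') := by
          simp only [Matrix.mul_assoc]
      _ = 1 := by rw [e1, h1, Matrix.one_mul]

/-- Conjugation by an invertible matrix, on `SL`. -/
def conjSL (C C' : Matrix (Fin n) (Fin n) K) (h1 : C * C' = 1) (h2 : C' * C = 1) :
    SpecialLinearGroup (Fin n) K ≃* SpecialLinearGroup (Fin n) K where
  toFun B := ⟨C * B.1 * C', by
    rw [Matrix.det_mul, Matrix.det_mul, B.2, mul_one, ← Matrix.det_mul, h1, Matrix.det_one]⟩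
  invFun A := ⟨C' * A.1 * C, by
    rw [Matrix.det_mul, Matrix.det_mul, A.2, mul_one, ← Matrix.det_mul, h2, Matrix.det_one]⟩
  left_inv B := by
    apply Subtype.ext
    show C' * (C * B.1 * C') * C = B.1
    calc C' * (C * B.1 * C') * C = (C' * C) * B.1 * (C' * C) := by simp only [Matrix.mul_assoc]
      _ = B.1 := by rw [h2, Matrix.one_mul, Matrix.mul_one]
  right_inv A := by
    apply Subtype.ext
    show C * (C' * A.1 * C) * C' = A.1
    calc C * (C' * A.1 * C) * C' = (C * C') * A.1 * (C * C') := by simp only [Matrix.mul_assoc]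
      _ = A.1 := by rw [h1, Matrix.one_mul, Matrix.mul_one]
  map_mul' A B := by
    apply Subtype.ext
    show C * (A.1 * B.1) * C' = C * A.1 * C' * (C * B.1 * C')
    calc C * (A.1 * B.1) * C' = C * A.1 * 1 * B.1 * C' := by
          rw [Matrix.mul_one]; simp only [Matrix.mul_assoc]
      _ = C * A.1 * (C' * C) * B.1 * C' := by rw [h2]
      _ = C * A.1 * C' * (C * B.1 * C') := by simp only [Matrix.mul_assoc]

theorem conjSL_val (C C' : Matrix (Fin n) (Fin n) K) (h1 : C * C' = 1) (h2 : C' * C = 1)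
    (B : SpecialLinearGroup (Fin n) K) : (conjSL C C' h1 h2 B).1 = C * B.1 * C' := rfl

theorem mem_SU_iff {q : ℕ} {σ : K →+* K} (hσq : ∀ t, σ t = t ^ q)
    (A : SpecialLinearGroup (Fin n) K) : A ∈ Cfsg.SU n K q ↔ hc σ A.1 * A.1 = 1 := by
  have key : ∀ x y : Fin n → K, Cfsg.hermForm n K q x y = x ⬝ᵥ (σ ∘ y) := by
    intro x y
    unfold Cfsg.hermForm dotProduct
    refine Finset.sum_congr rfl fun i _ => ?_
    rw [Function.comp_apply, hσq]
  have h1 : ∀ v : Fin n → K, σ ∘ (A.1 *ᵥ v) = A.1.map σ *ᵥ (σ ∘ v) := fun v => by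
    funext i
    exact RingHom.map_mulVec σ A.1 v i
  have h2 : ∀ u v : Fin n → K, Cfsg.hermForm n K q (A.1 *ᵥ u) (A.1 *ᵥ v) =
      u ⬝ᵥ ((A.1ᵀ * A.1.map σ) *ᵥ (σ ∘ v)) := by
    intro u v
    rw [key, h1, ← Matrix.mulVec_mulVec, dotProduct_comm (A.1 *ᵥ u), Matrix.dotProduct_mulVec,
      ← Matrix.mulVec_transpose, dotProduct_comm]
  have h3 : hc σ A.1 * A.1 = 1 ↔ A.1ᵀ * A.1.map σ = 1 := by
    rw [← Matrix.transpose_eq_one]
    unfold hc
    rw [Matrix.transpose_mul, Matrix.transpose_transpose]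
  rw [h3]
  constructor
  · intro h
    have h4 : ∀ u v : Fin n → K, u ⬝ᵥ ((A.1ᵀ * A.1.map σ) *ᵥ (σ ∘ v)) = u ⬝ᵥ (σ ∘ v) := by
      intro u v
      rw [← h2, ← key]
      exact h u v
    ext j k
    have h5 := h4 (Pi.single j 1) (Pi.single k 1)
    have h6 : σ ∘ (Pi.single k (1 : K) : Fin n → K) = Pi.single k 1 := by
      funext i
      rw [Function.comp_apply]
      by_cases hik : i = k
      · rw [hik, Pi.single_eq_same, map_one]
      · rw [Pi.single_eq_of_ne hik, map_zero]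
    rw [h6, Matrix.mulVec_single_one, single_one_dotProduct, single_one_dotProduct] at h5
    rw [Matrix.one_apply]
    rw [Pi.single_apply] at h5
    exact h5
  · intro h u v
    show Cfsg.hermForm n K q (A.1 *ᵥ u) (A.1 *ᵥ v) = _
    rw [h2, h, Matrix.one_mulVec, key]

/-- The base change matrix between the two Hermitian forms. -/
def cM (d z : K) : Matrix (Fin n) (Fin n) K := fun i k =>
  if k = i then (if i ≤ i.rev then 1 else d * (z - 1))
  else if k = i.rev then (if i < i.rev then z else d) else 0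

theorem cM_diag (d z : K) (i : Fin n) :
    cM d z i i = if i ≤ i.rev then 1 else d * (z - 1) := by
  unfold cM
  rw [if_pos rfl]

theorem cM_anti (d z : K) {i k : Fin n} (hk : k = i.rev) (hne : i ≠ i.rev) :
    cM d z i k = if i < i.rev then z else d := by
  unfold cM
  rw [if_neg (by rw [hk]; exact hne.symm), if_pos hk]

theorem cM_zero (d z : K) {i k : Fin n} (h1 : k ≠ i) (h2 : k ≠ i.rev) : cM d z i k = 0 := by
  unfold cM
  rw [if_neg h1, if_neg h2]

theorem cM_form {σ : K →+* K} {d z : K} (hd : d * σ d = -1) (hz : z + σ z = 1) :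
    hc σ (cM d z) * cM d z = wM n K := by
  ext k j
  rw [Matrix.mul_apply]
  simp only [hc_apply]
  by_cases hk : k = k.rev
  · rw [Finset.sum_eq_single k]
    · rw [cM_diag, if_pos (le_of_eq hk), map_one, one_mul]
      by_cases hj : j = k
      · rw [hj, cM_diag, if_pos (le_of_eq hk)]
        unfold wM
        rw [if_pos hk]
      · rw [cM_zero d z hj (by rw [← hk]; exact hj)]
        unfold wM
        rw [if_neg (by rw [← hk]; exact hj)]
    · intro i _ hi
      rw [cM_zero d z (Ne.symm hi) (fun e => hi (by rw [hk, e, Fin.rev_rev])), map_zero,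
        zero_mul]
    · intro h
      exact absurd (Finset.mem_univ _) h
  · have hk' : k.rev ≠ k.rev.rev := by rw [Fin.rev_rev]; exact Ne.symm hk
    rw [Finset.sum_eq_add k k.rev hk]
    · rw [cM_diag d z k, cM_anti d z (Fin.rev_rev k).symm hk']
      by_cases hj : j = k
      · rw [hj, cM_diag d z k, cM_anti d z (Fin.rev_rev k).symm hk']
        unfold wM
        rw [if_neg hk]
        rcases lt_or_gt_of_ne hk with hlt | hgt
        · simp only [Fin.rev_rev, hlt, le_of_lt hlt, not_lt_of_gt hlt, not_le_of_gt hlt,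
            ↓reduceIte, map_one]
          linear_combination hd
        · simp only [Fin.rev_rev, hgt, le_of_lt hgt, not_lt_of_gt hgt, not_le_of_gt hgt,
            ↓reduceIte, map_mul, map_sub, map_one]
          linear_combination (σ z - 1) * (z - 1) * hd + hz
      by_cases hj2 : j = k.rev
      · rw [hj2, cM_anti d z rfl hk, cM_diag d z k.rev]
        unfold wM
        rw [if_pos rfl]
        rcases lt_or_gt_of_ne hk with hlt | hgt
        · simp only [Fin.rev_rev, hlt, le_of_lt hlt, not_lt_of_gt hlt, not_le_of_gt hlt,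
            ↓reduceIte, map_one]
          linear_combination (z - 1) * hd
        · simp only [Fin.rev_rev, hgt, le_of_lt hgt, not_lt_of_gt hgt, not_le_of_gt hgt,
            ↓reduceIte, map_mul, map_sub, map_one]
          linear_combination (σ z - 1) * hd
      · rw [cM_zero d z hj hj2, cM_zero d z hj2 (by rw [Fin.rev_rev]; exact hj), mul_zero,
          mul_zero, add_zero]
        unfold wM
        rw [if_neg hj2]
    · intro i _ hi
      rw [cM_zero d z (Ne.symm hi.1) (fun e => hi.2 (by rw [e, Fin.rev_rev])), map_zero,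
        zero_mul]
    · intro h
      exact absurd (Finset.mem_univ _) h
    · intro h
      exact absurd (Finset.mem_univ _) h

theorem exists_gJ_equiv_SU [Fintype K] {q : ℕ} (hK : Fintype.card K = q ^ 2) :
    ∃ σ : K →+* K, UD σ ∧ Nonempty (↥(gJ n σ) ≃* ↥(Cfsg.SU n K q)) := by
  obtain ⟨σ, hσq, hσ⟩ := UD.of_card hK
  refine ⟨σ, hσ, ?_⟩
  obtain ⟨d, hd⟩ := hσ.norm (-1) (by rw [map_neg, map_one])
  obtain ⟨z, hz⟩ := hσ.tr 1 (map_one σ)
  have hC := cM_form (n := n) hd hz
  obtain ⟨C, hCdef⟩ : ∃ C : Matrix (Fin n) (Fin n) K, C = cM d z := ⟨_, rfl⟩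
  rw [← hCdef] at hC
  obtain ⟨C', hC'⟩ : ∃ C' : Matrix (Fin n) (Fin n) K, C' = wM n K * hc σ C := ⟨_, rfl⟩
  have h2 : C' * C = 1 := by rw [hC', Matrix.mul_assoc, hC, wM_mul_self]
  have h1 : C * C' = 1 := mul_eq_one_comm.1 h2
  have hmem : ∀ B : SpecialLinearGroup (Fin n) K,
      conjSL C C' h1 h2 B ∈ Cfsg.SU n K q ↔ B ∈ gJ n σ := by
    intro B
    rw [mem_SU_iff hσq, conjSL_val, conj_unitary_iff h1 h2 hC]
    exact ⟨fun h => mem_gJ_of_val h, fun h => congrArg Subtype.val h⟩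
  exact ⟨{ toFun := fun B => ⟨conjSL C C' h1 h2 B.1, (hmem B.1).2 B.2⟩
           invFun := fun A => ⟨(conjSL C C' h1 h2).symm A.1,
             (hmem _).1 (by rw [MulEquiv.apply_symm_apply]; exact A.2)⟩
           left_inv := fun B => Subtype.ext ((conjSL C C' h1 h2).symm_apply_apply B.1)
           right_inv := fun A => Subtype.ext ((conjSL C C' h1 h2).apply_symm_apply A.1)
           map_mul' := fun A B => Subtype.ext (map_mul (conjSL C C' h1 h2) A.1 B.1) }⟩

/-- The `p`-fusion system of `PSU_n(K)` (`char K = p`, `n ≥ 4`) on a Sylow `p`-subgroup is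
simple. -/
theorem psu_fusion_simple [Fintype K] (p q : ℕ) [Fact p.Prime] [CharP K p]
    (hK : Fintype.card K = q ^ 2) (hn : 4 ≤ n) (S : Sylow p (Cfsg.PSU n K q)) :
    (Cfsg.groupFusionSystem (S : Subgroup (Cfsg.PSU n K q))).IsSimple p := by
  obtain ⟨σ, hσ, ⟨e⟩⟩ := exists_gJ_equiv_SU (n := n) hK
  haveI : Finite (SpecialLinearGroup (Fin n) K) := sl_finite
  haveI := gJ_finite (n := n) σ
  obtain ⟨π, hπ⟩ : ∃ π : ↥(gJ n σ) →* Cfsg.PSU n K q,
      π = (QuotientGroup.mk' (Subgroup.center ↥(Cfsg.SU n K q))).comp e.toMonoidHom :=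
    ⟨_, rfl⟩
  have hsurj : Function.Surjective π := by
    rw [hπ]
    exact (QuotientGroup.mk'_surjective _).comp e.surjective
  have hker : ∀ x, π x = 1 ↔ x ∈ Subgroup.center ↥(gJ n σ) := by
    intro x
    rw [hπ, MonoidHom.comp_apply, QuotientGroup.mk'_apply, QuotientGroup.eq_one_iff,
      Subgroup.mem_center_iff, Subgroup.mem_center_iff]
    constructor
    · intro h g
      apply e.injective
      rw [map_mul, map_mul]
      exact h (e g)
    · intro h g
      obtain ⟨g', rfl⟩ := e.surjective g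
      have h3 := congrArg e (h g')
      rw [map_mul, map_mul] at h3
      exact h3
  have hX : SimpleDataX π p (uX n σ) :=
    simpleDataX_of_ker (fun x hx => (hker x).2 ((QuotientGroup.eq_one_iff x).1 hx))
      (simpleDataX_uX hσ p hn)
  have hD : SimpleData p ((uX n σ).map π) := by
    apply simpleData_of_X π hsurj _ _ (uX_isPGroup σ p) hX
    · intro z hz
      exact (hker z).1 (MonoidHom.mem_ker.1 hz)
    · intro z hz k hk
      exact gJ_center_pElt hσ (by omega) p ((hker z).1 (MonoidHom.mem_ker.1 hz)) hk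
  obtain ⟨P, hP⟩ := uX_sylow (n := n) hσ p
  obtain ⟨g, hg⟩ := MulAction.exists_smul_eq (Cfsg.PSU n K q) (P.mapSurjective hsurj) S
  have h1 := hD.map (MulAut.conj g)
  have h2 : (S : Subgroup (Cfsg.PSU n K q)) =
      ((uX n σ).map π).map (MulAut.conj g).toMonoidHom := by
    rw [← hg, Sylow.coe_subgroup_smul, Sylow.coe_mapSurjective, hP]
    rfl
  rw [← h2] at h1
  exact simple_of_data S h1

end Un10

end Cfsg.Agent.Helper25
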