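import Mathlib
import Cfsg.Agent.Helper25.UniTri6
import Cfsg.Agent.Helper25.RadCrit2

set_option autoImplicit false

namespace Cfsg.Agent.Helper25

open Matrix Cfsg

section UniTri7

variable {n : ℕ} {K : Type*} [Field K] [Fintype K]

theorem conj_pElt {G : Type*} [Group G] {p k : ℕ} {x : G} (hx : x ^ p ^ k = 1) (g : G) :
    (g * x * g⁻¹) ^ p ^ k = 1 := by
  rw [conj_pow, hx, mul_one, mul_inv_cancel]

theorem goodR_rad (p : ℕ) [Fact p.Prime] [CharP K p] (hn : 3 ≤ n) (a b : Fin n)
    (hab : (b : ℕ) = a + 1) :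
    GoodR ((uniSub n K).map (prj n K)) ((radSub K a b hab).map (prj n K)) := by
  have hn0 : 0 < n := by omega
  refine ⟨Subgroup.map_mono (radSub_le a b hab), ?_, ?_,
    prj n K (tv b a (adj_ne hab).symm 1), ?_, ?_⟩
  · exact (Subgroup.map_mono (uni_le_normalizer_rad a b hab)).trans
      (Subgroup.le_normalizer_map _)
  · intro g hg
    obtain ⟨A, rfl⟩ := prj_surj g
    have hcomm : ∀ r ∈ radSub K a b hab, A * r = r * A := by
      intro r hr
      have h1 : prj n K r * prj n K A = prj n K A * prj n K r :=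
        Subgroup.mem_centralizer_iff.1 hg _ (Subgroup.mem_map_of_mem _ hr)
      obtain ⟨j, hj⟩ := uni_pow_eq_one p (radSub_le a b hab hr)
      have e : prj n K (A * r * A⁻¹) = prj n K r := by
        rw [map_mul, map_mul, map_inv, ← h1, mul_inv_cancel_right]
      have h2 : A * r * A⁻¹ ∈ uniSub n K := by
        apply uni_lift p hn0 (conj_pElt hj A)
        rw [e]
        exact Subgroup.mem_map_of_mem _ (radSub_le a b hab hr)
      have h3 : A * r * A⁻¹ = r := uni_inj p hn0 h2 (radSub_le a b hab hr) e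
      calc A * r = (A * r * A⁻¹) * A := by group
        _ = r * A := by rw [h3]
    obtain ⟨hup, hab0, hdg⟩ := rad_centralizer hn a b hab hcomm
    obtain ⟨r, hr1, hr2, hr3⟩ := constdiag hn0 hup hdg
    rw [hr3]
    exact Subgroup.mem_map_of_mem _ (mem_radSub.2 ⟨hr1, hr2 a b hab0⟩)
  · exact Subgroup.le_normalizer_map _
      (Subgroup.mem_map_of_mem _ (tvl_mem_normalizer_rad a b hab 1))
  · rintro _ ⟨u, hu, rfl⟩ hmem
    obtain ⟨j, hj⟩ := uni_pow_eq_one p hu
    have e : prj n K (tv b a (adj_ne hab).symm 1) * prj n K u *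
        (prj n K (tv b a (adj_ne hab).symm 1))⁻¹ =
        prj n K (tv b a (adj_ne hab).symm 1 * u * (tv b a (adj_ne hab).symm 1)⁻¹) := by
      rw [map_mul, map_mul, map_inv]
    rw [e] at hmem ⊢
    have h2 := uni_lift p hn0 (conj_pElt hj _) hmem
    exact Subgroup.mem_map_of_mem _ (rad_of_conj a b hab hu h2)

theorem simpleData_uni (p : ℕ) [Fact p.Prime] [CharP K p] (hn : 3 ≤ n) :
    SimpleData p ((uniSub n K).map (prj n K)) := by
  have hn0 : 0 < n := by omega
  haveI : Finite (SpecialLinearGroup (Fin n) K) := sl_finite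
  haveI : Finite (Matrix.ProjectiveSpecialLinearGroup (Fin n) K) := psl_finite
  refine ⟨?_, ?_, (((uniSub n K).map (prj n K) :
      Subgroup (Matrix.ProjectiveSpecialLinearGroup (Fin n) K)) :
      Set (Matrix.ProjectiveSpecialLinearGroup (Fin n) K)) ∪
      {g | ∃ (a b : Fin n) (hab : a ≠ b) (c : K), c ≠ 0 ∧ (b : ℕ) = a + 1 ∧
        g = prj n K (hd a b hab c)}, ?_, ?_⟩
  · intro h
    obtain ⟨o, ho⟩ : ∃ o : Fin n, (o : ℕ) = 0 := ⟨⟨0, by omega⟩, rfl⟩
    obtain ⟨m, hm⟩ : ∃ m : Fin n, (m : ℕ) = 1 := ⟨⟨1, by omega⟩, rfl⟩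
    have hom : o < m := by rw [Fin.lt_def]; omega
    have h1 : prj n K (tv o m (ne_of_lt hom) 1) ∈ (uniSub n K).map (prj n K) :=
      Subgroup.mem_map_of_mem _ (tv_mem_uniSub hom 1)
    rw [h, Subgroup.mem_bot] at h1
    have h2 := uni_inj p hn0 (tv_mem_uniSub hom (1 : K)) (Subgroup.one_mem _)
      (by rw [h1, map_one])
    have h3 : (transvection o m (1 : K)) o m = (1 : Matrix (Fin n) (Fin n) K) o m :=
      congrFun (congrFun (congrArg Subtype.val h2) o) m
    unfold transvection at h3
    rw [Matrix.add_apply, Matrix.one_apply_ne (ne_of_lt hom), Matrix.single_apply_same,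
      zero_add] at h3
    exact one_ne_zero h3
  · intro T hT hT1 hcl
    have e : T.comap (prj n K) ⊓ uniSub n K = uniSub n K := by
      apply uni_closed p hn _ inf_le_right
      · intro h
        apply hT1
        rw [Subgroup.eq_bot_iff_forall]
        intro t ht
        obtain ⟨u, hu, rfl⟩ := hT ht
        have h5 : u ∈ T.comap (prj n K) ⊓ uniSub n K := ⟨ht, hu⟩
        rw [h, Subgroup.mem_bot] at h5
        rw [h5, map_one]
      · intro t ht g hg
        refine ⟨?_, hg⟩
        show prj n K (g * t * g⁻¹) ∈ T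
        have e2 : prj n K (g * t * g⁻¹) = prj n K g * prj n K t * (prj n K g)⁻¹ := by
          rw [map_mul, map_mul, map_inv]
        rw [e2]
        apply hcl _ ht.1
        rw [← e2]
        exact Subgroup.mem_map_of_mem _ hg
    apply le_antisymm hT
    rintro _ ⟨u, hu, rfl⟩
    rw [← e] at hu
    exact hu.1
  · intro g hg
    obtain ⟨A, rfl⟩ := prj_surj g
    have hconj : ∀ u ∈ uniSub n K, A * u * A⁻¹ ∈ uniSub n K := by
      intro u hu
      obtain ⟨j, hj⟩ := uni_pow_eq_one p hu
      apply uni_lift p hn0 (conj_pElt hj A)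
      rw [map_mul, map_mul, map_inv]
      exact (Subgroup.mem_normalizer_iff.1 hg _).1 (Subgroup.mem_map_of_mem _ hu)
    have hmem := upper_mem_closure (upper_of_norm hconj)
    have h1 := Subgroup.mem_map_of_mem (prj n K) hmem
    rw [MonoidHom.map_closure] at h1
    refine Subgroup.closure_mono ?_ h1
    rintro _ ⟨x, hx | ⟨a, b, hab, c, hc, hab', rfl⟩, rfl⟩
    · exact Or.inl (Subgroup.mem_map_of_mem _ hx)
    · exact Or.inr ⟨a, b, hab, c, hc, hab', rfl⟩
  · rintro x (hx | ⟨a, b, hab, c, hc, hab', rfl⟩)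
    · exact ⟨Subgroup.le_normalizer hx, Or.inl hx⟩
    · refine ⟨Subgroup.le_normalizer_map _
        (Subgroup.mem_map_of_mem _ (hd_mem_normalizer a b hab c hc)),
        Or.inr ⟨(radSub K a b hab').map (prj n K), goodR_rad p hn a b hab', ?_⟩⟩
      have hgen : ∀ (y : SpecialLinearGroup (Fin n) K), y ^ p = 1 →
          y ∈ Subgroup.normalizer ((radSub K a b hab' :
            Subgroup (SpecialLinearGroup (Fin n) K)) : Set (SpecialLinearGroup (Fin n) K)) →
          prj n K y ∈ Subgroup.closure {g | g ∈ Subgroup.normalizer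
            (((radSub K a b hab').map (prj n K) :
              Subgroup (Matrix.ProjectiveSpecialLinearGroup (Fin n) K)) :
              Set (Matrix.ProjectiveSpecialLinearGroup (Fin n) K)) ∧
            ∃ k : ℕ, orderOf g = p ^ k} := by
        intro y hy hyN
        apply Subgroup.subset_closure
        refine ⟨Subgroup.le_normalizer_map _ (Subgroup.mem_map_of_mem _ hyN), ?_⟩
        have h1 : (prj n K y) ^ p = 1 := by rw [← map_pow, hy, map_one]
        have h2 := orderOf_dvd_of_pow_eq_one h1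
        rcases (Nat.dvd_prime (Fact.out : p.Prime)).1 h2 with h3 | h3
        · exact ⟨0, by rw [h3, pow_zero]⟩
        · exact ⟨1, by rw [h3, pow_one]⟩
      have hU : ∀ s : K, tv a b hab s ∈ Subgroup.normalizer ((radSub K a b hab' :
          Subgroup (SpecialLinearGroup (Fin n) K)) : Set (SpecialLinearGroup (Fin n) K)) :=
        fun s => uni_le_normalizer_rad a b hab' (tv_mem_uniSub (adj_lt hab') s)
      have hL : ∀ s : K, tv b a hab.symm s ∈ Subgroup.normalizer ((radSub K a b hab' :
          Subgroup (SpecialLinearGroup (Fin n) K)) : Set (SpecialLinearGroup (Fin n) K)) :=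
        fun s => tvl_mem_normalizer_rad a b hab' s
      unfold hd
      rw [map_mul, map_mul, map_mul]
      exact mul_mem (mul_mem (mul_mem (hgen _ (tv_pow_char p _ _ _ _) (hU _))
        (hgen _ (tv_pow_char p _ _ _ _) (hL _))) (hgen _ (tv_pow_char p _ _ _ _) (hU _)))
        (hgen _ (tv_pow_char p _ _ _ _) (hL _))

/-- The `p`-fusion system of `PSL_n(K)` (`char K = p`, `n ≥ 3`) on any Sylow `p`-subgroup is
simple. -/
theorem psl_simpleData (p : ℕ) [Fact p.Prime] [CharP K p] (hn : 3 ≤ n)
    (S : Sylow p (Matrix.ProjectiveSpecialLinearGroup (Fin n) K)) :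
    SimpleData p (S : Subgroup (Matrix.ProjectiveSpecialLinearGroup (Fin n) K)) := by
  have hn0 : 0 < n := by omega
  haveI : Finite (Matrix.ProjectiveSpecialLinearGroup (Fin n) K) := psl_finite
  obtain ⟨g, hg⟩ := MulAction.exists_smul_eq (Matrix.ProjectiveSpecialLinearGroup (Fin n) K)
    (uniPSL K p hn0) S
  have h1 := (simpleData_uni (K := K) p hn).map (MulAut.conj g)
  have h2 : (S : Subgroup (Matrix.ProjectiveSpecialLinearGroup (Fin n) K)) =
      ((uniSub n K).map (prj n K)).map (MulAut.conj g).toMonoidHom := by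
    rw [← hg, Sylow.coe_subgroup_smul, coe_uniPSL]
    rfl
  rw [h2]
  exact h1

end UniTri7

end Cfsg.Agent.Helper25
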